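import Cfsg.Agent.SUGeo.Root
import Cfsg.Agent.GeoClasses.UnitParabolic

/-!
The two reducible types: stabilisers of an isotropic and of a non-isotropic line.
-/

set_option autoImplicit false
set_option linter.unusedSectionVars false

namespace Cfsg.Agent.SUGeo

open Cfsg.Agent.Classical.U Cfsg.Agent.MinU Cfsg.Agent.MinU.Three Cfsg.Geo
open Cfsg.Agent.ClassicalMax (suGL suGL_not_le_stabilizer)
open scoped MatrixGroups Matrix

universe u

variable {F : Type u} [Field F] {q : ℕ}
variable (hF : SqField F q)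
include hF

/-- Membership of the pulled-back stabiliser of a line. -/
theorem mem_lineStab {v : Fin (1 + 2) → F} (hv : v ≠ 0) {x : SG 1 F q} :
    x ∈ (subspaceStabilizer (Submodule.span F {v})).comap toGL ↔
      x.1.1 v ∈ Submodule.span F {v} := by
  rw [Subgroup.mem_comap, GeoClasses.mem_subspaceStabilizer_iff]
  constructor
  · intro h
    rw [← toGL_mulVec]
    exact (h v).1 (Submodule.mem_span_singleton_self v)
  · intro h w
    obtain ⟨c, hc⟩ := Submodule.mem_span_singleton.1 h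
    have hc0 : c ≠ 0 := fun h0 => hv (by
      rw [h0, zero_smul] at hc
      exact (LinearEquiv.map_eq_zero_iff _).1 hc.symm)
    rw [toGL_mulVec, Submodule.mem_span_singleton, Submodule.mem_span_singleton]
    constructor
    · rintro ⟨a, rfl⟩
      exact ⟨a * c, by rw [map_smul, ← hc, smul_smul]⟩
    · rintro ⟨a, ha⟩
      exact ⟨a / c, x.1.1.injective (by
        rw [map_smul, ← hc, smul_smul, div_mul_cancel₀ _ hc0, ha])⟩

theorem tS_apply {e : Fin (1 + 2) → F} {a : F} (h : TrvCond q e a) (w : Fin (1 + 2) → F) :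
    (tS hF h).1.1 w = w + (a * herm q w e) • e :=
  trv_apply hF h w

/-- A fixed line of a nontrivial transvection that misses its centre is orthogonal to it. -/
theorem perp_of_fix {e c : Fin (1 + 2) → F} {a : F} (h : TrvCond q e a) (ha : a ≠ 0)
    (hec : e ∉ Submodule.span F {c}) (hfix : (tS hF h).1.1 c ∈ Submodule.span F {c}) :
    herm q c e = 0 := by
  by_contra h0
  rw [tS_apply hF] at hfix
  refine hec ?_
  have := (Submodule.span F {c}).smul_mem (a * herm q c e)⁻¹
    (Submodule.sub_mem _ hfix (Submodule.mem_span_singleton_self c))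
  rwa [add_sub_cancel_left, inv_smul_smul₀ (mul_ne_zero ha h0)] at this

omit hF in
theorem span_smul_eq {v w : Fin (1 + 2) → F} (hw : w ≠ 0) (h : w ∈ Submodule.span F {v}) :
    Submodule.span F {w} = Submodule.span F {v} := by
  obtain ⟨c, rfl⟩ := Submodule.mem_span_singleton.1 h
  exact Submodule.span_singleton_smul_eq (IsUnit.mk0 _ fun h0 => hw (by rw [h0, zero_smul])) _

/-- A vector orthogonal to an isotropic one, both isotropic, is a multiple of it. -/
theorem mem_span_of_perp {v w : Fin (1 + 2) → F} (hv : v ≠ 0) (hv0 : herm q v v = 0)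
    (hw0 : herm q w w = 0) (hwv : herm q w v = 0) : w ∈ Submodule.span F {v} := by
  obtain ⟨t, c, hc, ht⟩ := exists_SUG_line hF hv hv0 (pair_spec hF (m := 1)).1.ne_zero (h_ee hF)
  obtain ⟨⟨⟨x, y⟩, z⟩, hz⟩ := (ph hF 1).surjective (t.1.1 w)
  rw [← UG_app t.1, ← hz, ht, herm_smul_right, ← ph_eV hF, herm_ph] at hwv
  rw [← UG_app t.1, ← hz, herm_ph] at hw0
  simp [hF.q_ne_zero, hF.herm_zero_right, hc] at hwv
  subst hwv
  simp [hF.q_ne_zero] at hw0
  obtain rfl := eq_zero_of_norm hF hw0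
  refine Submodule.mem_span_singleton.2 ⟨x * c⁻¹, t.1.1.injective ?_⟩
  rw [map_smul, ht, ← hz, smul_smul, mul_assoc, inv_mul_cancel₀ hc, mul_one, ← ph_eV hF, ← map_smul]
  simp

/-- The first clause. -/
theorem iso_line_maximal (hq : 3 ≤ q) {W : Submodule F (Fin 3 → F)} (hW : W ≠ ⊥)
    (hts : IsTotallySingularFor (Cfsg.hermForm 3 F q) W) :
    IsMaximalIn (suGL 3 F q) (subspaceStabilizer W ⊓ suGL 3 F q) := by
  obtain ⟨v, hvW, hv⟩ := Submodule.exists_mem_ne_zero_of_ne_bot hW
  have hv0 : herm q v v = 0 := hts v hvW v hvW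
  obtain rfl : W = Submodule.span F {v} := le_antisymm
    (fun w hw => mem_span_of_perp hF hv hv0 (hts w hw w hw) (hts w hw v hvW))
    ((Submodule.span_singleton_le_iff_mem _ _).2 hvW)
  have htop : Submodule.span F {v} ≠ ⊤ := fun h =>
    hv (hF.eq_zero_of_herm v fun x => hts v hvW x (h ▸ Submodule.mem_top))
  refine maximal_of_overgroups (suGL_not_le_stabilizer hF (by norm_num) hW htop) fun X hX => ?_
  obtain ⟨t, c, hc, ht⟩ := exists_SUG_line hF hv hv0 (pair_spec hF (m := 1)).1.ne_zero (h_ee hF)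
  have hrad : ∀ p : Heis 1 F q, t⁻¹ * tE hF p * t ∈ X := fun p => hX (by
    rw [mem_lineStab hF hv, coe_mul_apply hF, coe_mul_apply hF, ht, map_smul,
      show (tE hF p).1.1 (eV hF 1) = eV hF 1 by rw [← ph_eV hF, tE_apply]; simp, ← ht]
    rw [show (t⁻¹).1.1 (t.1.1 v) = v from t.1.1.symm_apply_apply v]
    exact Submodule.mem_span_singleton_self v)
  have hfull : Full hF X v := fun a ha => hX (by
    rw [mem_lineStab hF hv, tS_apply hF, hv0]; simp [Submodule.mem_span_singleton_self])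
  rcases root hF hq hv hv0 hfull with h | ⟨k, hk, h⟩ | h
  · exact Or.inl fun x hx => (mem_lineStab hF hv).2 (h x hx)
  · exfalso
    have hk0 : k ≠ 0 := fun h0 => hk (by rw [h0, herm_zero_left])
    obtain ⟨⟨⟨x, y⟩, z⟩, hz⟩ := (ph hF 1).surjective (t.1.1 k)
    have hfix : ∀ p : Heis 1 F q, ∃ a : F, (tE hF p).1.1 (ph hF 1 ((x, y), z)) =
        a • ph hF 1 ((x, y), z) := by
      intro p
      obtain ⟨a, ha⟩ := Submodule.mem_span_singleton.1 (h _ (hrad p))
      refine ⟨a, ?_⟩
      have := congrArg t.1.1 ha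
      rw [map_smul, coe_mul_apply hF, coe_mul_apply hF] at this
      rw [hz, this]
      exact (t.1.1.apply_symm_apply _).symm
    have hkn : herm q (ph hF 1 ((x, y), z)) (ph hF 1 ((x, y), z)) ≠ 0 := by
      rw [hz, UG_app]; exact hk
    rw [herm_ph] at hkn
    have hy : y = 0 := by
      obtain ⟨d, hd, hdq⟩ := hF.exists_skew
      obtain ⟨a, ha⟩ := hfix (hZ hF ((mem_skew hF).2 hdq))
      rw [tE_apply, ← map_smul, (ph hF 1).injective.eq_iff] at ha
      simp only [hZ, Prod.smul_mk, smul_eq_mul, Prod.mk.injEq, smul_zero, add_zero,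
        hF.herm_zero_right, sub_zero] at ha
      by_contra hy
      have ha1 : a = 1 := mul_right_cancel₀ hy (by rw [one_mul]; exact ha.1.2.symm)
      rw [ha1, one_mul] at ha
      exact mul_ne_zero hd hy (by linear_combination ha.1.1)
    subst hy
    obtain ⟨b, hb⟩ := hF.exists_trace (c := (-1 : F)) (by rw [hF.neg_pow, one_pow])
    have hp : b + b ^ q + herm q (fun _ : Fin 1 => (1 : F)) (fun _ => 1) = 0 := by
      rw [herm_one hF, one_pow, mul_one]; linear_combination hb
    let r : Heis 1 F q := ⟨(fun _ => 1, b), hp⟩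
    obtain ⟨a, ha⟩ := hfix r
    rw [tE_apply hF r, ← map_smul, (ph hF 1).injective.eq_iff] at ha
    simp only [Prod.smul_mk, smul_eq_mul, Prod.mk.injEq, mul_zero, add_zero, zero_smul] at ha
    have hz0 : z 0 ≠ 0 := fun h0 => hkn (by
      simp [show z = 0 from ext_one h0, hF.q_ne_zero])
    have ha1 : a = 1 := by
      have := congrFun ha.2 0
      simp only [Pi.smul_apply, smul_eq_mul] at this
      exact mul_right_cancel₀ hz0 (by rw [one_mul]; exact this.symm)
    have h3 := ha.1.1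
    rw [ha1, one_mul, herm_one hF] at h3
    exact hz0 (by simpa [r] using h3)
  · exact Or.inr h

/-- The second clause. -/
theorem nondeg_line_maximal (hq : 3 ≤ q) {W : Submodule F (Fin 3 → F)} (hW : W ≠ ⊥)
    (hnd : IsNondegenerateOn (Cfsg.hermForm 3 F q) W) (hdim : 2 * Module.finrank F W < 3) :
    IsMaximalIn (suGL 3 F q) (subspaceStabilizer W ⊓ suGL 3 F q) := by
  obtain ⟨c, hcW, hc⟩ := Submodule.exists_mem_ne_zero_of_ne_bot hW
  obtain rfl : W = Submodule.span F {c} := by
    refine (Submodule.eq_of_le_of_finrank_le ((Submodule.span_singleton_le_iff_mem _ _).2 hcW) ?_).symm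
    rw [finrank_span_singleton hc]
    omega
  have hcc : herm q c c ≠ 0 := by
    obtain ⟨⟨x, hx, hxc⟩, -⟩ := hnd c hcW hc
    obtain ⟨a, rfl⟩ := Submodule.mem_span_singleton.1 hx
    intro h0
    apply hxc
    show herm q (a • c) c = 0
    rw [herm_smul_left, h0, mul_zero]
  have htop : Submodule.span F {c} ≠ ⊤ := fun h => by
    rw [h, finrank_top, Module.finrank_pi, Fintype.card_fin] at hdim
    omega
  refine maximal_of_overgroups (suGL_not_le_stabilizer hF (by norm_num) hW htop) fun X hX => ?_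
  obtain ⟨μ, hμ⟩ := hF.exists_norm (c := herm q c c) (hF.herm_symm c c)
  have hμ0 : μ ≠ 0 := fun h => hcc (by rw [← hμ, h, zero_pow (Nat.succ_ne_zero q)])
  have how : herm q (μ • ow hF) (μ • ow hF) = herm q c c := by
    rw [herm_smul_left, herm_smul_right, ow, herm_ph, herm_one hF, ← hμ, pow_succ']
    simp [hF.q_ne_zero]
  obtain ⟨g, hg⟩ : ∃ g : UG (1 + 2) F q, g.1 (μ • ow hF) = c := by
    have h1 : herm q (ow hF) (ow hF) = 1 := by
      rw [ow, herm_ph, herm_one hF]; simp [hF.q_ne_zero]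
    have h2 : herm q (μ⁻¹ • c) (μ⁻¹ • c) = 1 := by
      rw [herm_smul_left, herm_smul_right, ← how, herm_smul_left, herm_smul_right, h1, inv_pow]
      field_simp
    obtain ⟨g, hg⟩ := UG_transitive_one hF h1 h2
    exact ⟨g, by rw [map_smul, hg, smul_inv_smul₀ hμ0]⟩
  have perp : ∀ (x y : F), herm q c (g.1 (ph hF 1 ((x, y), 0))) = 0 := fun x y => by
    rw [← hg, UG_app, herm_smul_left, ow_perp hF, mul_zero]
  have hmem : ∀ {v : Fin (1 + 2) → F}, herm q c v = 0 → Full hF X v := fun {v} hv a ha => hX (by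
    rw [mem_lineStab hF hc, tS_apply hF, hv, mul_zero, zero_smul, add_zero]
    exact Submodule.mem_span_singleton_self c)
  have spec : ∀ u, (u = eV hF 1 ∨ u = fV hF 1) → g.1 u ≠ 0 ∧ herm q (g.1 u) (g.1 u) = 0 ∧
      herm q c (g.1 u) = 0 := by
    rintro u (rfl | rfl)
    · refine ⟨fun h => (pair_spec hF).1.ne_zero ((LinearEquiv.map_eq_zero_iff _).1 h),
        by rw [UG_app]; exact h_ee hF, ?_⟩
      rw [← ph_eV hF]; exact perp 1 0
    · refine ⟨fun h => ((pair_spec hF).1.symm hF).ne_zero ((LinearEquiv.map_eq_zero_iff _).1 h),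
        by rw [UG_app]; exact h_ff hF, ?_⟩
      rw [← ph_fV hF]; exact perp 0 1
  obtain ⟨hv, hv0, hcv⟩ := spec _ (Or.inl rfl)
  obtain ⟨hv', hv0', hcv'⟩ := spec _ (Or.inr rfl)
  obtain ⟨d, hd, hdq⟩ := hF.exists_skew
  have hT : TrvCond q (g.1 (fV hF 1)) d := ⟨hv0', hdq⟩
  have hTX := hmem hcv' d hT
  have hef : herm q (g.1 (eV hF 1)) (g.1 (fV hF 1)) ≠ 0 := by
    rw [UG_app, h_ef hF]; exact one_ne_zero
  rcases root hF hq hv hv0 (hmem hcv) with h | ⟨k, hk, h⟩ | h
  · exfalso
    refine hef (perp_of_fix hF hT hd (fun hm => ?_) (h _ hTX))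
    obtain ⟨b, hb⟩ := Submodule.mem_span_singleton.1 hm
    rw [← hb, herm_smul_right, hv0, mul_zero] at hef
    exact hef rfl
  · left
    have nmem : ∀ u : Fin (1 + 2) → F, u ≠ 0 → herm q u u = 0 → u ∉ Submodule.span F {k} := by
      intro u hu hu0 hm
      obtain ⟨b, rfl⟩ := Submodule.mem_span_singleton.1 hm
      rw [herm_smul_left, herm_smul_right, mul_eq_zero, mul_eq_zero] at hu0
      have hb : b ≠ 0 := fun h0 => hu (by rw [h0, zero_smul])
      simp [hb, hk] at hu0
    have hTv : TrvCond q (g.1 (eV hF 1)) d := ⟨hv0, hdq⟩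
    have hk1 := perp_of_fix hF hTv hd (nmem _ hv hv0) (h _ (hmem hcv d hTv))
    have hk2 := perp_of_fix hF hT hd (nmem _ hv' hv0') (h _ hTX)
    obtain ⟨⟨⟨a, b⟩, z⟩, hz⟩ := (ph hF 1).surjective (g.1.symm k)
    have hk' : g.1 (ph hF 1 ((a, b), z)) = k := by rw [hz, LinearEquiv.apply_symm_apply]
    rw [← hk', UG_app, ← ph_eV hF, herm_ph] at hk1
    rw [← hk', UG_app, ← ph_fV hF, herm_ph] at hk2
    simp [hF.q_ne_zero, hF.herm_zero_right] at hk1 hk2
    subst hk1 hk2
    have hkc : k ∈ Submodule.span F {c} := by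
      refine Submodule.mem_span_singleton.2 ⟨z 0 * μ⁻¹, ?_⟩
      rw [← hg, ← hk', ← map_smul, smul_smul, mul_assoc, inv_mul_cancel₀ hμ0, mul_one, ow, ← map_smul]
      congr 2
      exact Prod.ext (by simp) (ext_one (by simp))
    have hk0 : k ≠ 0 := fun h0 => hk (by rw [h0, herm_zero_left])
    intro x hx
    rw [mem_lineStab hF hc, ← span_smul_eq hk0 hkc]
    obtain ⟨b, rfl⟩ := Submodule.mem_span_singleton.1 hkc
    have hb : b ≠ 0 := fun h0 => hk0 (by rw [h0, zero_smul])
    have := Submodule.smul_mem _ b⁻¹ (h x hx)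
    rwa [map_smul, inv_smul_smul₀ hb] at this
  · exact Or.inr h

end Cfsg.Agent.SUGeo
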