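import Cfsg.Agent.ClassicalMax.ThreeHeisenberg
import Cfsg.Agent.SLThree.SympGroup

/-!
A group of symplectic type of order `27` inside `GU₃(q)`, `q ≡ 2 (mod 3)`, is unitarily conjugate to
the standard one.
-/

set_option autoImplicit false
set_option linter.style.haveILetI false
set_option linter.unusedSimpArgs false

namespace Cfsg.Agent.SUGeo

open Matrix Cfsg.Geo Module Cfsg.Agent.ClassicalMax Cfsg.Agent.SLThree.Symp
open Cfsg.Agent.Classical.U (SqField sqField_of_fintype)
open Cfsg.Agent.SLThree.Symp.Root3 (gY)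
open scoped MatrixGroups Matrix commutatorElement

variable {F : Type*} [Field F] {q : ℕ}

set_option maxHeartbeats 2000000 in
/-- An irreducible group of symplectic type of order `27` is unitarily conjugate to the standard one. -/
theorem heisenberg_conj_three [Finite F] (hF : SqField F q) (hq2 : q % 3 = 2) {R : Subgroup (GL (Fin 3) F)}
    (hR : IsSymplecticTypeGroup 3 R) (hirr : ActsAbsolutelyIrreducibly (matrixSet R))
    (hsim : R ≤ similarityGroup (Cfsg.hermForm 3 F q)) (h27 : Nat.card R = 27)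
    (hZ : Nat.card (Subgroup.center R) = 3) (Z3 : Root3 F) :
    ∃ P ∈ Cfsg.GU 3 F q, ∀ u, u ∈ R ↔ P⁻¹ * u * P ∈ Z3.Rs := by
  classical
  haveI : Finite F := hF.1
  haveI : Fact (Nat.Prime 3) := ⟨Nat.prime_three⟩
  haveI : Group.IsNilpotent R := hR.pGroup.isNilpotent
  have hf := hermForm_isUnitaryFormPow (n := 3) hF
  have h3 : (3 : F) ≠ 0 := Z3.three
  set ω := Z3.ω with hωdef
  have hω : ω ^ 2 + ω + 1 = 0 := Z3.eq
  have hω3 : ω ^ 3 = 1 := by linear_combination (ω - 1) * hω
  have hω1 : ω ≠ 1 := fun h => h3 (by rw [h] at hω; linear_combination hω)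
  have hω0 : ω ≠ 0 := fun h => by rw [h] at hω; simp at hω
  -- basic facts about the group
  have hexp : Monoid.exponent R = Nat.card (Subgroup.center R) := by rw [hR.exponent_eq, hZ]; rfl
  have hcube : ∀ u : R, u ^ 3 = 1 := fun u => by
    have := Monoid.pow_exponent_eq_one u
    rwa [hexp, hZ] at this
  have hcl := MaxSub.commutator_le_center_of_cyclic_char hR.cyclic_of_characteristic hexp
  obtain ⟨x, y₀, hxy₀⟩ : ∃ x y : R, x * y ≠ y * x := by
    by_contra hc
    push Not at hc
    have : Subgroup.center R = ⊤ := eq_top_iff.mpr fun u _ => Subgroup.mem_center_iff.mpr fun v => hc v u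
    rw [this, Subgroup.card_top, h27] at hZ
    omega
  -- normalise the commutator
  obtain ⟨y, hxy⟩ : ∃ y : R, ((x * y : R) : GL (Fin 3) F).val = ω • ((y * x : R) : GL (Fin 3) F).val := by
    obtain ⟨c, hc⟩ := MaxSub.exists_scalar_of_mem_center hirr
      (hcl (Subgroup.commutator_mem_commutator (Subgroup.mem_top x) (Subgroup.mem_top y₀)))
    have hcomm : ((x * y₀ : R) : GL (Fin 3) F).val = c • ((y₀ * x : R) : GL (Fin 3) F).val := by
      have e : x * y₀ = ⁅x, y₀⁆ * (y₀ * x) := by rw [commutatorElement_def]; group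
      rw [e, Subgroup.coe_mul, Units.val_mul, hc, Matrix.smul_mul, Matrix.one_mul]
    have hc3 : c ^ 3 = 1 := by
      have h := congrArg (fun u : R => ((u : GL (Fin 3) F) : Matrix (Fin 3) (Fin 3) F) 0 0) (hcube ⁅x, y₀⁆)
      simp only [SubmonoidClass.coe_pow, Units.val_pow_eq_pow_val, hc, smul_pow, one_pow, OneMemClass.coe_one,
        Units.val_one, Matrix.smul_apply, Matrix.one_apply_eq, smul_eq_mul, mul_one] at h
      exact h
    have hc1 : c ≠ 1 := fun h => hxy₀ (Subtype.ext (Units.ext (by rw [hcomm, h, one_smul])))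
    have : (c - ω) * (c - ω ^ 2) = 0 := by
      have h : (c - 1) * ((c - ω) * (c - ω ^ 2)) = 0 := by linear_combination hc3 + (-c ^ 2 + c * ω - ω + 1) * hω
      exact (mul_eq_zero.mp h).resolve_left (sub_ne_zero.mpr hc1)
    rcases mul_eq_zero.mp this with h | h
    · exact ⟨y₀, by rw [hcomm, sub_eq_zero.mp h]⟩
    · refine ⟨y₀ * y₀, ?_⟩
      rw [sub_eq_zero] at h
      simp only [Subgroup.coe_mul, Units.val_mul] at hcomm ⊢
      rw [← mul_assoc, hcomm, Matrix.smul_mul, mul_assoc, hcomm, Matrix.mul_smul, smul_smul, h,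
        ← mul_assoc, show ω ^ 2 * ω ^ 2 = ω by linear_combination ω * hω3]
  have hX : ∀ i j, (Z3.gX : Matrix (Fin 3) (Fin 3) F) i j = if i = j then ω ^ (i : ℕ) else 0 := by
    intro i j; fin_cases i <;> fin_cases j <;> simp [Root3.val_gX, Root3.xM, hωdef]
  have hY : ∀ i j, ((gY : GL (Fin 3) F) : Matrix (Fin 3) (Fin 3) F) i j = if i = j + 1 then 1 else 0 := by
    intro i j; fin_cases i <;> fin_cases j <;> simp [Root3.val_gY, Root3.yM]
  set xm : Matrix (Fin 3) (Fin 3) F := ((x : GL (Fin 3) F) : Matrix (Fin 3) (Fin 3) F) with hxm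
  set ym : Matrix (Fin 3) (Fin 3) F := ((y : GL (Fin 3) F) : Matrix (Fin 3) (Fin 3) F) with hym
  replace hxy : xm * ym = ω • (ym * xm) := hxy
  have hcubeM : ∀ u : R, ((u : GL (Fin 3) F) : Matrix (Fin 3) (Fin 3) F) * (((u : GL (Fin 3) F) : Matrix (Fin 3) (Fin 3) F) *
      ((u : GL (Fin 3) F) : Matrix (Fin 3) (Fin 3) F)) = 1 := fun u => by
    have h := congrArg (fun t : R => ((t : GL (Fin 3) F) : Matrix (Fin 3) (Fin 3) F)) (hcube u)
    simp only [SubmonoidClass.coe_pow, Units.val_pow_eq_pow_val, OneMemClass.coe_one, Units.val_one] at h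
    rwa [pow_succ', pow_two] at h
  -- the elements are unitary
  have hunit : ∀ u : R, ∀ v w : Fin 3 → F, Cfsg.hermForm 3 F q (((u : GL (Fin 3) F) : Matrix (Fin 3) (Fin 3) F) *ᵥ v)
      (((u : GL (Fin 3) F) : Matrix (Fin 3) (Fin 3) F) *ᵥ w) = Cfsg.hermForm 3 F q v w := by
    intro u
    obtain ⟨c, hc⟩ := hsim u.2
    have hs : ∀ j : Fin 3, Cfsg.hermForm 3 F q (Pi.single j 1) (Pi.single j 1) = 1 := fun j => by
      simp [Cfsg.hermForm, Pi.single_apply, hF.q_ne_zero]
    have hc3 : (c : F) ^ 3 = 1 := by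
      have h := hs 0
      set e := (Pi.single 0 1 : Fin 3 → F)
      have h' : Cfsg.hermForm 3 F q e e = (c : F) ^ 3 * Cfsg.hermForm 3 F q e e := by
        conv_lhs => rw [← Matrix.one_mulVec e, ← hcubeM u, ← Matrix.mulVec_mulVec, ← Matrix.mulVec_mulVec, hc, hc, hc]
        ring
      rw [h, mul_one] at h'
      exact h'.symm
    have hc5 : (c : F) ^ q = c := by
      have h := hc (Pi.single 0 1) (Pi.single 0 1)
      rw [hs, mul_one] at h
      rw [← h]
      exact (hf.herm _ _).symm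
    have hc1 : (c : F) = 1 := by
      rw [pow_eq_pow_mod _ hc3, hq2] at hc5
      rw [pow_two, mul_eq_left₀ c.ne_zero] at hc5
      exact hc5
    intro v w
    rw [hc, hc1, one_mul]
  -- an eigenvector for the eigenvalue one
  obtain ⟨v, hv0, hv⟩ : ∃ v : Fin 3 → F, v ≠ 0 ∧ xm *ᵥ v = v := by
    let e : Fin 3 → F := Pi.single 0 1
    let pr : Fin 3 → (Fin 3 → F) := fun k =>
      e + ω ^ (2 * (k : ℕ)) • (xm *ᵥ e) + ω ^ (k : ℕ) • (xm *ᵥ (xm *ᵥ e))
    have hpr : ∀ k, xm *ᵥ pr k = ω ^ (k : ℕ) • pr k := fun k => by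
      have hx3 : xm *ᵥ (xm *ᵥ (xm *ᵥ e)) = e := by
        rw [Matrix.mulVec_mulVec, Matrix.mulVec_mulVec, mul_assoc, hcubeM x, Matrix.one_mulVec]
      simp only [pr, Matrix.mulVec_add, Matrix.mulVec_smul, hx3, smul_add, smul_smul]
      have e1 : ω ^ (k : ℕ) * ω ^ (2 * (k : ℕ)) = 1 := by
        rw [← pow_add, show (k : ℕ) + 2 * k = 3 * k by ring, pow_mul, hω3, one_pow]
      have e2 : ω ^ (k : ℕ) * ω ^ (k : ℕ) = ω ^ (2 * (k : ℕ)) := by rw [← pow_add]; ring_nf
      rw [e1, e2, one_smul]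
      module
    have hyx : ∀ u, xm *ᵥ (ym *ᵥ u) = ω • (ym *ᵥ (xm *ᵥ u)) := fun u => by
      rw [Matrix.mulVec_mulVec, hxy, Matrix.smul_mulVec, Matrix.mulVec_mulVec]
    obtain ⟨k, hk⟩ : ∃ k, pr k ≠ 0 := by
      by_contra hc
      push Not at hc
      have hsum : pr 0 + pr 1 + pr 2 = (3 : F) • e := by
        simp only [pr, Fin.val_zero, Fin.val_one, Fin.val_two]
        match_scalars <;> first | ring1 | linear_combination hω | linear_combination (ω ^ 2 - ω + 1) * hω
      rw [hc, hc, hc] at hsum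
      have := congrFun hsum 0
      simp [e, h3.symm] at this
    have hy0 : ∀ u, ym *ᵥ u = 0 → u = 0 := fun u h => GeoClasses.mulVec_injective (y : GL (Fin 3) F)
      (h.trans (Matrix.mulVec_zero _).symm)
    fin_cases k
    · exact ⟨pr 0, hk, by rw [hpr]; simp⟩
    · refine ⟨ym *ᵥ (ym *ᵥ pr 1), fun h => hk (hy0 _ (hy0 _ h)), ?_⟩
      rw [hyx, hyx, hpr, Matrix.mulVec_smul, Matrix.mulVec_smul, Matrix.mulVec_smul, smul_smul, smul_smul]
      simp [show ω * ω * ω = 1 by linear_combination hω3]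
    · refine ⟨ym *ᵥ pr 2, fun h => hk (hy0 _ h), ?_⟩
      rw [hyx, hpr, Matrix.mulVec_smul, smul_smul]
      simp [show ω * ω ^ 2 = 1 by linear_combination hω3]
  have hyx : ∀ u, xm *ᵥ (ym *ᵥ u) = ω • (ym *ᵥ (xm *ᵥ u)) := fun u => by
    rw [Matrix.mulVec_mulVec, hxy, Matrix.smul_mulVec, Matrix.mulVec_mulVec]
  let e : Fin 3 → (Fin 3 → F) := ![v, ym *ᵥ v, ym *ᵥ (ym *ᵥ v)]
  have hxe : ∀ i, xm *ᵥ e i = ω ^ (i : ℕ) • e i := fun i => by
    fin_cases i
    · simp [e, hv]
    · simp [e, hyx, hv]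
    · show xm *ᵥ (ym *ᵥ (ym *ᵥ v)) = ω ^ 2 • (ym *ᵥ (ym *ᵥ v))
      rw [hyx, hyx, hv, Matrix.mulVec_smul, smul_smul, pow_two]
  have hye : ∀ i, ym *ᵥ e i = e (i + 1) := fun i => by
    fin_cases i
    · simp [e]
    · simp [e]
    · show ym *ᵥ (ym *ᵥ (ym *ᵥ v)) = v
      rw [Matrix.mulVec_mulVec, Matrix.mulVec_mulVec, mul_assoc, hcubeM y, Matrix.one_mulVec]
  have horth : ∀ i j, i ≠ j → Cfsg.hermForm 3 F q (e i) (e j) = 0 := by
    intro i j hij
    have h := hunit x (e i) (e j)
    rw [← hxm, hxe, hxe, hf.smul_left, hf.smul_right', ← mul_assoc, ← pow_mul, ← pow_add] at h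
    have hne : ω ^ ((i : ℕ) + (j : ℕ) * q) ≠ 1 := by
      rw [pow_eq_pow_mod _ hω3]
      have h12 : ((i : ℕ) + (j : ℕ) * q) % 3 = 1 ∨ ((i : ℕ) + (j : ℕ) * q) % 3 = 2 := by
        have hv' : (i : ℕ) ≠ (j : ℕ) := fun hh => hij (Fin.ext hh)
        rw [Nat.add_mod, Nat.mul_mod, hq2]
        omega
      rcases h12 with e | e <;> rw [e]
      · rwa [pow_one]
      · exact fun h2 => hω1 (by linear_combination hω3 - ω * h2)
    by_contra h0
    exact hne (by simpa [h0] using h)
  have hdiag : ∀ i, Cfsg.hermForm 3 F q (e i) (e i) = Cfsg.hermForm 3 F q v v := fun i => by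
    fin_cases i
    · rfl
    · exact hunit y v v
    · exact (hunit y _ _).trans (hunit y v v)
  have hvv : Cfsg.hermForm 3 F q v v ≠ 0 := by
    intro h0
    have hli : LinearIndependent F e := by
      rw [Fintype.linearIndependent_iff]
      intro g hg i
      simp only [Fin.sum_univ_three] at hg
      have hg1 := congrArg (xm *ᵥ ·) hg
      simp only [Matrix.mulVec_add, Matrix.mulVec_smul, hxe, Matrix.mulVec_zero, smul_smul] at hg1
      have hg2 := congrArg (xm *ᵥ ·) hg1
      simp only [Matrix.mulVec_add, Matrix.mulVec_smul, hxe, Matrix.mulVec_zero, smul_smul] at hg2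
      simp only [Fin.val_zero, Fin.val_one, Fin.val_two, pow_zero, pow_one, mul_one] at hg1 hg2
      have hne : ∀ j, e j ≠ 0 := fun j h => hv0 (by
        have hy0 : ∀ u, ym *ᵥ u = 0 → u = 0 := fun u hu => GeoClasses.mulVec_injective (y : GL (Fin 3) F)
          (hu.trans (Matrix.mulVec_zero _).symm)
        fin_cases j
        · exact h
        · exact hy0 _ h
        · exact hy0 _ (hy0 _ h))
      have iso : (3 * g i) • e i = 0 := by
        fin_cases i
        · have : (3 * g 0) • e 0 = (g 0 • e 0 + g 1 • e 1 + g 2 • e 2) + (g 0 • e 0 + (g 1 * ω) • e 1 + (g 2 * ω ^ 2) • e 2) +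
              (g 0 • e 0 + (g 1 * ω * ω) • e 1 + (g 2 * ω ^ 2 * ω ^ 2) • e 2) := by
            match_scalars <;> first
              | ring1
              | linear_combination -(g 0) * hω
              | linear_combination -(g 1) * hω
              | linear_combination -(g 1) * (ω ^ 2 - ω + 1) * hω
              | linear_combination -(g 2) * (ω ^ 2 - ω + 1) * hω
              | linear_combination -2 * (g 1) * hω3
              | linear_combination -(g 2) * hω - (g 2) * (ω + ω ^ 2) * hω3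
              | linear_combination -(g 2) * (2 + ω ^ 3) * hω3
          rw [hg, hg1, hg2] at this
          simpa using this
        · have : (3 * g 1) • e 1 = (g 0 • e 0 + g 1 • e 1 + g 2 • e 2) + ω ^ 2 • (g 0 • e 0 + (g 1 * ω) • e 1 + (g 2 * ω ^ 2) • e 2) +
              ω • (g 0 • e 0 + (g 1 * ω * ω) • e 1 + (g 2 * ω ^ 2 * ω ^ 2) • e 2) := by
            match_scalars <;> first
              | ring1
              | linear_combination -(g 0) * hω
              | linear_combination -(g 1) * hω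
              | linear_combination -(g 1) * (ω ^ 2 - ω + 1) * hω
              | linear_combination -(g 2) * (ω ^ 2 - ω + 1) * hω
              | linear_combination -2 * (g 1) * hω3
              | linear_combination -(g 2) * hω - (g 2) * (ω + ω ^ 2) * hω3
              | linear_combination -(g 2) * (2 + ω ^ 3) * hω3
          rw [hg, hg1, hg2] at this
          simpa using this
        · have : (3 * g 2) • e 2 = (g 0 • e 0 + g 1 • e 1 + g 2 • e 2) + ω • (g 0 • e 0 + (g 1 * ω) • e 1 + (g 2 * ω ^ 2) • e 2) +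
              ω ^ 2 • (g 0 • e 0 + (g 1 * ω * ω) • e 1 + (g 2 * ω ^ 2 * ω ^ 2) • e 2) := by
            match_scalars <;> first
              | ring1
              | linear_combination -(g 0) * hω
              | linear_combination -(g 1) * hω
              | linear_combination -(g 1) * (ω ^ 2 - ω + 1) * hω
              | linear_combination -(g 2) * (ω ^ 2 - ω + 1) * hω
              | linear_combination -2 * (g 1) * hω3
              | linear_combination -(g 2) * hω - (g 2) * (ω + ω ^ 2) * hω3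
              | linear_combination -(g 2) * (2 + ω ^ 3) * hω3
          rw [hg, hg1, hg2] at this
          simpa using this
      exact (mul_eq_zero.mp ((smul_eq_zero.mp iso).resolve_right (hne i))).resolve_left h3
    let bas := basisOfLinearIndependentOfCardEqFinrank hli (by simp)
    obtain ⟨-, w, hw⟩ := hf.nondegenerate _ hv0
    apply hw
    rw [← bas.sum_repr w, hf.sum_right hF]
    refine Finset.sum_eq_zero fun i _ => ?_
    rw [hf.smul_right', coe_basisOfLinearIndependentOfCardEqFinrank]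
    by_cases hi : i = 0
    · subst hi
      exact mul_eq_zero_of_right _ h0
    · exact mul_eq_zero_of_right _ (horth 0 i (Ne.symm hi))
  obtain ⟨s, hs⟩ := hF.exists_norm (c := (Cfsg.hermForm 3 F q v v)⁻¹) (by rw [inv_pow, ← hf.herm])
  obtain ⟨P, hP, hPe⟩ := exists_GU_of_columns hF (v := fun i => s • e i) fun i j => by
    rw [hf.smul_left, hf.smul_right', ← mul_assoc, ← pow_succ', hs]
    split
    · subst ‹i = j›; rw [hdiag, inv_mul_cancel₀ hvv]
    · rw [horth i j ‹_›, mul_zero]
  have hcolP : ∀ j, (P : Matrix (Fin 3) (Fin 3) F) *ᵥ Pi.single j 1 = s • e j := fun j => by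
    funext i; simp [Matrix.mulVec_single_one, hPe]
  have hxP : xm * (P : Matrix (Fin 3) (Fin 3) F) = (P : Matrix (Fin 3) (Fin 3) F) * (Z3.gX : Matrix (Fin 3) (Fin 3) F) := by
    refine Matrix.toLin'.injective ((Pi.basisFun F (Fin 3)).ext fun j => ?_)
    simp only [Pi.basisFun_apply, Matrix.toLin'_apply, ← Matrix.mulVec_mulVec, hcolP, Matrix.mulVec_smul, hxe]
    rw [show (Z3.gX : Matrix (Fin 3) (Fin 3) F) *ᵥ Pi.single j 1 = ω ^ (j : ℕ) • (Pi.single j 1 : Fin 3 → F) from by
      funext i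
      rw [Matrix.mulVec_single_one]
      show (Z3.gX : Matrix (Fin 3) (Fin 3) F) i j = _
      rw [hX, Pi.smul_apply, Pi.single_apply]
      by_cases hij : i = j
      · subst hij; rw [if_pos rfl, if_pos rfl, smul_eq_mul, mul_one]
      · rw [if_neg hij, if_neg hij, smul_zero], Matrix.mulVec_smul, hcolP, smul_comm]
  have hyP : ym * (P : Matrix (Fin 3) (Fin 3) F) = (P : Matrix (Fin 3) (Fin 3) F) * ((gY : GL (Fin 3) F) : Matrix (Fin 3) (Fin 3) F) := by
    refine Matrix.toLin'.injective ((Pi.basisFun F (Fin 3)).ext fun j => ?_)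
    simp only [Pi.basisFun_apply, Matrix.toLin'_apply, ← Matrix.mulVec_mulVec, hcolP, Matrix.mulVec_smul, hye]
    rw [show ((gY : GL (Fin 3) F) : Matrix (Fin 3) (Fin 3) F) *ᵥ Pi.single j 1 = (Pi.single (j + 1) 1 : Fin 3 → F) from by
      funext i
      rw [Matrix.mulVec_single_one]
      show ((gY : GL (Fin 3) F) : Matrix (Fin 3) (Fin 3) F) i j = _
      rw [hY, Pi.single_apply], hcolP]
  have hx' : (x : GL (Fin 3) F) = P * Z3.gX * P⁻¹ := by
    rw [eq_mul_inv_iff_mul_eq]; exact Units.ext hxP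
  have hy' : (y : GL (Fin 3) F) = P * gY * P⁻¹ := by
    rw [eq_mul_inv_iff_mul_eq]; exact Units.ext hyP
  -- words
  set ζ : R := x * y * (y * x)⁻¹
  have hζ : (ζ : GL (Fin 3) F) = P * Z3.gZ * P⁻¹ := by
    refine Units.ext ?_
    rw [show P * Z3.gZ * P⁻¹ = Z3.gZ by rw [← Z3.gZ_comm P, mul_inv_cancel_right]]
    simp only [ζ, Subgroup.coe_mul, Subgroup.coe_inv, Units.val_mul]
    rw [hxm] at hxy
    rw [hym] at hxy
    rw [hxy, Matrix.smul_mul, ← Units.val_mul, ← Units.val_mul, mul_inv_cancel, Units.val_one,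
      Root3.val_gZ]
  have hle : ∀ g ∈ Z3.Rs, P * g * P⁻¹ ∈ R := by
    rintro g ⟨a, b, c, rfl⟩
    have : P * Z3.el a b c * P⁻¹ = ((ζ ^ a * (x ^ b * y ^ c) : R) : GL (Fin 3) F) := by
      simp only [Subgroup.coe_mul, SubmonoidClass.coe_pow, hζ, hx', hy', conj_pow, Root3.el]
      group
    rw [this]
    exact Subtype.mem _
  set H : Subgroup (GL (Fin 3) F) := Z3.Rs.map (MulAut.conj P).toMonoidHom with hH
  have hHR : H ≤ R := by
    rintro _ ⟨g, hg, rfl⟩
    exact hle g hg
  have hxH : (x : GL (Fin 3) F) ∈ H := hx' ▸ ⟨_, Z3.gX_mem, rfl⟩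
  have hyH : (y : GL (Fin 3) F) ∈ H := hy' ▸ ⟨_, Z3.gY_mem, rfl⟩
  have hHR' : H = R := by
    haveI : Finite R := Nat.finite_of_card_ne_zero (by omega)
    refine Subgroup.eq_of_le_of_card_ge hHR ?_
    have hd : Nat.card H ∣ 3 ^ 3 := by
      have := Subgroup.card_dvd_of_le hHR
      rwa [h27] at this
    obtain ⟨k, hk, hkc⟩ := (Nat.dvd_prime_pow Nat.prime_three).1 hd
    rw [h27, hkc]
    have hnc : ¬ ∀ u v : H, u * v = v * u := fun hc => by
      have e := congrArg Subtype.val (hc ⟨_, hxH⟩ ⟨_, hyH⟩)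
      have e' : xm * ym = ym * xm := congrArg (fun g : GL (Fin 3) F => (g : Matrix (Fin 3) (Fin 3) F)) e
      rw [hxy] at e'
      have hu : IsUnit (ym * xm) := (Units.isUnit _).mul (Units.isUnit _)
      have e'' : (ω - 1) • (ym * xm) = 0 := by rw [sub_smul, one_smul, e', sub_self]
      rcases smul_eq_zero.1 e'' with h0 | h0
      · exact hω1 (sub_eq_zero.1 h0)
      · exact not_isUnit_zero (h0 ▸ hu)
    interval_cases k
    · exact absurd (fun u v => by
        haveI := (Nat.card_eq_one_iff_unique.1 (hkc.trans (pow_zero 3))).1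
        exact Subsingleton.elim _ _) hnc
    · haveI := isCyclic_of_prime_card (α := H) (p := 3) (hkc.trans (pow_one 3))
      letI := IsCyclic.commGroup (α := H)
      exact absurd (fun u v => mul_comm u v) hnc
    · exact absurd (fun u v => (IsPGroup.commGroupOfCardEqPrimeSq (p := 3) hkc).mul_comm u v) hnc
    · norm_num
  refine ⟨P, hP, fun u => ?_⟩
  rw [← hHR', hH, Subgroup.mem_map_equiv, MulAut.conj_symm_apply]

end Cfsg.Agent.SUGeo
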