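import Cfsg.Agent.SUGeo.Root
import Cfsg.Agent.SUGeo.Reducible
import Cfsg.Agent.SUGeo.SympConj
import Cfsg.Agent.GeoClasses.UnitSubfieldParam

/-!
The normalisers of symplectic type in dimension three: reduction to the standard group.
-/

set_option autoImplicit false
set_option linter.unusedSectionVars false
set_option linter.style.haveILetI false

namespace Cfsg.Agent.SUGeo

open Cfsg.Agent.Classical.U Cfsg.Agent.MinU Cfsg.Agent.MinU.Three Cfsg.Geo Cfsg.Agent.GeoClasses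
open Cfsg.Agent.SLThree.Symp
open Cfsg.Agent.SLThree.Symp.Root3 (gY)
open Cfsg.Agent.ClassicalMax (suGL suGL_not_le_subgroupNormalizer suGL_conj_mem)
open scoped MatrixGroups Matrix

universe u

variable {F : Type u} [Field F]

/-- The statement proved by the core argument. -/
def SympCore (F : Type u) [Field F] : Prop :=
  ∀ [Fintype F] (R : Root3 F) (X : Subgroup (GL (Fin 3) F)), (5 : F) ≠ 0 →
    (∀ g ∈ X, (g : Matrix (Fin 3) (Fin 3) F).det = 1) → R.gX ∈ X → gY ∈ X → R.gW₁ ∈ X →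
    R.gW₂ ∈ X →
    (∀ g ∈ X, ((g : Matrix (Fin 3) (Fin 3) F) - 1) * ((g : Matrix (Fin 3) (Fin 3) F) - 1) = 0 →
      g = 1) →
    ∀ g ∈ X, ∀ r ∈ R.Rs, g * r * g⁻¹ ∈ R.Rs

variable {p : ℕ}

theorem prime_facts [Finite F] (hF : SqField F p) (hp : p.Prime) (h11 : 11 ≤ p) :
    CharP F p ∧ (2 : F) ≠ 0 ∧ (3 : F) ≠ 0 ∧ (5 : F) ≠ 0 := by
  obtain ⟨l, k, hl, hc, he⟩ := hF.exists_char
  have hk : k ≠ 0 := fun h => by rw [h, pow_zero] at he; omega
  obtain rfl : l = p := (Nat.prime_dvd_prime_iff_eq hl hp).1 (he ▸ dvd_pow_self l hk)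
  refine ⟨hc, ?_⟩
  have h : ∀ n : ℕ, 0 < n → n < l → ((n : ℕ) : F) ≠ 0 := fun n h0 h1 e =>
    absurd (Nat.le_of_dvd h0 ((CharP.cast_eq_zero_iff F l n).1 e)) (by omega)
  exact ⟨by exact_mod_cast h 2 (by norm_num) (by omega), by exact_mod_cast h 3 (by norm_num) (by omega),
    by exact_mod_cast h 5 (by norm_num) (by omega)⟩

theorem exists_root3 [Fintype F] (hF : SqField F p) (hp : p.Prime) (hp3 : p % 3 = 2)
    (h11 : 11 ≤ p) : ∃ R : Root3 F, R.ω ^ p = R.ω ^ 2 ∧ R.r ^ p = -R.r := by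
  classical
  obtain ⟨hch, h2, h3, -⟩ := prime_facts hF hp h11
  haveI : Fact (Nat.Prime 3) := ⟨Nat.prime_three⟩
  have hdvd : 3 ∣ Nat.card Fˣ := by
    rw [hF.card_units]
    exact Dvd.dvd.mul_left (by omega) _
  obtain ⟨u, hu⟩ := exists_prime_orderOf_dvd_card' 3 hdvd
  have hu3 : (u : F) ^ 3 = 1 := by
    rw [← Units.val_pow_eq_pow_val, ← hu, pow_orderOf_eq_one, Units.val_one]
  have hu1 : (u : F) ≠ 1 := fun h => by
    rw [show u = 1 from Units.ext h, orderOf_one] at hu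
    omega
  have heq : (u : F) ^ 2 + (u : F) + 1 = 0 := by
    have : ((u : F) - 1) * ((u : F) ^ 2 + u + 1) = 0 := by linear_combination hu3
    exact (mul_eq_zero.1 this).resolve_left (sub_ne_zero.2 hu1)
  let R : Root3 F := ⟨u, heq, h2, h3⟩
  have hω : R.ω ^ p = R.ω ^ 2 := by rw [pow_eq_pow_mod _ R.cube, hp3]
  refine ⟨R, hω, ?_⟩
  have h3p : (3 : F) ^ p = 3 := by
    haveI : Fact p.Prime := ⟨hp⟩
    rw [← frobenius_def, map_ofNat]
  rw [Root3.r, div_pow, hF.neg_pow, hF.sub_pow, ← pow_mul, mul_comm 2 p, pow_mul, hω, h3p]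
  field_simp
  linear_combination R.ω * R.cube

theorem herm_gW₁ (hF : SqField F p) (R : Root3 F) (hω : R.ω ^ p = R.ω ^ 2) (hr : R.r ^ p = -R.r) :
    R.gW₁ ∈ Cfsg.GU 3 F p := by
  intro a b
  show Cfsg.hermForm 3 F p ((R.gW₁ : Matrix (Fin 3) (Fin 3) F) *ᵥ a)
    ((R.gW₁ : Matrix (Fin 3) (Fin 3) F) *ᵥ b) = Cfsg.hermForm 3 F p a b
  simp [Cfsg.hermForm, Root3.val_gW₁, Root3.w₁M, Matrix.mulVec, dotProduct, Fin.sum_univ_three,
    hF.add_pow, mul_pow, hr, ← pow_mul, mul_comm 2 p]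
  simp only [pow_mul, hω]
  linear_combination (-(a 0 * b 0 ^ p + a 1 * b 1 ^ p + a 2 * b 2 ^ p)) * R.r_sq -
    (R.r ^ 2 * (2 + R.ω ^ 3) * (a 1 * b 1 ^ p + a 2 * b 2 ^ p)) * R.cube -
    (R.r ^ 2 * (R.ω ^ 2 - R.ω + 1) * (a 0 * b 1 ^ p + a 0 * b 2 ^ p)) * R.eq -
    (R.r ^ 2 * (a 1 * b 0 ^ p + a 2 * b 0 ^ p + a 1 * b 2 ^ p + a 2 * b 1 ^ p)) * R.eq -
    (R.r ^ 2 * (R.ω + R.ω ^ 2) * (a 1 * b 2 ^ p + a 2 * b 1 ^ p)) * R.cube

theorem gT_mem_GU (hF : SqField F p) (R : Root3 F) (hω : R.ω ^ p = R.ω ^ 2) :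
    R.gT ∈ Cfsg.GU 3 F p := by
  intro a b
  show Cfsg.hermForm 3 F p ((R.gT : Matrix (Fin 3) (Fin 3) F) *ᵥ a)
    ((R.gT : Matrix (Fin 3) (Fin 3) F) *ᵥ b) = Cfsg.hermForm 3 F p a b
  simp [Cfsg.hermForm, Root3.val_gT, Root3.tM, Matrix.mulVec, dotProduct, Fin.sum_univ_three,
    mul_pow, hω]
  linear_combination (a 1 * b 1 ^ p + a 2 * b 2 ^ p) * R.cube

/-- A non-trivial element with square-zero difference from the identity gives all root elements. -/
theorem exists_full [Finite F] (hF : SqField F p) (hp : p.Prime) (h11 : 11 ≤ p)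
    {X : Subgroup (SG 1 F p)} {x : SG 1 F p} (hx : x ∈ X) (h1 : x ≠ 1)
    (hsq : ∀ w, x.1.1 (x.1.1 w - w) - (x.1.1 w - w) = 0) :
    ∃ v : Fin (1 + 2) → F, v ≠ 0 ∧ herm p v v = 0 ∧ Full hF X v := by
  set n : (Fin (1 + 2) → F) → (Fin (1 + 2) → F) := fun w => x.1.1 w - w with hn
  have hiso : ∀ u w, herm p (n u) w + herm p u (n w) + herm p (n u) (n w) = 0 := by
    intro u w
    have h := UG_app x.1 u w
    have e : ∀ z, x.1.1 z = z + n z := fun z => by rw [hn]; simp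
    rw [e, e, herm_add_left, hF.herm_add_right, hF.herm_add_right] at h
    linear_combination h
  have hts : ∀ u w, herm p (n u) (n w) = 0 := by
    intro u w
    have h := hiso u (n w)
    rw [show n (n w) = 0 from hsq w, hF.herm_zero_right, hF.herm_zero_right] at h
    simpa using h
  obtain ⟨w₀, hw₀⟩ : ∃ w, n w ≠ 0 := by
    by_contra hc
    push Not at hc
    exact h1 (Subtype.ext (Subtype.ext (LinearEquiv.ext fun w => sub_eq_zero.1 (hc w))))
  set v := n w₀ with hv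
  have hvv : herm p v v = 0 := hts _ _
  have hspan : ∀ u, ∃ c : F, n u = c • v := fun u => by
    obtain ⟨c, hc⟩ := Submodule.mem_span_singleton.1
      (mem_span_of_perp hF hw₀ hvv (hts u u) (hts u w₀))
    exact ⟨c, hc.symm⟩
  choose φ hφ using hspan
  have hrel : ∀ u w, φ u * herm p v w + φ w ^ p * herm p u v = 0 := by
    intro u w
    have h := hiso u w
    rwa [hts, add_zero, hφ, hφ, herm_smul_left, herm_smul_right] at h
  obtain ⟨z, hz⟩ : ∃ z, herm p v z ≠ 0 := by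
    by_contra hc
    push Not at hc
    exact hw₀ (hF.eq_zero_of_herm v hc)
  set c := -(φ z ^ p) / herm p v z with hc
  have hc' : ∀ u, φ u = c * herm p u v := by
    intro u
    rw [hc, div_mul_eq_mul_div, eq_div_iff hz]
    linear_combination hrel u z
  have hzv : herm p z v ≠ 0 := fun h => hz (by rw [← hF.herm_symm, h, zero_pow hF.q_ne_zero])
  have hskew : c ^ p = -c := by
    have h := hrel z z
    rw [hc', mul_pow, hF.herm_symm] at h
    have h' : (c + c ^ p) * (herm p z v * herm p v z) = 0 := by linear_combination h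
    linear_combination (mul_eq_zero.1 h').resolve_right (mul_ne_zero hzv hz)
  have hcond : TrvCond p v c := ⟨hvv, hskew⟩
  have hxt : x = tS hF hcond := by
    refine Subtype.ext (Subtype.ext (LinearEquiv.ext fun u => ?_))
    show x.1.1 u = (trv hF hcond).1 u
    rw [trv_apply, ← hc', ← hφ, hn]
    simp
  have hc0 : c ≠ 0 := fun h0 => hw₀ (by rw [hv, hφ, hc', h0, zero_mul, zero_smul])
  refine ⟨v, hw₀, hvv, fun a ha => ?_⟩
  obtain ⟨hch, -, -, -⟩ := prime_facts hF hp h11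
  haveI : Fact p.Prime := ⟨hp⟩
  have hk : (a / c) ^ p = a / c := by rw [div_pow, ha.2, hskew, neg_div_neg_eq]
  obtain ⟨k, hk'⟩ : ∃ k : ZMod p, (ZMod.castHom (dvd_refl p) F k) = a / c := by
    let f : ZMod p → fixF hF := fun k => ⟨ZMod.castHom (dvd_refl p) F k, by
      rw [mem_fixF, ← map_pow, ZMod.pow_card]⟩
    have hf : Function.Bijective f := (Nat.bijective_iff_injective_and_card f).2
      ⟨fun k l h => (ZMod.castHom (dvd_refl p) F).injective (congrArg Subtype.val h),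
        by rw [Nat.card_zmod, card_fixF]⟩
    obtain ⟨k, hk'⟩ := hf.2 ⟨a / c, (mem_fixF hF).2 hk⟩
    exact ⟨k, congrArg Subtype.val hk'⟩
  have hmem : c ∈ trvParams hF (X.map (SUG (1 + 2) F p).subtype) hvv :=
    ⟨hcond, x, hx, by rw [hxt]; rfl⟩
  have hak : a = k.val • c := by
    rw [nsmul_eq_mul, ← map_natCast (ZMod.castHom (dvd_refl p) F), ZMod.natCast_zmod_val, hk',
      div_mul_cancel₀ _ hc0]
  obtain ⟨h', y, hy, e⟩ : a ∈ trvParams hF (X.map (SUG (1 + 2) F p).subtype) hvv :=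
    hak ▸ nsmul_mem hmem _
  exact (Subtype.ext e : y = tS hF ha) ▸ hy

/-- The seventh clause, from the core argument. -/
theorem sympType_maximal_of_core [Fintype F] (hcore : SympCore F) (q : ℕ)
    (hF : Fintype.card F = q ^ 2) :
    ∀ (p : ℕ) (R : Subgroup (GL (Fin 3) F)), p.Prime → q = p → p % 3 = 2 → 11 ≤ p →
      IsSymplecticTypeGroup 3 R → ActsAbsolutelyIrreducibly (matrixSet R) →
      R ≤ similarityGroup (Cfsg.hermForm 3 F q) → Nat.card R = 27 →
      Nat.card (Subgroup.center R) = 3 →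
      IsMaximalIn (suGL 3 F q) (subgroupNormalizer R ⊓ suGL 3 F q) := by
  intro p R hp hqp hp3 h11 hR hirr hsim h27 hZ
  subst hqp
  classical
  have hF' : SqField F q := sqField_of_fintype hF
  obtain ⟨hch, h2, h3, h5⟩ := prime_facts hF' hp h11
  haveI : Fact (Nat.Prime 3) := ⟨Nat.prime_three⟩
  haveI : Finite R := Nat.finite_of_card_ne_zero (by omega)
  haveI : Group.IsNilpotent R := hR.pGroup.isNilpotent
  have hexp : Monoid.exponent R = Nat.card (Subgroup.center R) := by rw [hR.exponent_eq, hZ]; rfl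
  obtain ⟨Z3, hω, hr⟩ := exists_root3 hF' hp hp3 h11
  obtain ⟨P, hP, hiff⟩ := heisenberg_conj_three hF' hp3 hR hirr hsim h27 hZ Z3
  have hne : ¬ suGL 3 F q ≤ subgroupNormalizer R :=
    suGL_not_le_subgroupNormalizer hF' le_rfl (by exact_mod_cast h3) hirr
      (MaxSub.commutator_le_center_of_cyclic_char hR.cyclic_of_characteristic hexp)
      (fun z hz => MaxSub.exists_scalar_of_mem_center hirr hz) (by omega)
  refine maximal_of_overgroups hne fun X hX => ?_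
  have hnormR : ∀ {w : GL (Fin 3) F}, w ∈ Subgroup.normalizer (Z3.Rs : Set (GL (Fin 3) F)) →
      P * w * P⁻¹ ∈ subgroupNormalizer R := by
    intro w hw
    rw [subgroupNormalizer, Subgroup.mem_normalizer_iff]
    intro u
    rw [hiff, hiff,
      show P⁻¹ * (P * w * P⁻¹ * u * (P * w * P⁻¹)⁻¹) * P = w * (P⁻¹ * u * P) * w⁻¹ by group]
    exact Subgroup.mem_normalizer_iff.1 hw _
  set Y : Subgroup (GL (Fin 3) F) :=
    (X.map toGL).comap (MulAut.conj P).toMonoidHom with hY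
  have hmemY : ∀ {w : GL (Fin 3) F}, w ∈ Cfsg.GU 3 F q →
      (w : Matrix (Fin 3) (Fin 3) F).det = 1 →
      w ∈ Subgroup.normalizer (Z3.Rs : Set (GL (Fin 3) F)) → w ∈ Y := by
    intro w hw hd hn
    obtain ⟨g, hg⟩ := exists_toGL (suGL_conj_mem hP
      ⟨hw, GeoClasses.mem_specialLinear_iff.2 hd⟩)
    exact ⟨g, hX (show toGL g ∈ subgroupNormalizer R from hg ▸ hnormR hn), hg⟩
  have hYdet : ∀ g ∈ Y, (g : Matrix (Fin 3) (Fin 3) F).det = 1 := by
    rintro g ⟨x, -, hx⟩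
    have h := GeoClasses.mem_specialLinear_iff.1 (toGL_mem x).2
    rw [hx] at h
    rw [show ((MulAut.conj P).toMonoidHom g : GL (Fin 3) F) = P * g * P⁻¹ from rfl, Units.val_mul,
      Units.val_mul, Matrix.det_units_conj] at h
    exact h
  have hRGU : ∀ u ∈ Z3.Rs, u ∈ Cfsg.GU 3 F q := by
    intro u hu
    obtain ⟨a, b, c, rfl⟩ := hu
    refine mul_mem (pow_mem ?_ _) (mul_mem (pow_mem ?_ _) (pow_mem ?_ _)) <;> intro s t
    · show Cfsg.hermForm 3 F q ((Z3.gZ : Matrix (Fin 3) (Fin 3) F) *ᵥ s)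
        ((Z3.gZ : Matrix (Fin 3) (Fin 3) F) *ᵥ t) = Cfsg.hermForm 3 F q s t
      rw [Root3.val_gZ, Matrix.smul_mulVec, Matrix.smul_mulVec, Matrix.one_mulVec, Matrix.one_mulVec]
      show herm q _ _ = herm q s t
      rw [herm_smul_left, herm_smul_right, hω]
      linear_combination (herm q s t) * Z3.cube
    · show Cfsg.hermForm 3 F q ((Z3.gX : Matrix (Fin 3) (Fin 3) F) *ᵥ s)
        ((Z3.gX : Matrix (Fin 3) (Fin 3) F) *ᵥ t) = Cfsg.hermForm 3 F q s t
      simp [Cfsg.hermForm, Root3.val_gX, Root3.xM, Matrix.mulVec, dotProduct, Fin.sum_univ_three,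
        mul_pow, ← pow_mul, mul_comm 2 q]
      simp only [pow_mul, hω]
      linear_combination (s 1 * t 1 ^ q + s 2 * t 2 ^ q * (Z3.ω ^ 3 + 1)) * Z3.cube
    · show Cfsg.hermForm 3 F q (((gY : GL (Fin 3) F) : Matrix (Fin 3) (Fin 3) F) *ᵥ s)
        (((gY : GL (Fin 3) F) : Matrix (Fin 3) (Fin 3) F) *ᵥ t) = Cfsg.hermForm 3 F q s t
      simp [Cfsg.hermForm, Root3.val_gY, Root3.yM, Matrix.mulVec, dotProduct, Fin.sum_univ_three]
      ring1
  have hRdet : ∀ u ∈ Z3.Rs, (u : Matrix (Fin 3) (Fin 3) F).det = 1 := by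
    rintro u ⟨a, b, c, rfl⟩
    simp [Root3.el, Matrix.det_pow, Z3.det_gX, Root3.det_gY, Z3.det_gZ]
  have hRY : ∀ u ∈ Z3.Rs, u ∈ Y := fun u hu =>
    hmemY (hRGU u hu) (hRdet u hu) (Subgroup.le_normalizer hu)
  have hT : Z3.gW₂ ∈ Cfsg.GU 3 F q :=
    mul_mem (mul_mem (gT_mem_GU hF' Z3 hω) (herm_gW₁ hF' Z3 hω hr)) (inv_mem (gT_mem_GU hF' Z3 hω))
  by_cases hNT : ∀ g ∈ Y,
      ((g : Matrix (Fin 3) (Fin 3) F) - 1) * ((g : Matrix (Fin 3) (Fin 3) F) - 1) = 0 → g = 1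
  · left
    intro x hx
    have hxY : P⁻¹ * toGL x * P ∈ Y := ⟨x, hx, by simp [MulAut.conj_apply, mul_assoc]⟩
    have hn := Z3.mem_normalizer_of_conj (hcore Z3 Y h5 hYdet (hRY _ Z3.gX_mem) (hRY _ Z3.gY_mem)
      (hmemY (herm_gW₁ hF' Z3 hω hr) Z3.det_Qs_gen.1 Z3.gW₁_normalizer)
      (hmemY hT Z3.det_Qs_gen.2 Z3.gW₂_normalizer) hNT _ hxY)
    have := hnormR hn
    rwa [show P * (P⁻¹ * toGL x * P) * P⁻¹ = toGL x by group] at this
  · right
    push Not at hNT
    obtain ⟨g, ⟨x, hx, hxg⟩, hsq, hg1⟩ := hNT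
    have hx' : toGL x = P * g * P⁻¹ := by simpa [MulAut.conj_apply] using hxg
    have hx1 : x ≠ 1 := fun h => hg1 (by
      rw [h, map_one, eq_comm, mul_inv_eq_one, mul_eq_left] at hx'
      exact hx')
    have hsq' : ((toGL x : GL (Fin 3) F) : Matrix (Fin 3) (Fin 3) F) - 1 =
        (P : Matrix (Fin 3) (Fin 3) F) * ((g : Matrix (Fin 3) (Fin 3) F) - 1) *
          ((P⁻¹ : GL (Fin 3) F) : Matrix (Fin 3) (Fin 3) F) := by
      rw [hx', mul_sub, sub_mul, mul_one, ← Units.val_mul P P⁻¹, mul_inv_cancel, Units.val_one]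
      simp
    have hsq2 : (((toGL x : GL (Fin 3) F) : Matrix (Fin 3) (Fin 3) F) - 1) *
        (((toGL x : GL (Fin 3) F) : Matrix (Fin 3) (Fin 3) F) - 1) = 0 := by
      rw [hsq']
      set N := (g : Matrix (Fin 3) (Fin 3) F) - 1
      rw [show (P : Matrix (Fin 3) (Fin 3) F) * N * ((P⁻¹ : GL (Fin 3) F) : Matrix (Fin 3) (Fin 3) F) *
          ((P : Matrix (Fin 3) (Fin 3) F) * N * ((P⁻¹ : GL (Fin 3) F) : Matrix (Fin 3) (Fin 3) F)) =
        (P : Matrix (Fin 3) (Fin 3) F) * (N * N) * ((P⁻¹ : GL (Fin 3) F) : Matrix (Fin 3) (Fin 3) F) by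
          simp [mul_assoc], hsq, mul_zero, zero_mul]
    obtain ⟨v, hv, hvv, hfull⟩ := exists_full hF' hp h11 hx hx1 fun w => by
      have e : ∀ u : Fin (1 + 2) → F, x.1.1 u - u =
          (((toGL x : GL (Fin 3) F) : Matrix (Fin 3) (Fin 3) F) - 1) *ᵥ u := fun u => by
        rw [Matrix.sub_mulVec, Matrix.one_mulVec, toGL_mulVec]
      rw [e, e, Matrix.mulVec_mulVec, hsq2, Matrix.zero_mulVec]
    -- the given group fixes no line
    have hnofix : ∀ e : Fin (1 + 2) → F, e ≠ 0 →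
        ¬ ∀ y ∈ X, y.1.1 e ∈ Submodule.span F {e} := by
      intro e he h
      have hW := hirr.1 (Submodule.span F {(e : Fin 3 → F)}) (by
        rintro _ ⟨u, hu, rfl⟩
        rw [Submodule.map_span, Set.image_singleton, Submodule.span_singleton_le_iff_mem,
          Matrix.toLin'_apply]
        obtain ⟨y, hy, hye⟩ := hRY _ ((hiff u).1 hu)
        have hyu : toGL y = u := by simpa [MulAut.conj_apply, mul_assoc] using hye
        rw [← hyu, toGL_mulVec]
        exact h y hy)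
      rcases hW with h0 | h0
      · exact he (Submodule.span_singleton_eq_bot.1 h0)
      · have h' := finrank_span_singleton (K := F) (v := (e : Fin 3 → F)) he
        rw [h0, finrank_top, Module.finrank_pi, Fintype.card_fin] at h'
        omega
    rcases root hF' (by omega) hv hvv hfull with h | ⟨c, hc, h⟩ | h
    · exact absurd h (hnofix v hv)
    · exact absurd h (hnofix c fun h0 => hc (by rw [h0, herm_zero_left]))
    · exact h

end Cfsg.Agent.SUGeo
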