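import Cfsg.Agent.MinU.ThreeBase
import Cfsg.Agent.ClassicalMax.UnitaryProper

/-!
The special unitary group in dimension three inside `GL₃`: passage to linear automorphisms, and the
special linear group of the standard hyperbolic plane.
-/

set_option autoImplicit false
set_option linter.unusedSectionVars false

namespace Cfsg.Agent.SUGeo

open Cfsg.Agent.Classical.U Cfsg.Agent.MinU Cfsg.Agent.MinU.Three Cfsg.Geo
open scoped MatrixGroups Matrix

universe u

variable {F : Type u} [Field F] {q : ℕ}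

/-- The inclusion into the general linear group. -/
noncomputable def toGL : SG 1 F q →* GL (Fin 3) F :=
  (glEquiv 3 F).symm.toMonoidHom.comp
    ((UG (1 + 2) F q).subtype.comp (SUG (1 + 2) F q).subtype)

theorem glEquiv_toGL (g : SG 1 F q) : glEquiv 3 F (toGL g) = g.1.1 :=
  (glEquiv 3 F).apply_symm_apply _

theorem toGL_mulVec (g : SG 1 F q) (v : Fin 3 → F) :
    (toGL g : Matrix (Fin 3) (Fin 3) F) *ᵥ v = g.1.1 v := by
  rw [← glEquiv_toGL g]; rfl

theorem toGL_injective : Function.Injective (toGL : SG 1 F q → GL (Fin 3) F) := fun g g' h =>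
  Subtype.ext (Subtype.ext (by rw [← glEquiv_toGL g, h, glEquiv_toGL]))

theorem toGL_mem (g : SG 1 F q) : toGL g ∈ ClassicalMax.suGL 3 F q := by
  refine ⟨fun u v => ?_, ?_⟩
  · simp only [Units.coeHom_apply, toGL_mulVec]
    exact UG_app g.1 u v
  · show Matrix.GeneralLinearGroup.det (toGL g) = 1
    rw [← det_glEquiv, glEquiv_toGL]
    exact g.2

theorem exists_toGL {x : GL (Fin 3) F} (hx : x ∈ ClassicalMax.suGL 3 F q) :
    ∃ g : SG 1 F q, toGL g = x := by
  refine ⟨⟨⟨glEquiv 3 F x, fun u v => hx.1 u v⟩, ?_⟩, (glEquiv 3 F).symm_apply_apply x⟩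
  show LinearEquiv.det (glEquiv 3 F x) = 1
  rw [det_glEquiv]
  exact hx.2

/-- Maximality from the overgroups inside `SG`. -/
theorem maximal_of_overgroups {A : Subgroup (GL (Fin 3) F)}
    (hne : ¬ ClassicalMax.suGL 3 F q ≤ A)
    (h : ∀ X : Subgroup (SG 1 F q), A.comap toGL ≤ X → X ≤ A.comap toGL ∨ X = ⊤) :
    IsMaximalIn (ClassicalMax.suGL 3 F q) (A ⊓ ClassicalMax.suGL 3 F q) := by
  refine ⟨lt_of_le_of_ne inf_le_right fun e => hne (e ▸ inf_le_left), fun M hAM hM => ?_⟩
  have hX : A.comap toGL ≤ M.comap toGL := fun g hg => hAM ⟨hg, toGL_mem g⟩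
  rcases h _ hX with hle | htop
  · refine Or.inl (le_antisymm (fun x hx => ?_) hAM)
    obtain ⟨g, rfl⟩ := exists_toGL (hM hx)
    exact ⟨hle hx, toGL_mem g⟩
  · refine Or.inr (le_antisymm hM fun x hx => ?_)
    obtain ⟨g, rfl⟩ := exists_toGL hx
    exact (htop ▸ Subgroup.mem_top g : g ∈ M.comap toGL)

/-! ### The plane -/

variable (hF : SqField F q)
include hF

theorem coe_mul_apply (g g' : SG 1 F q) (v : Fin (1 + 2) → F) :
    (g * g').1.1 v = g.1.1 (g'.1.1 v) := rfl

/-- A fixed skew element. -/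
noncomputable def skw : F := hF.exists_skew.choose

theorem skw_ne : skw hF ≠ 0 := hF.exists_skew.choose_spec.1
theorem skw_pow : skw hF ^ q = -skw hF := hF.exists_skew.choose_spec.2

/-- The matrix action on the plane of the pair. -/
noncomputable def plLin (A : Matrix (Fin 2) (Fin 2) (fixF hF)) :
    ((F × F) × (Fin 1 → F)) →ₗ[F] ((F × F) × (Fin 1 → F)) where
  toFun p := (((A 0 0 : F) * p.1.1 + (A 0 1 : F) * skw hF * p.1.2,
    (A 1 0 : F) * (skw hF)⁻¹ * p.1.1 + (A 1 1 : F) * p.1.2), p.2)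
  map_add' p p' := by simp only [Prod.fst_add, Prod.snd_add]; ext <;> simp <;> ring
  map_smul' c p := by
    simp only [Prod.smul_fst, Prod.smul_snd, smul_eq_mul, RingHom.id_apply]
    ext <;> simp <;> ring

theorem plLin_one : plLin hF 1 = LinearMap.id := by
  refine LinearMap.ext fun p => ?_
  simp [plLin]

theorem plLin_mul (A B : Matrix (Fin 2) (Fin 2) (fixF hF)) :
    plLin hF (A * B) = plLin hF A ∘ₗ plLin hF B := by
  refine LinearMap.ext fun p => ?_
  have h := skw_ne hF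
  simp only [plLin, LinearMap.coe_mk, AddHom.coe_mk, LinearMap.coe_comp, Function.comp_apply,
    Matrix.mul_apply, Fin.sum_univ_two, Subfield.coe_add, Subfield.coe_mul]
  refine Prod.ext (Prod.ext ?_ ?_) rfl <;> field_simp <;> ring

/-- The matrix action as an automorphism of the coordinates. -/
noncomputable def plLE (A : SL(2, fixF hF)) :
    ((F × F) × (Fin 1 → F)) ≃ₗ[F] ((F × F) × (Fin 1 → F)) :=
  LinearEquiv.ofLinear (plLin hF A.1) (plLin hF (A⁻¹).1)
    (by rw [← plLin_mul, ← Matrix.SpecialLinearGroup.coe_mul, mul_inv_cancel,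
      Matrix.SpecialLinearGroup.coe_one, plLin_one])
    (by rw [← plLin_mul, ← Matrix.SpecialLinearGroup.coe_mul, inv_mul_cancel,
      Matrix.SpecialLinearGroup.coe_one, plLin_one])

theorem plLE_apply (A : SL(2, fixF hF)) (p : (F × F) × (Fin 1 → F)) :
    plLE hF A p = plLin hF A.1 p := rfl

/-- The matrix action as linear automorphisms of the space. -/
noncomputable def plEquiv : SL(2, fixF hF) →*
    ((Fin (1 + 2) → F) ≃ₗ[F] (Fin (1 + 2) → F)) where
  toFun A := (ph hF 1).symm.trans ((plLE hF A).trans (ph hF 1))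
  map_one' := by
    refine LinearEquiv.ext fun v => ?_
    obtain ⟨p, rfl⟩ := (ph hF 1).surjective v
    simp [plLE_apply, plLin_one]
  map_mul' A B := by
    refine LinearEquiv.ext fun v => ?_
    obtain ⟨p, rfl⟩ := (ph hF 1).surjective v
    simp [plLE_apply, plLin_mul]

theorem plEquiv_apply (A : SL(2, fixF hF)) (x y : F) (z : Fin 1 → F) :
    plEquiv hF A (ph hF 1 ((x, y), z)) = ph hF 1 (((A.1 0 0 : F) * x + (A.1 0 1 : F) * skw hF * y,
      (A.1 1 0 : F) * (skw hF)⁻¹ * x + (A.1 1 1 : F) * y), z) := by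
  simp [plEquiv, plLE_apply, plLin]

theorem plEquiv_mem (A : SL(2, fixF hF)) : plEquiv hF A ∈ UG (1 + 2) F q := by
  intro u v
  obtain ⟨⟨⟨a, b⟩, w⟩, rfl⟩ := (ph hF 1).surjective u
  obtain ⟨⟨⟨a', b'⟩, w'⟩, rfl⟩ := (ph hF 1).surjective v
  rw [plEquiv_apply, plEquiv_apply, herm_ph, herm_ph]
  have hdet : (A.1 0 0 : F) * A.1 1 1 - (A.1 0 1 : F) * A.1 1 0 = 1 := by
    have h0 : A.1 0 0 * A.1 1 1 - A.1 0 1 * A.1 1 0 = 1 := by
      rw [← Matrix.det_fin_two]; exact A.2
    simpa using congrArg (fun x : fixF hF => (x : F)) h0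
  simp only [mul_pow, hF.add_pow, inv_pow, skw_pow, (mem_fixF hF).1 (A.1 _ _).2]
  have h := skw_ne hF
  field_simp
  linear_combination (skw hF * (a * b' ^ q + b * a' ^ q)) * hdet

theorem det_plEquiv (A : SL(2, fixF hF)) : LinearEquiv.det (plEquiv hF A) = 1 := by
  apply Units.ext
  rw [LinearEquiv.coe_det, Units.val_one]
  let P : (F × F) →ₗ[F] (F × F) :=
    { toFun := fun p => ((A.1 0 0 : F) * p.1 + (A.1 0 1 : F) * skw hF * p.2,
        (A.1 1 0 : F) * (skw hF)⁻¹ * p.1 + (A.1 1 1 : F) * p.2)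
      map_add' := fun p p' => by ext <;> simp <;> ring
      map_smul' := fun c p => by ext <;> simp <;> ring }
  have e : (plEquiv hF A).toLinearMap =
      (ph hF 1).toLinearMap ∘ₗ (P.prodMap LinearMap.id) ∘ₗ (ph hF 1).symm.toLinearMap := by
    refine LinearMap.ext fun v => ?_
    obtain ⟨⟨⟨a, b⟩, w⟩, rfl⟩ := (ph hF 1).surjective v
    simp [plEquiv_apply, P]
  rw [e, LinearMap.det_conj, LinearMap.det_prodMap, LinearMap.det_id, mul_one]
  rw [← LinearMap.det_toMatrix (Module.Basis.finTwoProd F), Matrix.det_fin_two]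
  have hdet : (A.1 0 0 : F) * A.1 1 1 - (A.1 0 1 : F) * A.1 1 0 = 1 := by
    have h0 : A.1 0 0 * A.1 1 1 - A.1 0 1 * A.1 1 0 = 1 := by
      rw [← Matrix.det_fin_two]; exact A.2
    simpa using congrArg (fun x : fixF hF => (x : F)) h0
  have h := skw_ne hF
  simp [LinearMap.toMatrix_apply, P]
  field_simp
  linear_combination hdet

/-- The special linear group of the plane. -/
noncomputable def pl : SL(2, fixF hF) →* SG 1 F q :=
  MonoidHom.codRestrict ((plEquiv hF).codRestrict (UG (1 + 2) F q) (plEquiv_mem hF))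
    (SUG (1 + 2) F q) fun A => mem_SUG.2 (det_plEquiv hF A)

theorem pl_apply (A : SL(2, fixF hF)) (x y : F) (z : Fin 1 → F) :
    (pl hF A).1.1 (ph hF 1 ((x, y), z)) = ph hF 1 (((A.1 0 0 : F) * x + (A.1 0 1 : F) * skw hF * y,
      (A.1 1 0 : F) * (skw hF)⁻¹ * x + (A.1 1 1 : F) * y), z) :=
  plEquiv_apply hF A x y z

/-- Upper unitriangular matrices. -/
def sUp (t : fixF hF) : SL(2, fixF hF) := ⟨!![1, t; 0, 1], by simp⟩

/-- Lower unitriangular matrices. -/
def sLo (t : fixF hF) : SL(2, fixF hF) := ⟨!![1, 0; t, 1], by simp⟩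

theorem up_cond (t : fixF hF) : TrvCond q (eV hF 1) ((t : F) * skw hF) :=
  ⟨h_ee hF, by rw [mul_pow, (mem_fixF hF).1 t.2, skw_pow, mul_neg]⟩

theorem lo_cond (t : fixF hF) : TrvCond q (fV hF 1) ((t : F) * (skw hF)⁻¹) :=
  ⟨h_ff hF, by rw [mul_pow, inv_pow, (mem_fixF hF).1 t.2, skw_pow, inv_neg, mul_neg]⟩

theorem pl_sUp (t : fixF hF) : pl hF (sUp hF t) = tS hF (up_cond hF t) := by
  refine SG_ext hF fun ⟨⟨x, y⟩, z⟩ => ?_
  rw [pl_apply]
  change _ = (trv hF (up_cond hF t)).1 _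
  rw [trv_apply, ← ph_eV hF, herm_ph, ← map_smul, ← map_add]
  congr 1
  ext <;> simp [sUp, hF.q_ne_zero, hF.herm_zero_right]

theorem pl_sLo (t : fixF hF) : pl hF (sLo hF t) = tS hF (lo_cond hF t) := by
  refine SG_ext hF fun ⟨⟨x, y⟩, z⟩ => ?_
  rw [pl_apply]
  change _ = (trv hF (lo_cond hF t)).1 _
  rw [trv_apply, ← ph_fV hF, herm_ph, ← map_smul, ← map_add]
  congr 1
  ext <;> simp [sLo, hF.q_ne_zero, hF.herm_zero_right, add_comm]

/-- The elementary matrices generate. -/
theorem sl_mem {H : Subgroup SL(2, fixF hF)} (hu : ∀ t, sUp hF t ∈ H) (hl : ∀ t, sLo hF t ∈ H)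
    (A : SL(2, fixF hF)) : A ∈ H := by
  suffices main : ∀ B : SL(2, fixF hF), B.1 1 0 ≠ 0 → B ∈ H by
    by_cases h : A.1 1 0 = 0
    · have hd : A.1 0 0 ≠ 0 := fun h0 => by
        have := A.2
        rw [Matrix.det_fin_two, h0, h] at this
        simp at this
      have h1 : (sLo hF 1 * A).1 1 0 ≠ 0 := by
        rw [Matrix.SpecialLinearGroup.coe_mul]
        simpa [sLo, Matrix.mul_apply, Fin.sum_univ_two, h] using hd
      have := mul_mem (inv_mem (hl 1)) (main _ h1)
      rwa [inv_mul_cancel_left] at this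
    · exact main A h
  intro B hc
  have hdet := B.2
  rw [Matrix.det_fin_two] at hdet
  have e : B = sUp hF ((B.1 0 0 - 1) / B.1 1 0) * sLo hF (B.1 1 0) *
      sUp hF ((B.1 1 1 - 1) / B.1 1 0) := by
    refine Subtype.ext ?_
    rw [Matrix.SpecialLinearGroup.coe_mul, Matrix.SpecialLinearGroup.coe_mul]
    refine Matrix.ext fun i j => ?_
    fin_cases i <;> fin_cases j <;> simp [sUp, sLo, Matrix.mul_apply, Fin.sum_univ_two] <;>
      field_simp
    all_goals first | linear_combination -hdet | linear_combination hdet | ring1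
  rw [e]
  exact mul_mem (mul_mem (hu _) (hl _)) (hu _)

end Cfsg.Agent.SUGeo
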