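import Cfsg.Agent.SUGeo.FramePlane
import Cfsg.Agent.DecompMax.UnitFrame

/-!
The stabiliser of an orthogonal frame is maximal in the three-dimensional special unitary group.
-/

set_option autoImplicit false
set_option linter.unusedSectionVars false
set_option linter.style.haveILetI false

namespace Cfsg.Agent.SUGeo

open Cfsg.Agent.Classical.U Cfsg.Agent.MinU Cfsg.Agent.MinU.Three Cfsg.Geo
open Cfsg.Agent.ClassicalMax (suGL suGL_not_le_frameStabilizer)
open Cfsg.Agent.DecompMax.UCount (NU)
open Cfsg.Agent.DecompMax.UF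
open scoped MatrixGroups Matrix

universe u

variable {F : Type u} [Field F] {q : ℕ}

/-- `g` permutes the lines of the image of the standard frame under `P`. -/
def Perms (P : UG (1 + 2) F q) (g : SG 1 F q) : Prop :=
  ∀ i, ∃ j, g.1.1 (P.1 (sv F i)) ∈ Submodule.span F {P.1 (sv F j)}

variable (hF : SqField F q)
include hF

/-- The coordinates in the frame. -/
theorem frame_coord (P : UG (1 + 2) F q) (v : Fin (1 + 2) → F) (i : Fin (1 + 2)) :
    herm q v (P.1 (sv F i)) = (P⁻¹ : UG (1 + 2) F q).1 v i := by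
  rw [← herm_sv hF ((P⁻¹ : UG (1 + 2) F q).1 v) i, ← UG_app P ((P⁻¹ : UG (1 + 2) F q).1 v) (sv F i),
    app_inv hF]

theorem frame_orth (P : UG (1 + 2) F q) (i j : Fin (1 + 2)) :
    herm q (P.1 (sv F i)) (P.1 (sv F j)) = if j = i then 1 else 0 := by
  rw [UG_app, herm_sv hF]
  exact Pi.single_apply i 1 j

theorem frame_expand (P : UG (1 + 2) F q) (v : Fin (1 + 2) → F) :
    v = ∑ i, herm q v (P.1 (sv F i)) • P.1 (sv F i) := by
  conv_lhs => rw [← app_inv hF P v, pi_eq_sum_univ' ((P⁻¹ : UG (1 + 2) F q).1 v)]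
  simp only [map_sum, map_smul, frame_coord hF]

omit hF in
theorem sum3 {M : Type*} [AddCommMonoid M] (f : Fin (1 + 2) → M) : ∑ i, f i = f 0 + f 1 + f 2 :=
  Fin.sum_univ_three f

/-- The element of the group acting monomially on the frame. -/
noncomputable def frameElt (P : UG (1 + 2) F q) (m : UG (1 + 2) F q)
    (hm : m ∈ SUG (1 + 2) F q) : SG 1 F q :=
  ⟨P * m * P⁻¹, (SUG_normal).conj_mem m hm P⟩

theorem frameElt_apply (P m : UG (1 + 2) F q) (hm : m ∈ SUG (1 + 2) F q) (v : Fin (1 + 2) → F) :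
    (frameElt P m hm).1.1 (P.1 v) = P.1 (m.1 v) := by
  show P.1 (m.1 ((P⁻¹ : UG (1 + 2) F q).1 (P.1 v))) = _
  rw [inv_app hF]

theorem perms_frameElt (P : UG (1 + 2) F q) (π : Equiv.Perm (Fin (1 + 2)))
    (l : Fin (1 + 2) → NU F q) (hm : mon hF π l ∈ SUG (1 + 2) F q) :
    Perms P (frameElt P (mon hF π l) hm) := fun i => ⟨π i, by
  rw [frameElt_apply hF, mon_sv, map_smul]
  exact Submodule.smul_mem _ _ (Submodule.mem_span_singleton_self _)⟩

variable {X : Subgroup (SG 1 F q)} {P : UG (1 + 2) F q}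

theorem hom_frame (hX : ∀ g, Perms P g → g ∈ X) (i : Fin (1 + 2)) : Hom X (P.1 (sv F i)) := by
  classical
  intro a ha
  let μ : NU F q := NU.mk a (by rw [← pow_succ']; exact ha)
  let l : Fin (1 + 2) → NU F q := fun j => if j = i then μ⁻¹ ^ 2 else μ
  have hl : ∏ j, l j = 1 := by
    rw [← Finset.mul_prod_erase _ _ (Finset.mem_univ i),
      Finset.prod_congr rfl (fun j hj => if_neg (Finset.ne_of_mem_erase hj)), Finset.prod_const,
      Finset.card_erase_of_mem (Finset.mem_univ i), Finset.card_univ, Fintype.card_fin]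
    simp [l]
  have hm := dia_mem_SUG hF hl
  refine ⟨frameElt P (dia hF l) hm, hX _ (perms_frameElt hF P 1 l hm), fun v => ?_⟩
  obtain ⟨y, rfl⟩ := P.1.surjective v
  rw [frameElt_apply hF, UG_app, herm_sv hF, ← map_smul, ← map_smul, ← map_add]
  congr 1
  funext j
  rw [dia_apply, Pi.add_apply, Pi.smul_apply, Pi.smul_apply]
  rcases eq_or_ne j i with rfl | hj
  · simp [l, μ]; ring
  · simp [l, μ, hj]

/-- The transposition of two frame lines. -/
theorem exists_swap (hX : ∀ g, Perms P g → g ∈ X) {i j : Fin (1 + 2)} (hij : i ≠ j) :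
    ∃ g ∈ X, ∀ m, g.1.1 (P.1 (sv F m)) = -P.1 (sv F (Equiv.swap i j m)) := by
  let μ : NU F q := NU.mk (-1) (by rw [hF.neg_pow, one_pow]; ring)
  have hm : mon hF (Equiv.swap i j) (fun _ => μ) ∈ SUG (1 + 2) F q := by
    refine mon_mem_SUG hF ?_
    rw [Equiv.Perm.sign_swap hij]
    simp [Finset.prod_const, μ]
    norm_num
  refine ⟨frameElt P _ hm, hX _ (perms_frameElt hF P _ _ hm), fun m => ?_⟩
  rw [frameElt_apply hF, mon_sv, map_smul]
  simp [μ]

set_option maxHeartbeats 1000000 in
/-- A centre off the frame gives a transvection group. -/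
theorem full_of_off (hq : 3 ≤ q) (h5 : q ≠ 5) (hX : ∀ g, Perms P g → g ∈ X) {g : SG 1 F q}
    (hg : g ∈ X) {i₀ : Fin (1 + 2)}
    (hoff : ∀ j, g.1.1 (P.1 (sv F i₀)) ∉ Submodule.span F {P.1 (sv F j)}) :
    ∃ v : Fin (1 + 2) → F, v ≠ 0 ∧ herm q v v = 0 ∧ Full hF X v := by
  classical
  set c := g.1.1 (P.1 (sv F i₀)) with hc
  have hXc : Hom X c := (hom_frame hF hX i₀).map hg
  have hcc : herm q c c = 1 := by rw [hc, UG_app, frame_orth hF, if_pos rfl]
  set C : Fin (1 + 2) → F := fun j => herm q c (P.1 (sv F j))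
  set A : Fin (1 + 2) → F := fun j => C j * C j ^ q
  have hsym : ∀ j, herm q (P.1 (sv F j)) c = C j ^ q := fun j => (hF.herm_symm _ _).symm
  have hexp : c = ∑ j, C j • P.1 (sv F j) := frame_expand hF P c
  have hsum : A 0 + A 1 + A 2 = 1 := by
    calc A 0 + A 1 + A 2 = ∑ j, C j * herm q (P.1 (sv F j)) c := by
          simp only [hsym, sum3]; rfl
      _ = herm q c c := by
          conv_rhs => rw [show herm q c c = herm q (∑ j, C j • P.1 (sv F j)) c by rw [← hexp]]
          simp [sum3, herm_add_left, herm_smul_left]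
      _ = 1 := hcc
  have hA0 : ∀ j, C j = 0 → A j = 0 := fun j h => by simp [A, h]
  by_cases hgood : ∃ j, C j ≠ 0 ∧ A j ≠ 1 ∧ (q = 11 → 2 * A j ≠ 1)
  · obtain ⟨j, h0, h1, h2⟩ := hgood
    have e : herm q (P.1 (sv F j)) c * herm q c (P.1 (sv F j)) = A j := by
      rw [hsym]; exact mul_comm _ _
    exact full_of_pair hF hq h5 (by rw [frame_orth hF, if_pos rfl]) hcc
      (by rw [hsym]; exact pow_ne_zero _ h0) (by rw [e]; exact h1) (by rw [e]; exact h2)
      (hom_frame hF hX j) hXc
  push Not at hgood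
  have htwo : ∀ j, ∃ k, k ≠ j ∧ C k ≠ 0 := by
    intro j
    by_contra h
    push Not at h
    refine hoff j (Submodule.mem_span_singleton.2 ⟨C j, ?_⟩)
    change C j • P.1 (sv F j) = c
    conv_rhs => rw [hexp]
    rw [Finset.sum_eq_single j (fun k _ hk => by rw [h k hk, zero_smul]) (by simp)]
  obtain ⟨p, e, hp, hchar, hqp⟩ := hF.exists_char
  haveI := Fact.mk hp
  haveI := hchar
  by_cases h11 : q = 11
  · -- two coordinates of norm one half
    have hval : ∀ j, C j ≠ 0 → 2 * A j = 1 ∨ 2 * A j = 2 := by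
      intro j h
      by_cases h1 : A j = 1
      · exact Or.inr (by rw [h1, mul_one])
      · exact Or.inl (hgood j h h1).2
    have hp11 : p = 11 := by
      have he : e ≠ 0 := by rintro rfl; rw [pow_zero] at hqp; omega
      have : p ∣ 11 := h11 ▸ hqp ▸ dvd_pow_self p he
      exact (Nat.prime_dvd_prime_iff_eq hp (by norm_num)).1 this
    subst hp11
    have small : ∀ k : ℕ, 0 < k → k < 11 → (k : F) ≠ 0 := fun k h1 h2 h => by
      rw [CharP.cast_eq_zero_iff F 11] at h
      exact absurd (Nat.le_of_dvd h1 h) (by omega)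
    have s1 := small 1 (by norm_num) (by norm_num)
    have s2 := small 2 (by norm_num) (by norm_num)
    have s3 := small 3 (by norm_num) (by norm_num)
    have s4 := small 4 (by norm_num) (by norm_num)
    push_cast at s1 s2 s3 s4
    have hsum2 : 2 * A 0 + 2 * A 1 + 2 * A 2 = 2 := by linear_combination 2 * hsum
    obtain ⟨i, j, k, hij, hik, hjk, hi, hk⟩ : ∃ i j k : Fin (1 + 2), i ≠ j ∧ i ≠ k ∧ j ≠ k ∧
        2 * A i = 1 ∧ C k = 0 := by
      by_cases z0 : C 0 = 0
      · have h1 : C 1 ≠ 0 := fun h => by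
          obtain ⟨k, hk, hk0⟩ := htwo 2
          fin_cases k <;> simp_all
        have h2 : C 2 ≠ 0 := fun h => by
          obtain ⟨k, hk, hk0⟩ := htwo 1
          fin_cases k <;> simp_all
        rcases hval 1 h1 with e1 | e1
        · exact ⟨1, 2, 0, by decide, by decide, by decide, e1, z0⟩
        · rw [hA0 0 z0, e1] at hsum2
          rcases hval 2 h2 with e2 | e2 <;> rw [e2] at hsum2
          · exact absurd (by linear_combination hsum2 : (1 : F) = 0) s1
          · exact absurd (by linear_combination hsum2 : (2 : F) = 0) s2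
      by_cases z1 : C 1 = 0
      · have h2 : C 2 ≠ 0 := fun h => by
          obtain ⟨k, hk, hk0⟩ := htwo 0
          fin_cases k <;> simp_all
        rcases hval 0 z0 with e0 | e0
        · exact ⟨0, 2, 1, by decide, by decide, by decide, e0, z1⟩
        · rw [hA0 1 z1, e0] at hsum2
          rcases hval 2 h2 with e2 | e2 <;> rw [e2] at hsum2
          · exact absurd (by linear_combination hsum2 : (1 : F) = 0) s1
          · exact absurd (by linear_combination hsum2 : (2 : F) = 0) s2
      by_cases z2 : C 2 = 0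
      · rcases hval 0 z0 with e0 | e0
        · exact ⟨0, 1, 2, by decide, by decide, by decide, e0, z2⟩
        · rw [hA0 2 z2, e0] at hsum2
          rcases hval 1 z1 with e1 | e1 <;> rw [e1] at hsum2
          · exact absurd (by linear_combination hsum2 : (1 : F) = 0) s1
          · exact absurd (by linear_combination hsum2 : (2 : F) = 0) s2
      exfalso
      rcases hval 0 z0 with e0 | e0 <;> rcases hval 1 z1 with e1 | e1 <;>
        rcases hval 2 z2 with e2 | e2 <;> rw [e0, e1, e2] at hsum2 <;>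
        first
        | exact s1 (by linear_combination hsum2)
        | exact s2 (by linear_combination hsum2)
        | exact s3 (by linear_combination hsum2)
        | exact s4 (by linear_combination hsum2)
    obtain ⟨t, htX, ht⟩ := exists_swap hF hX hjk
    set c' := t.1.1 c
    have hA : ∀ m : Fin (1 + 2), m = i ∨ m = j ∨ m = k := by
      intro m; exact (by decide : ∀ i j k m : Fin (1 + 2), i ≠ j → i ≠ k → j ≠ k → m = i ∨ m = j ∨ m = k) i j k m
        hij hik hjk
    have hCc : c = C i • P.1 (sv F i) + C j • P.1 (sv F j) := by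
      conv_lhs => rw [hexp]
      rw [← Finset.sum_subset (Finset.subset_univ {i, j}) fun m _ hm => by
        rcases hA m with rfl | rfl | rfl <;> simp_all, Finset.sum_pair hij]
    have hc' : herm q c c' = -A i := by
      rw [show c' = -(C i • P.1 (sv F i)) + -(C j • P.1 (sv F k)) by
        show t.1.1 c = _
        rw [hCc, map_add, map_smul, map_smul, ht, ht, Equiv.swap_apply_of_ne_of_ne hij hik,
          Equiv.swap_apply_left, smul_neg, smul_neg]]
      rw [← neg_smul, ← neg_smul, hF.herm_add_right, herm_smul_right, herm_smul_right,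
        show herm q c (P.1 (sv F i)) = C i from rfl, show herm q c (P.1 (sv F k)) = C k from rfl, hk,
        hF.neg_pow]
      simp only [A]; ring
    have hc'' : herm q c' c = -A i := by
      rw [← hF.herm_symm c c', hc', hF.neg_pow, mul_pow, hF.pow_pow]; simp only [A]; ring
    refine full_of_pair hF hq h5 hcc (by rw [UG_app, hcc]) ?_ ?_ (fun _ => ?_) hXc (hXc.map htX)
    · rw [hc', neg_ne_zero]
      intro h; rw [h, mul_zero] at hi; exact zero_ne_one hi
    · rw [hc', hc'']
      intro h
      exact s3 (by linear_combination -(4 : F) * h + (2 * A i + 1) * hi)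
    · rw [hc', hc'']
      intro h
      exact s1 (by linear_combination -(2 : F) * h + (2 * A i + 1) * hi)
  -- all norms one: characteristic two
  have hall : ∀ j, C j ≠ 0 → A j = 1 := fun j h => by
    by_contra h1; exact h11 (hgood j h h1).1
  have hne : ∀ j, C j ≠ 0 := by
    intro j hj
    obtain ⟨k, hkj, hk⟩ := htwo j
    obtain ⟨m, hmk, hm⟩ := htwo k
    have hmj : m ≠ j := fun e => hm (e ▸ hj)
    have h1 := hall k hk
    have h2 := hall m hm
    have h0 := hA0 j hj
    refine one_ne_zero (α := F) ?_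
    fin_cases j <;> fin_cases k <;> fin_cases m <;> simp_all
  have hA1 : ∀ j, A j = 1 := fun j => hall j (hne j)
  have h2 : (2 : F) = 0 := by
    rw [hA1, hA1, hA1] at hsum
    linear_combination hsum
  obtain ⟨a, ha⟩ := exists_gen hF
  have ha1 : a ^ (q + 1) = 1 := by have h := pow_orderOf_eq_one a; rwa [ha] at h
  have ha0 : a ≠ 0 := fun h => by rw [h, orderOf_zero] at ha; omega
  let μ : NU F q := NU.mk a (by rw [← pow_succ']; exact ha1)
  let l : Fin (1 + 2) → NU F q := ![μ, μ⁻¹, 1]
  have hl : ∏ j, l j = 1 := by simp [l, Fin.prod_univ_three]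
  have hm := dia_mem_SUG hF hl
  set t := frameElt P (dia hF l) hm
  have htX : t ∈ X := hX _ (perms_frameElt hF P 1 l hm)
  have haq : a ^ q = a⁻¹ := eq_inv_of_mul_eq_one_left (by rw [← pow_succ]; exact ha1)
  have htc : herm q (t.1.1 c) c = a + a⁻¹ + 1 := by
    conv_lhs => rw [show t.1.1 c = t.1.1 (∑ j, C j • P.1 (sv F j)) by rw [← hexp]]
    simp only [sum3, map_add, map_smul, t, frameElt_apply hF, dia_sv,
      herm_add_left, herm_smul_left, hsym]
    simp only [A] at hA1
    simp [l, μ]
    linear_combination a * hA1 0 + a⁻¹ * hA1 1 + hA1 2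
  have hcti : herm q c (t.1.1 c) = a + a⁻¹ + 1 := by
    rw [← hF.herm_symm, htc, hF.add_pow, hF.add_pow, inv_pow, haq, inv_inv, one_pow]; ring
  have hq6 : ¬ q + 1 ∣ 3 ∧ ¬ q + 1 ∣ 2 :=
    ⟨fun h => by have := Nat.le_of_dvd (by norm_num) h; omega,
      fun h => by have := Nat.le_of_dvd (by norm_num) h; omega⟩
  refine full_of_pair hF hq h5 hcc (by rw [UG_app, hcc]) ?_ ?_ (fun h => absurd h h11) hXc
    (hXc.map htX)
  · rw [hcti]
    intro h
    refine hq6.1 (ha ▸ orderOf_dvd_of_pow_eq_one ?_)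
    field_simp at h
    linear_combination (a - 1) * h
  · rw [hcti, htc]
    intro h
    refine hq6.2 (ha ▸ orderOf_dvd_of_pow_eq_one ?_)
    have h1 : (a + a⁻¹) * (a + a⁻¹) = 0 := by linear_combination h - (a + a⁻¹) * h2
    have h3 := mul_self_eq_zero.1 h1
    field_simp at h3
    linear_combination h3 - h2

/-- The overgroups of the frame stabiliser. -/
theorem frame_overgroup (hq : 3 ≤ q) (h5 : q ≠ 5) (hX : ∀ g, Perms P g → g ∈ X) :
    (∀ g ∈ X, Perms P g) ∨ X = ⊤ := by
  by_cases hall : ∀ g ∈ X, Perms P g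
  · exact Or.inl hall
  right
  simp only [not_forall, Perms, not_exists] at hall
  obtain ⟨g, hg, i₀, hoff⟩ := hall
  obtain ⟨v, hv, hv0, hfull⟩ := full_of_off hF hq h5 hX hg hoff
  obtain ⟨a, ha⟩ := exists_gen hF
  have ha1 : a ^ (q + 1) = 1 := by have h := pow_orderOf_eq_one a; rwa [ha] at h
  have ha0 : a ≠ 0 := fun h => by rw [h, orderOf_zero] at ha; omega
  have hC : a⁻¹ ^ 2 - a ≠ 0 := fun h => by
    have h3 : a ^ 3 = 1 := by
      field_simp at h
      linear_combination -h
    have := Nat.le_of_dvd (by norm_num) (ha ▸ orderOf_dvd_of_pow_eq_one h3)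
    omega
  have key : ∀ w : Fin (1 + 2) → F, (∀ x ∈ X, x.1.1 w ∈ Submodule.span F {w}) → ∀ i,
      herm q w (P.1 (sv F i)) = 0 ∨ P.1 (sv F i) ∈ Submodule.span F {w} := by
    intro w hw i
    obtain ⟨x, hx, hxv⟩ := hom_frame hF hX i a ha1
    rcases eq_or_ne (herm q w (P.1 (sv F i))) 0 with h | h
    · exact Or.inl h
    refine Or.inr ((Submodule.smul_mem_iff _ (mul_ne_zero hC h)).1 ?_)
    have := hw x hx
    rw [hxv] at this
    simpa using Submodule.sub_mem _ this
      (Submodule.smul_mem _ a (Submodule.mem_span_singleton_self w))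
  have hsome : ∀ w : Fin (1 + 2) → F, w ≠ 0 → ∃ i, herm q w (P.1 (sv F i)) ≠ 0 := by
    intro w hw
    by_contra h
    push Not at h
    exact hw (by rw [frame_expand hF P w]; simp [h])
  have hone : ∀ i, herm q (P.1 (sv F i)) (P.1 (sv F i)) = 1 := fun i => by
    rw [frame_orth hF, if_pos rfl]
  rcases root hF hq hv hv0 hfull with h | ⟨c, hc, h⟩ | h
  · exfalso
    obtain ⟨i, hi⟩ := hsome v hv
    obtain ⟨d, hd⟩ := Submodule.mem_span_singleton.1 ((key v h i).resolve_left hi)
    have := hone i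
    rw [← hd, herm_smul_left, herm_smul_right, hv0, mul_zero, mul_zero] at this
    exact zero_ne_one this
  · exfalso
    have hc0 : c ≠ 0 := fun e => hc (by rw [e, herm_zero_left])
    obtain ⟨i, hi⟩ := hsome c hc0
    obtain ⟨d, hd⟩ := Submodule.mem_span_singleton.1 ((key c h i).resolve_left hi)
    obtain ⟨j, hij⟩ := exists_ne i
    obtain ⟨t, htX, ht⟩ := exists_swap hF hX (Ne.symm hij)
    have ht' := ht i
    rw [← hd, map_smul, Equiv.swap_apply_left] at ht'
    obtain ⟨r, hr⟩ := Submodule.mem_span_singleton.1 (h t htX)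
    rw [← hr, smul_smul] at ht'
    have h1 := hone j
    have h0 : herm q (P.1 (sv F i)) (P.1 (sv F j)) = 0 := by
      rw [frame_orth hF, if_neg hij]
    rw [← hd, herm_smul_left] at h0
    have hd0 : d ≠ 0 := fun e => by
      have := hone i
      rw [← hd, e, zero_smul, herm_zero_left] at this
      exact zero_ne_one this
    have h2 := congrArg (fun w => herm q w (P.1 (sv F j))) ht'
    simp only [herm_smul_left, herm_neg_left, h1, (mul_eq_zero.1 h0).resolve_left hd0, mul_zero] at h2
    exact one_ne_zero (neg_eq_zero.1 h2.symm)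
  · exact h

omit hF in
/-- Stabilisers of orthogonal frames are maximal in `SU₃(q)`. -/
theorem frame_maximal {F : Type*} [Field F] [Fintype F] (q : ℕ) (hF : Fintype.card F = q ^ 2)
    (hq : 3 ≤ q) :
    q ≠ 5 → ∀ D : Fin 3 → Submodule F (Fin 3 → F),
      Cfsg.Geo.IsNondegenerateMDecomposition (Cfsg.hermForm 3 F q) 1 D →
      Cfsg.Geo.IsMaximalIn (Cfsg.GU 3 F q ⊓ Cfsg.Geo.specialLinear (Fin 3) F)
        (Cfsg.Geo.decompositionStabilizer D ⊓ (Cfsg.GU 3 F q ⊓ Cfsg.Geo.specialLinear (Fin 3) F)) := by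
  intro h5 D hD
  classical
  have hS : SqField F q := sqField_of_fintype hF
  obtain ⟨e, P, he⟩ := exists_frame_iso hS hD
  have hperm : ∀ g : SG 1 F q, Perms P g → toGL g ∈ decompositionStabilizer D := by
    intro g hg
    refine DecompMax.mem_stabilizer_of_forall_mem hD.decomp fun i x hx => ?_
    obtain ⟨i', rfl⟩ := e.surjective i
    rw [he] at hx
    obtain ⟨s, rfl⟩ := Submodule.mem_span_singleton.1 hx
    obtain ⟨j, hj⟩ := hg i'
    refine ⟨e j, ?_⟩
    rw [toGL_mulVec, map_smul, he]
    exact Submodule.smul_mem _ _ hj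
  refine maximal_of_overgroups
    (suGL_not_le_frameStabilizer hS (by norm_num) (by omega) hD rfl) fun X hX => ?_
  rcases frame_overgroup hS hq h5 (X := X) (P := P) (fun g hg => hX (hperm g hg)) with h | h
  · exact Or.inl fun g hg => hperm g (h g hg)
  · exact Or.inr h

end Cfsg.Agent.SUGeo
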