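import Cfsg.Agent.SUGeo.Root
import Cfsg.Agent.MaxSub.Dickson.Overgroups
import Cfsg.Agent.DecompMax.UnitDvd

/-!
Two groups of homologies with non-orthogonal centres spanning a non-degenerate plane contain the
transvections at a point of that plane.
-/

set_option autoImplicit false
set_option linter.unusedSectionVars false
set_option linter.style.haveILetI false

namespace Cfsg.Agent.SUGeo

open Cfsg.Agent.Classical.U Cfsg.Agent.MinU Cfsg.Agent.MinU.Three Cfsg.Agent.MaxSub.Dickson MulAction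
open scoped OnePoint MatrixGroups

universe u

/-- The arithmetic left over by the subfield groups. -/
theorem subfield_small : ∀ q < 33, ∀ q₀ < 11, 4 ≤ q₀ → q₀ < q → q₀ ∣ q → q % 3 = 2 →
    q ≤ 3 * q₀ + 2 → q₀ ^ 3 ≤ q ^ 2 → IsPrimePow q → q = 8 ∧ q₀ = 4 := by
  intro q hq q₀ hq₀ h4 hlt hd h3 hle hcube hpp
  interval_cases q₀ <;> interval_cases q <;> simp_all (config := { decide := true })

/-- The orders left by the small groups. -/
theorem small_div {q : ℕ} (hq : 3 ≤ q) (h5 : q ≠ 5) :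
    ¬ q + 1 ∣ 3 ∧ ¬ q + 1 ∣ 6 ∧ (Odd q → ¬ q + 1 ∣ 9 ∧ ¬ q + 1 ∣ 15 ∧
      (q + 1 ∣ 12 → q = 3 ∨ q = 11)) := by
  have key : ∀ n < 15, 3 ≤ n → n ≠ 5 → ¬ n + 1 ∣ 3 ∧ ¬ n + 1 ∣ 6 ∧ (n % 2 = 1 →
      ¬ n + 1 ∣ 9 ∧ ¬ n + 1 ∣ 15 ∧ (n + 1 ∣ 12 → n = 3 ∨ n = 11)) := by
    intro n hn; interval_cases n <;> norm_num
  rcases Nat.lt_or_ge q 15 with h | h
  · obtain ⟨a, b, c⟩ := key q h hq h5
    exact ⟨a, b, fun ho => c (Nat.odd_iff.1 ho)⟩
  · refine ⟨fun hd => ?_, fun hd => ?_, fun _ => ⟨fun hd => ?_, fun hd => ?_, fun hd => ?_⟩⟩ <;>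
      have := Nat.le_of_dvd (by norm_num) hd <;> omega

variable {F : Type u} [Field F] {q : ℕ}

/-- `x` is the homology with centre `w` and parameter `a`. -/
def IsHom (q : ℕ) (x : SG 1 F q) (w : Fin (1 + 2) → F) (a : F) : Prop :=
  ∀ v, x.1.1 v = a • v + ((a⁻¹ ^ 2 - a) * herm q v w) • w

/-- `X` contains the homologies with centre `w`. -/
def Hom (X : Subgroup (SG 1 F q)) (w : Fin (1 + 2) → F) : Prop :=
  ∀ a : F, a ^ (q + 1) = 1 → ∃ x ∈ X, IsHom q x w a

variable {X : Subgroup (SG 1 F q)}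

theorem IsHom.apply_self {x : SG 1 F q} {w : Fin (1 + 2) → F} {a : F} (h : IsHom q x w a)
    (hw : herm q w w = 1) : x.1.1 w = a⁻¹ ^ 2 • w := by
  rw [h, hw]; module

theorem IsHom.apply_perp {x : SG 1 F q} {w v : Fin (1 + 2) → F} {a : F} (h : IsHom q x w a)
    (hv : herm q v w = 0) : x.1.1 v = a • v := by
  rw [h, hv]; module

theorem IsHom.pow {x : SG 1 F q} {w : Fin (1 + 2) → F} {a : F} (h : IsHom q x w a) (ha : a ≠ 0)
    (hw : herm q w w = 1) : ∀ k : ℕ, IsHom q (x ^ k) w (a ^ k)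
  | 0 => fun v => by simp
  | k + 1 => fun v => by
    rw [pow_succ x, Subgroup.coe_mul, Subgroup.coe_mul, LinearEquiv.mul_apply, IsHom.pow h ha hw k,
      h v]
    simp only [herm_add_left, herm_smul_left, hw, pow_succ a, inv_pow, mul_inv, mul_pow]
    match_scalars <;> field_simp <;> ring

theorem Hom.map {w : Fin (1 + 2) → F} (h : Hom X w) {g : SG 1 F q} (hg : g ∈ X) :
    Hom X (g.1.1 w) := by
  intro a ha
  obtain ⟨x, hx, hxv⟩ := h a ha
  refine ⟨g * x * g⁻¹, mul_mem (mul_mem hg hx) (inv_mem hg), fun v => ?_⟩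
  have e : g.1.1 (g.1.1.symm v) = v := g.1.1.apply_symm_apply v
  rw [Subgroup.coe_mul, Subgroup.coe_mul, LinearEquiv.mul_apply, Subgroup.coe_mul,
    Subgroup.coe_mul, LinearEquiv.mul_apply]
  change g.1.1 (x.1.1 (g.1.1.symm v)) = _
  rw [hxv, map_add, map_smul, map_smul, e]
  conv_rhs => rw [← e, UG_app g.1]
  rw [e]

theorem Hom.conjX {w : Fin (1 + 2) → F} (h : Hom X w) (t : SG 1 F q) :
    Hom (X.map (MulAut.conj t).toMonoidHom) (t.1.1 w) := by
  intro a ha
  obtain ⟨x, hx, hxv⟩ := h a ha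
  refine ⟨t * x * t⁻¹, ⟨x, hx, rfl⟩, fun v => ?_⟩
  have e : t.1.1 (t.1.1.symm v) = v := t.1.1.apply_symm_apply v
  rw [Subgroup.coe_mul, Subgroup.coe_mul, LinearEquiv.mul_apply, Subgroup.coe_mul,
    Subgroup.coe_mul, LinearEquiv.mul_apply]
  change t.1.1 (x.1.1 (t.1.1.symm v)) = _
  rw [hxv, map_add, map_smul, map_smul, e]
  conv_rhs => rw [← e, UG_app t.1]
  rw [e]

variable (hF : SqField F q)
include hF

theorem exists_gen : ∃ a : F, orderOf a = q + 1 := by
  obtain ⟨μ, hμ⟩ := DecompMax.UF.exists_NU_order hF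
  exact ⟨((μ : Fˣ) : F), by rw [orderOf_units, Subgroup.orderOf_coe, hμ]⟩

/-- The image on the projective line of the part of `X` fixing the pole. -/
noncomputable def Gim (X : Subgroup (SG 1 F q)) : Subgroup PGL(2, F) :=
  (X.subgroupOf (Pl hF)).map (gam hF)

theorem mem_Gim {γ : PGL(2, F)} :
    γ ∈ Gim hF X ↔ ∃ g : ↥(Pl hF), g.1 ∈ X ∧ gam hF g = γ := by
  constructor
  · rintro ⟨g, hg, rfl⟩; exact ⟨g, hg, rfl⟩
  · rintro ⟨g, hg, rfl⟩; exact ⟨g, hg, rfl⟩

theorem translation_in [DecidableEq F] {γ : PGL(2, F)} (hγ : γ ∈ Gim hF X) {p : ℕ} [Fact p.Prime]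
    [CharP F p] (hpow : γ ^ p = 1) (hfix : γ • (∞ : OnePoint F) = ∞) :
    ∃ a : skew hF, γ = aff 1 (a : F) ∧ zc hF a ∈ X := by
  obtain ⟨hfin, hcard⟩ := id hF
  obtain ⟨g, hgX, rfl⟩ := (mem_Gim hF).1 hγ
  obtain ⟨a, l, hgl⟩ := exists_of_fix hF g.2
    ((smul_eq_iff hF g (lineOf_infty hF).symm (lineOf_infty hF).symm).2 hfix)
  have e : g = (⟨zc hF a, zc_mem hF a⟩ : ↥(Pl hF)) * ⟨lv hF l, Three.lv_mem hF l⟩ := Subtype.ext hgl
  rw [e, map_mul, gam_zc, gam_lv, aff_mul, one_mul, mul_zero, zero_add] at hpow ⊢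
  rw [aff_pow_char_eq_one_iff] at hpow
  refine ⟨a, by rw [hpow], ?_⟩
  have hn : (zc hF a * lv hF l) ^ (q ^ 2 - 1) ∈ X := pow_mem (hgl ▸ hgX) _
  have hl1 : lv hF l ^ (q ^ 2 - 1) = 1 := by
    rw [← map_pow, show l ^ (q ^ 2 - 1) = 1 from Units.ext (by
      rw [Units.val_pow_eq_pow_val]; exact units_pow hF l), map_one]
  rw [(show Commute (zc hF a) (lv hF l) from (zc_comm hF hpow a).symm).mul_pow, hl1, mul_one,
    zc_nsmul] at hn
  have hneg : (q ^ 2 - 1) • a = -a := by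
    have hq2 : q ^ 2 - 1 + 1 = q ^ 2 := Nat.sub_add_cancel (Nat.one_le_pow _ _ hF.one_lt.le)
    refine eq_neg_of_add_eq_zero_left ?_
    rw [← succ_nsmul, hq2]
    refine Subtype.ext ?_
    have := Fintype.ofFinite F
    rw [AddSubgroup.coe_nsmul, nsmul_eq_mul, ← hcard, Nat.card_eq_fintype_card,
      Nat.cast_card_eq_zero, zero_mul]
    rfl
  rw [hneg] at hn
  have h0 : (zc hF (-a))⁻¹ = zc hF a :=
    inv_eq_of_mul_eq_one_right (by rw [← zc_add, neg_add_cancel, zc_zero])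
  rw [← h0]
  exact inv_mem hn

/-- As many translations at a point as skew elements give all transvections at a point. -/
theorem full_of_translations [DecidableEq F] {p : ℕ} [Fact p.Prime] [CharP F p] {ι : Type*}
    [Finite ι] (hcard : q ≤ Nat.card ι) {z : OnePoint F} (hz : z ∈ Sset hF) (f : ι → PGL(2, F))
    (hf : Function.Injective f) (hfm : ∀ i, f i ∈ Gim hF X ∧ f i ^ p = 1 ∧ f i • z = z) :
    ∃ v : Fin (1 + 2) → F, v ≠ 0 ∧ herm q v v = 0 ∧ Full hF X v := by
  obtain ⟨t, ht⟩ := exists_move_Sset hF hz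
  set X' := X.map (MulAut.conj (t.1⁻¹)).toMonoidHom
  have hmem : ∀ i, ∃ a : skew hF, (gam hF t)⁻¹ * f i * gam hF t = aff 1 (a : F) ∧
      zc hF a ∈ X' := by
    intro i
    obtain ⟨hi, hip, hiz⟩ := hfm i
    obtain ⟨g, hgX, hg⟩ := (mem_Gim hF).1 hi
    refine translation_in hF (X := X') (p := p)
      ((mem_Gim hF).2 ⟨t⁻¹ * g * t, ⟨g.1, hgX, by simp⟩, ?_⟩) ?_ ?_
    · rw [map_mul, map_mul, map_inv, hg]
    · rw [show (gam hF t)⁻¹ * f i * gam hF t = (gam hF t)⁻¹ * f i * (gam hF t)⁻¹⁻¹ by rw [inv_inv],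
        conj_pow, hip]
      group
    · rw [mul_smul, mul_smul, ht, hiz, inv_smul_eq_iff, ht]
  choose a ha hX using hmem
  have hinj : Function.Injective a := fun i j e => hf (by
    have := (ha i).trans ((by rw [e] : aff (1 : Fˣ) (a i : F) = aff 1 (a j : F)).trans (ha j).symm)
    exact mul_left_cancel (mul_right_cancel this))
  haveI : Finite F := hF.1
  have hbij : Function.Bijective a := (Nat.bijective_iff_injective_and_card a).2
    ⟨hinj, le_antisymm (Nat.card_le_card_of_injective a hinj) (by rw [card_skew hF]; exact hcard)⟩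
  have hfull : Full hF X' (eV hF 1) := fun c hc => by
    have hc' : c ∈ skew hF := (mem_skew hF).2 hc.2
    obtain ⟨i, hi⟩ := hbij.2 ⟨c, hc'⟩
    rw [show tS hF hc = tS hF (trvCond_eV hF (m := 1) hc') from rfl, tS_eV hF hc']
    have := hX i
    rw [hi] at this
    exact this
  refine ⟨t.1.1.1 (eV hF 1), fun h => (pair_spec hF (m := 1)).1.ne_zero
    ((LinearEquiv.map_eq_zero_iff _).1 h), by rw [UG_app]; exact h_ee hF, ?_⟩
  have := hfull.conjX hF t.1
  rwa [Subgroup.map_map, show (MulAut.conj t.1).toMonoidHom.comp (MulAut.conj t.1⁻¹).toMonoidHom =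
    MonoidHom.id (SG 1 F q) from MonoidHom.ext fun x => by simp [mul_assoc], Subgroup.map_id]
    at this

theorem smul_pt [DecidableEq F] {g : ↥(Pl hF)} {z : OnePoint F} {s : F} (hs : s ≠ 0)
    (h : g.1.1.1 (ph hF 1 (vecOf z, 0)) = s • ph hF 1 (vecOf z, 0)) : gam hF g • z = z := by
  refine lineOf_injective hF ?_
  rw [← mapL_lineOf, lineOf, mapL_span, h]
  exact Submodule.span_singleton_smul_eq (IsUnit.mk0 _ hs) _

theorem exists_pt {x y : F} (h : ph hF 1 ((x, y), 0) ≠ 0) :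
    ∃ (z : OnePoint F) (s : F), s ≠ 0 ∧ ph hF 1 ((x, y), 0) = s • ph hF 1 (vecOf z, 0) := by
  rcases eq_or_ne y 0 with rfl | hy
  · have hx : x ≠ 0 := fun e => h (by rw [e]; exact map_zero _)
    exact ⟨∞, x, hx, by rw [← map_smul, vecOf_infty]; simp⟩
  · exact ⟨((x / y : F) : OnePoint F), y, hy,
      by rw [← map_smul, vecOf_coe]; simp [mul_div_cancel₀ _ hy]⟩

theorem perp_coords {v : Fin (1 + 2) → F} (hv : herm q v (ow hF) = 0) :
    ∃ x y : F, v = ph hF 1 ((x, y), 0) := by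
  obtain ⟨⟨⟨x, y⟩, z⟩, rfl⟩ := (ph hF 1).surjective v
  refine ⟨x, y, ?_⟩
  rw [ow, herm_ph, herm_one hF] at hv
  simp [hF.q_ne_zero] at hv
  rw [show z = 0 from ext_one hv]

theorem h_eV_ow : herm q (eV hF 1) (ow hF) = 0 := by
  rw [← ph_eV hF, ow, herm_ph, herm_zero_left]; simp [hF.q_ne_zero]

/-- A centre on the plane: two fixed points, and a rotation of order at least a third of `q + 1`. -/
theorem exists_rot [DecidableEq F] {w : Fin (1 + 2) → F} (hw : herm q w (ow hF) = 0)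
    (hw1 : herm q w w = 1) (h : Hom X w) {a : F} (ha : orderOf a = q + 1) :
    ∃ (g : ↥(Pl hF)) (U U' : OnePoint F), g.1 ∈ X ∧ IsHom q g.1 w a ∧ U ≠ U' ∧
      (∀ k : ℕ, gam hF g ^ k = 1 → q + 1 ∣ 3 * k) ∧ gam hF g • U = U ∧ gam hF g • U' = U' ∧
      (∃ s : F, s ≠ 0 ∧ w = s • ph hF 1 (vecOf U, 0)) ∧
      herm q (ph hF 1 (vecOf U', 0)) w = 0 := by
  have ha1 : a ^ (q + 1) = 1 := ha ▸ pow_orderOf_eq_one a
  have ha0 : a ≠ 0 := fun e => by rw [e, zero_pow (by omega)] at ha1; exact zero_ne_one ha1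
  obtain ⟨x, hxX, hx⟩ := h a ha1
  have hxow : x.1.1 (ow hF) = a • ow hF :=
    hx.apply_perp (Forms.herm_comm_zero hF hw)
  let g : ↥(Pl hF) := ⟨x, (mem_Pl hF).2 ⟨a, ha0, hxow⟩⟩
  obtain ⟨x₀, y₀, rfl⟩ := perp_coords hF hw
  have hw0 : ph hF 1 ((x₀, y₀), (0 : Fin 1 → F)) ≠ 0 := fun e => by
    rw [e, herm_zero_left] at hw1; exact zero_ne_one hw1
  obtain ⟨U, s, hs, hU⟩ := exists_pt hF hw0
  have hw1' : x₀ * y₀ ^ q + y₀ * x₀ ^ q = 1 := by
    rw [herm_ph] at hw1; simpa [hF.q_ne_zero, hF.herm_zero_right] using hw1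
  have hy0 : y₀ ≠ 0 := fun e => by
    rw [e, zero_pow hF.q_ne_zero] at hw1'; simp at hw1'
  have hu'0 : ph hF 1 ((x₀ ^ q, -(y₀ ^ q)), (0 : Fin 1 → F)) ≠ 0 := fun e => by
    have := congrArg (fun r : (F × F) × (Fin 1 → F) => r.1.2) ((LinearEquiv.map_eq_zero_iff _).1 e)
    simp [hy0] at this
  obtain ⟨U', s', hs', hU'⟩ := exists_pt hF hu'0
  have hperp : herm q (ph hF 1 (vecOf U', (0 : Fin 1 → F))) (ph hF 1 ((x₀, y₀), 0)) = 0 := by
    have : herm q (ph hF 1 ((x₀ ^ q, -(y₀ ^ q)), (0 : Fin 1 → F)))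
        (ph hF 1 ((x₀, y₀), 0)) = 0 := by
      rw [herm_ph]; simp [hF.herm_zero_right]; ring
    rw [hU', herm_smul_left] at this
    exact (mul_eq_zero.1 this).resolve_left hs'
  refine ⟨g, U, U', hxX, hx, fun e => ?_, fun k hk => ?_, ?_, ?_, ⟨s, hs, hU⟩, hperp⟩
  · rw [← e] at hperp
    rw [hU, herm_smul_left, ← hU, hperp, mul_zero] at hw1
    exact zero_ne_one hw1
  · have hgk : gam hF (g ^ k) • (∞ : OnePoint F) = ∞ := by rw [map_pow, hk, one_smul]
    rw [← (lineOf_injective hF).eq_iff, ← mapL_lineOf, lineOf_infty] at hgk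
    have hm : (x ^ k).1.1 (eV hF 1) ∈ Submodule.span F {eV hF 1} := by
      have h1 : (x ^ k).1.1 (eV hF 1) ∈ mapL (g ^ k).1 (Le hF).1 :=
        Submodule.mem_map_of_mem (Submodule.mem_span_singleton_self _)
      rw [hgk] at h1
      exact h1
    obtain ⟨r, hr⟩ := Submodule.mem_span_singleton.1 hm
    set w := ph hF 1 ((x₀, y₀), (0 : Fin 1 → F))
    set C := (a ^ k)⁻¹ ^ 2 - a ^ k
    have hv := hx.pow ha0 hw1 k (eV hF 1)
    rw [← hr] at hv
    have hhe : herm q (eV hF 1) w ≠ 0 := by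
      rw [← ph_eV hF, herm_ph]; simp [hF.herm_zero_right, hy0]
    have h2 : (r - a ^ k) • eV hF 1 = (C * herm q (eV hF 1) w) • w := by
      linear_combination (norm := module) hv
    have hC : C = 0 := by
      by_contra hC
      have h3 := congrArg (fun v => herm q v v) h2
      simp only [herm_smul_left, herm_smul_right, h_ee hF, mul_zero, hw1, mul_one] at h3
      exact mul_ne_zero (pow_ne_zero _ (mul_ne_zero hC hhe)) (mul_ne_zero hC hhe) h3.symm
    have h3 : a ^ (3 * k) = 1 := by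
      have hk0 := pow_ne_zero k ha0
      have h4 := sub_eq_zero.1 hC
      rw [mul_comm, pow_mul]
      field_simp at h4
      linear_combination -h4
    exact ha ▸ orderOf_dvd_of_pow_eq_one h3
  · refine smul_pt hF (s := a⁻¹ ^ 2) (pow_ne_zero _ (inv_ne_zero ha0)) ?_
    have := hx.apply_self hw1
    rw [hU, map_smul, smul_comm] at this
    exact smul_right_injective _ hs this
  · exact smul_pt hF (s := a) ha0 (hx.apply_perp hperp)

theorem pow_fix [DecidableEq F] {γ : PGL(2, F)} {z : OnePoint F} (h : γ • z = z) (k : ℕ) :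
    γ ^ k • z = z := by
  induction k with
  | zero => rw [pow_zero, one_smul]
  | succ k ih => rw [pow_succ, mul_smul, h, ih]

theorem fixed_pair [DecidableEq F] {γ : PGL(2, F)} (hγ : γ ≠ 1) {U U' z : OnePoint F}
    (hne : U ≠ U') (hU : γ • U = U) (hU' : γ • U' = U') (hz : γ • z = z) : z = U ∨ z = U' := by
  by_contra h
  push Not at h
  exact hγ (eq_one_of_three hne h.1.symm h.2.symm hU hU' hz)

theorem full_of_plane (hq : 3 ≤ q) (h5 : q ≠ 5) {u c : Fin (1 + 2) → F}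
    (huw : herm q u (ow hF) = 0) (hcw : herm q c (ow hF) = 0) (hu : herm q u u = 1)
    (hc : herm q c c = 1) (hk0 : herm q u c ≠ 0) (hk1 : herm q u c * herm q c u ≠ 1)
    (h11 : q = 11 → 2 * (herm q u c * herm q c u) ≠ 1) (hXu : Hom X u) (hXc : Hom X c) :
    ∃ v : Fin (1 + 2) → F, v ≠ 0 ∧ herm q v v = 0 ∧ Full hF X v := by
  classical
  obtain ⟨hfin, hcardF⟩ := id hF
  letI := Fintype.ofFinite F
  obtain ⟨p, e, hp, hchar, hqp⟩ := hF.exists_char
  haveI := Fact.mk hp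
  haveI := hchar
  have he0 : e ≠ 0 := by rintro rfl; rw [pow_zero] at hqp; omega
  have hodd : p ≠ 2 → Odd q := fun h => hqp ▸ (hp.odd_of_ne_two h).pow
  obtain ⟨a, ha⟩ := exists_gen hF
  obtain ⟨g, U, U', hgX, hgh, hUne, hgord, hgU, hgU', ⟨s, hs, hsU⟩, hpU⟩ :=
    exists_rot hF huw hu hXu ha
  obtain ⟨k, C, C', hkX, hkh, hCne, hkord, hkC, hkC', ⟨r, hr, hrC⟩, hpC⟩ :=
    exists_rot hF hcw hc hXc ha
  set γ := gam hF g with hγ
  set δ := gam hF k with hδ
  have hγm : γ ∈ Gim hF X := (mem_Gim hF).2 ⟨g, hgX, rfl⟩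
  have hδm : δ ∈ Gim hF X := (mem_Gim hF).2 ⟨k, hkX, rfl⟩
  have hnotmul : ∀ d : F, c ≠ d • u := by
    intro d hd
    rw [hd, herm_smul_left, herm_smul_right, hu, mul_one] at hc
    rw [hd, herm_smul_left, herm_smul_right, hu, mul_one, mul_one, mul_comm] at hk1
    exact hk1 hc
  have hUC : U ≠ C := fun h => hnotmul (r / s) (by
    rw [hsU, h, smul_smul, div_mul_cancel₀ _ hs]; exact hrC)
  have hUC' : U ≠ C' := fun h => hk0 (by rw [hsU, h, herm_smul_left, hpC, mul_zero])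
  have hU'C : U' ≠ C := fun h => hk0 (Forms.herm_comm_zero hF (by
    rw [hrC, ← h, herm_smul_left, hpU, mul_zero]))
  have hU'C' : U' ≠ C' := by
    intro h
    rw [← h] at hpC
    obtain ⟨x₀, y₀, rfl⟩ := perp_coords hF huw
    obtain ⟨x₁, y₁, rfl⟩ := perp_coords hF hcw
    rw [show vecOf U' = ((vecOf U').1, (vecOf U').2) from rfl, herm_ph] at hpU hpC
    simp [hF.herm_zero_right] at hpU hpC
    set x := (vecOf U').1
    set y := (vecOf U').2
    have hxy : x ≠ 0 ∨ y ≠ 0 := by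
      simp only [x, y]
      induction U' using OnePoint.rec <;> simp [vecOf_infty, vecOf_coe]
    have h3 : (x₀ * y₁ - x₁ * y₀) ^ q = 0 := by
      rw [hF.sub_pow, mul_pow, mul_pow]
      rcases hxy with hx | hy
      · refine (mul_eq_zero.1 (?_ : x * _ = 0)).resolve_left hx
        linear_combination x₀ ^ q * hpC - x₁ ^ q * hpU
      · refine (mul_eq_zero.1 (?_ : y * _ = 0)).resolve_left hy
        linear_combination y₁ ^ q * hpU - y₀ ^ q * hpC
    have h4 : x₀ * y₁ = x₁ * y₀ := sub_eq_zero.1 (pow_eq_zero_iff hF.q_ne_zero |>.1 h3)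
    rw [herm_ph] at hu
    simp [hF.herm_zero_right] at hu
    have hy0 : y₀ ≠ 0 := fun e => by simp [e, hF.q_ne_zero] at hu
    refine hnotmul (y₁ / y₀) ?_
    rw [← map_smul]
    congr 1
    refine Prod.ext (Prod.ext ?_ ?_) (by simp)
    · simp only [Prod.smul_fst, smul_eq_mul]
      field_simp
      linear_combination -h4
    · simp [div_mul_cancel₀ _ hy0]
  have h4pts : ∀ {L : Type u} [DecidableEq L] (A B : L) (f : OnePoint F → L), Function.Injective f →
      (f U = A ∨ f U = B) → (f U' = A ∨ f U' = B) → (f C = A ∨ f C = B) → False := by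
    intro L _ A B f hf h1 h2 h3
    rcases h1 with h1 | h1 <;> rcases h2 with h2 | h2 <;> rcases h3 with h3 | h3 <;>
      first
      | exact hUne (hf (h1.trans h2.symm))
      | exact hUC (hf (h1.trans h3.symm))
      | exact hU'C (hf (h2.trans h3.symm))
  obtain ⟨hn3, hn6, hsmall⟩ := small_div hq h5
  have hγ1 : γ ≠ 1 := fun h => hn3 (by simpa using hgord 1 (by rw [pow_one]; exact h))
  have hδ1 : δ ≠ 1 := fun h => hn3 (by simpa using hkord 1 (by rw [pow_one]; exact h))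
  have hγ2 : γ ^ 2 ≠ 1 := fun h => hn6 (hgord 2 h)
  have hδ2 : δ ^ 2 ≠ 1 := fun h => hn6 (hkord 2 h)
  -- an element of order the characteristic fixes an isotropic point
  have hfixS : ∀ (l : ℕ) [Fact l.Prime] (π : PGL(2, F)), π ∈ Gim hF X → π ^ l = 1 →
      Nat.card (Sset hF) ≡ Nat.card {z : Sset hF // π • z.1 = z.1} [MOD l] := by
    intro l _ π hπ hπl
    obtain ⟨g', -, rfl⟩ := (mem_Gim hF).1 hπ
    let P := Subgroup.zpowers (gam hF g')
    have hPS : ∀ (σ : PGL(2, F)), σ ∈ P → ∀ z ∈ Sset hF, σ • z ∈ Sset hF := by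
      rintro σ ⟨i, rfl⟩ z hz
      show gam hF g' ^ i • z ∈ Sset hF
      rw [← map_zpow]
      exact gam_mem_Sset hF _ hz
    letI : MulAction P (Sset hF) :=
      { smul := fun σ z => ⟨σ.1 • z.1, hPS σ.1 σ.2 z.1 z.2⟩
        one_smul := fun z => Subtype.ext (one_smul _ z.1)
        mul_smul := fun σ τ z => Subtype.ext (mul_smul σ.1 τ.1 z.1) }
    have hU : IsPGroup l P := by
      rintro ⟨_, i, rfl⟩
      refine ⟨1, Subtype.ext ?_⟩
      change (gam hF g' ^ i) ^ (l ^ 1) = 1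
      rw [pow_one, ← zpow_natCast, ← zpow_mul, mul_comm, zpow_mul, zpow_natCast, hπl, one_zpow]
    have hmod := hU.card_modEq_card_fixedPoints (Sset hF)
    rwa [Nat.card_congr (Equiv.subtypeEquivRight (p := (· ∈ fixedPoints P (Sset hF)))
      (q := fun z : Sset hF => gam hF g' • z.1 = z.1) fun z => ?_)] at hmod
    constructor
    · exact fun hz => congrArg Subtype.val (hz ⟨_, Subgroup.mem_zpowers _⟩)
    · rintro hz ⟨_, i, rfl⟩
      refine Subtype.ext ?_
      show gam hF g' ^ i • z.1 = z.1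
      exact (zpow_mem (show gam hF g' ∈ stabilizer PGL(2, F) z.1 from hz) i :)
  have hpfix : ∀ π : PGL(2, F), π ∈ Gim hF X → π ^ p = 1 → ∃ z ∈ Sset hF, π • z = z := by
    intro π hπ hπp
    have hmod := hfixS p π hπ hπp
    by_contra hne
    push Not at hne
    haveI : IsEmpty {z : Sset hF // π • z.1 = z.1} := ⟨fun z => hne z.1.1 z.1.2 z.2⟩
    rw [card_Sset hF, Nat.card_of_isEmpty, Nat.modEq_zero_iff_dvd,
      Nat.dvd_add_right (hqp ▸ dvd_pow_self p he0), Nat.dvd_one] at hmod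
    exact hp.ne_one hmod
  -- the subfield groups
  have hsub : ∀ (F₀ : Subfield F) (h : PGL(2, F)), 4 ≤ Nat.card F₀ →
      (∀ s : PGL(2, F₀), s ∈ lsub F₀ → h * subPGL F₀ s * h⁻¹ ∈ Gim hF X) →
      (∀ π ∈ Gim hF X, ∃ s : PGL(2, F₀), π = h * subPGL F₀ s * h⁻¹) →
      (q = 8 → Nat.card F₀ = 4 → False) →
      ∃ v : Fin (1 + 2) → F, v ≠ 0 ∧ herm q v v = 0 ∧ Full hF X v := by
    intro F₀ h h4 hlo hhi h8
    obtain ⟨hpd, hT⟩ := subfield_trans (p := p) F₀ h (Gim hF X) hlo hhi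
    obtain ⟨⟨π, hπ⟩, hord⟩ := exists_prime_orderOf_dvd_card' p hpd
    rw [Subgroup.orderOf_mk] at hord
    have hπp : π ^ p = 1 := hord ▸ pow_orderOf_eq_one π
    have hπ1 : π ≠ 1 := by rintro rfl; rw [orderOf_one] at hord; exact hp.ne_one hord.symm
    obtain ⟨z, hz, hπz⟩ := hpfix π hπ hπp
    obtain ⟨-, f, hf, hfm⟩ := hT z π hπ hπ1 hπp hπz
    by_cases hq0 : q ≤ Nat.card F₀
    · exact full_of_translations hF (p := p) hq0 hz f hf hfm
    exfalso
    push Not at hq0
    obtain ⟨σ, hσ⟩ := hhi γ hγm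
    have hordσ : orderOf γ = orderOf σ := by
      rw [hσ, show h * subPGL F₀ σ * h⁻¹ = MulAut.conj h (subPGL F₀ σ) from rfl,
        MulEquiv.orderOf_eq,
        orderOf_injective _ (subPGL_injective F₀)]
    haveI : Fintype F₀ := Fintype.ofFinite F₀
    have hn := orderOf_le_card_add_one σ
    rw [← Nat.card_eq_fintype_card, ← hordσ] at hn
    have hdvd := hgord _ (pow_orderOf_eq_one γ)
    have hn0 : 0 < orderOf γ := orderOf_pos γ
    set n := orderOf γ
    set q₀ := Nat.card F₀ with hq₀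
    have h3 : q % 3 = 2 := by
      by_contra hmod
      have : Nat.Coprime (q + 1) 3 :=
        ((Nat.Prime.coprime_iff_not_dvd Nat.prime_three).2 (by omega)).symm
      have := Nat.le_of_dvd hn0 (this.dvd_of_dvd_mul_left hdvd)
      omega
    have hle := Nat.le_of_dvd (by omega) hdvd
    obtain ⟨j, hj⟩ : ∃ j, Nat.card F = q₀ ^ j :=
      ⟨Module.finrank F₀ F, Module.natCard_eq_pow_finrank⟩
    haveI : CharP F₀ p := (RingHom.charP_iff F₀.subtype F₀.subtype.injective p).2 inferInstance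
    obtain ⟨e₀, -, he₀⟩ := FiniteField.card F₀ p
    rw [← Nat.card_eq_fintype_card, ← hq₀] at he₀
    have he : (e₀ : ℕ) < e := by
      rw [he₀, hqp] at hq0
      exact (Nat.pow_lt_pow_iff_right hp.one_lt).1 hq0
    have h2e : 2 * e = e₀ * j := by
      refine Nat.pow_right_injective hp.two_le ?_
      show p ^ (2 * e) = p ^ ((e₀ : ℕ) * j)
      rw [mul_comm 2 e, pow_mul, ← hqp, pow_mul, ← he₀, ← hj, hcardF]
    have hj3 : 3 ≤ j := by
      by_contra hh
      have : (e₀ : ℕ) * j ≤ e₀ * 2 := Nat.mul_le_mul_left _ (by omega)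
      omega
    have hcube : q₀ ^ 3 ≤ q ^ 2 := by
      rw [← hcardF, hj]
      exact Nat.pow_le_pow_right (by omega) hj3
    have hdq : q₀ ∣ q := by rw [he₀, hqp]; exact pow_dvd_pow p he.le
    have hle' : q ≤ 3 * q₀ + 2 := by omega
    have h10 : q₀ < 11 := by
      have := hcube.trans (Nat.pow_le_pow_left hle' 2)
      nlinarith
    obtain ⟨h8q, h8₀⟩ := subfield_small q (by omega) q₀ h10 h4 hq0 hdq h3 hle' hcube
      (hqp ▸ hp.isPrimePow.pow he0)
    exact h8 h8q h8₀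
  have horder : ∀ {G : Type} [Group G], (Gim hF X ≃* G) → ∀ (P : List ℕ),
      (∀ σ : G, ∃ i ∈ P, σ ^ i = 1) → ∃ i ∈ P, q + 1 ∣ 3 * i := by
    intro G _ iso P hP
    obtain ⟨i, hi, h⟩ := hP (iso ⟨γ, hγm⟩)
    refine ⟨i, hi, hgord i ?_⟩
    rw [← map_pow, MulEquiv.map_eq_one_iff] at h
    exact congrArg Subtype.val h
  haveI : CharP (AlgebraicClosure F) p :=
    charP_of_injective_algebraMap (algebraMap F (AlgebraicClosure F)).injective p
  let K := AlgebraicClosure F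
  have hpair : ∀ (A B : OnePoint K), A ≠ B → Gim hF X ≤ pairStab A B → False := by
    intro A B hAB hle
    have hsq : ∀ π ∈ Gim hF X, emb K (π ^ 2) • A = A ∧ emb K (π ^ 2) • B = B := by
      intro π hπ
      rw [map_pow, sq, mul_smul, mul_smul]
      rcases hle hπ with ⟨e1, e2⟩ | ⟨e1, e2⟩
      · rw [e1, e1, e2, e2]; exact ⟨rfl, rfl⟩
      · rw [e1, e2, e1]; exact ⟨rfl, rfl⟩
    have mem : ∀ π ∈ Gim hF X, π ^ 2 ≠ 1 → ∀ z : OnePoint F, π • z = z → pt₀ K z = A ∨ pt₀ K z = B := by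
      intro π hπ h2 z hz
      by_contra hh
      push Not at hh
      refine h2 (emb_injective (K := K) ?_)
      rw [map_one]
      exact eq_one_of_three hAB hh.1.symm hh.2.symm (hsq π hπ).1 (hsq π hπ).2
        (by rw [emb_pt, pow_fix hF hz])
    exact h4pts A B (pt₀ K) pt₀_injective (mem γ hγm hγ2 U hgU) (mem γ hγm hγ2 U' hgU')
      (mem δ hδm hδ2 C hkC)
  rcases classifyF (K := K) (p := p) (Gim hF X) with
    ⟨A, B, m, -, -, hab, hle, -⟩ | ⟨A, B, m, n, hab, hle, -, -, -, -, -⟩ | ⟨x₀, hfix, -⟩ |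
    ⟨hp2, -, ⟨iso⟩⟩ | ⟨hp2, hcard, ⟨iso⟩⟩ | ⟨hp2, -, ⟨iso⟩⟩ | ⟨F₀, h, h4, he⟩ |
    ⟨F₀, h, h4, hodd0, he⟩
  · exact (hpair A B hab.1 (hle.trans tor_le_pairStab)).elim
  · exact (hpair A B hab.1 hle).elim
  · exfalso
    rcases fixed_pair hF hγ1 hUne hgU hgU' (hfix γ hγm) with h1 | h1 <;>
      rcases fixed_pair hF hδ1 hCne hkC hkC' (hfix δ hδm) with h2 | h2
    · exact hUC (h1.symm.trans h2)
    · exact hUC' (h1.symm.trans h2)
    · exact hU'C (h1.symm.trans h2)
    · exact hU'C' (h1.symm.trans h2)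
  · exfalso
    obtain ⟨i, hi, hdvd⟩ := horder iso [2, 3] (by decide +kernel)
    obtain ⟨h9, -, -⟩ := hsmall (hodd hp2)
    fin_cases hi
    · exact hn6 hdvd
    · exact h9 hdvd
  · obtain ⟨i, hi, hdvd⟩ := horder iso [2, 3, 4] (by decide +kernel)
    obtain ⟨h9, -, h12⟩ := hsmall (hodd hp2)
    have hq' : q = 3 ∨ q = 11 := by
      fin_cases hi
      · exact absurd hdvd hn6
      · exact absurd hdvd h9
      · exact h12 hdvd
    rcases hq' with hq3 | hq11
    · have hp3 : p = q := by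
        rw [hq3] at hqp
        have : p ∣ 3 := hqp ▸ dvd_pow_self p he0
        rw [(Nat.prime_dvd_prime_iff_eq hp Nat.prime_three).1 this, hq3]
      obtain ⟨⟨π, hπ⟩, hord⟩ := exists_prime_orderOf_dvd_card' (G := Gim hF X) p
        (by rw [hcard, hp3, hq3]; norm_num)
      rw [Subgroup.orderOf_mk] at hord
      have hπp : π ^ p = 1 := hord ▸ pow_orderOf_eq_one π
      obtain ⟨z, hz, hπz⟩ := hpfix π hπ hπp
      refine full_of_translations hF (p := p) (ι := Fin p) (by simp [hp3]) hz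
        (fun i => π ^ (i : ℕ)) (fun i j e => Fin.ext ?_) fun i => ⟨pow_mem hπ _, ?_, pow_fix hF hπz _⟩
      · exact pow_injOn_Iio_orderOf (by simp [hord, i.2]) (by simp [hord, j.2]) e
      · rw [← pow_mul, mul_comm, pow_mul, hπp, one_pow]
    · exfalso
      subst hq11
      have hS4 : ∀ σ τ : Equiv.Perm (Fin 4), (σ ^ 3 = 1 ∨ σ ^ 2 = 1) ∨ (τ ^ 3 = 1 ∨ τ ^ 2 = 1) ∨
          σ ^ 2 * τ ^ 2 = τ ^ 2 * σ ^ 2 := by decide +kernel
      have hn9 : ¬ 11 + 1 ∣ 3 * 3 := by decide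
      have hcomm : γ ^ 2 * δ ^ 2 = δ ^ 2 * γ ^ 2 := by
        have back : ∀ (m : ℕ) (π : PGL(2, F)) (hπ : π ∈ Gim hF X),
            iso ⟨π, hπ⟩ ^ m = 1 → π ^ m = 1 := fun m π hπ h => by
          rw [← map_pow, MulEquiv.map_eq_one_iff] at h
          exact congrArg Subtype.val h
        rcases hS4 (iso ⟨γ, hγm⟩) (iso ⟨δ, hδm⟩) with (h | h) | (h | h) | h
        · exact absurd (hgord 3 (back 3 γ hγm h)) hn9
        · exact absurd (back 2 γ hγm h) hγ2
        · exact absurd (hkord 3 (back 3 δ hδm h)) hn9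
        · exact absurd (back 2 δ hδm h) hδ2
        · rw [← map_pow, ← map_pow, ← map_mul, ← map_mul] at h
          exact congrArg Subtype.val (iso.injective h)
      have hmove : γ ^ 2 • (δ ^ 2 • U) = δ ^ 2 • U := by
        rw [← mul_smul, hcomm, mul_smul, pow_fix hF hgU]
      rcases fixed_pair hF hγ2 hUne (pow_fix hF hgU 2) (pow_fix hF hgU' 2) hmove with h1 | h1
      · rcases fixed_pair hF hδ2 hCne (pow_fix hF hkC 2) (pow_fix hF hkC' 2) h1 with h2 | h2
        · exact hUC h2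
        · exact hUC' h2
      · rw [hδ, ← map_pow, ← (lineOf_injective hF).eq_iff, ← mapL_lineOf] at h1
        have hm : (k ^ 2).1.1.1 u ∈ lineOf hF U' := by
          rw [← h1]
          exact Submodule.mem_map_of_mem (by
            rw [hsU]; exact Submodule.smul_mem _ _ (Submodule.mem_span_singleton_self _))
        obtain ⟨d, hd⟩ := Submodule.mem_span_singleton.1 hm
        have ha0 : a ≠ 0 := fun h => by rw [h, orderOf_zero] at ha; omega
        have hkk := hkh.pow ha0 hc 2 u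
        have hperp : herm 11 ((k ^ 2).1.1.1 u) u = 0 := by
          rw [← hd, herm_smul_left, hpU, mul_zero]
        rw [show ((k ^ 2).1 : SG 1 F 11) = k.1 ^ 2 from rfl, hkk, herm_add_left, herm_smul_left,
          herm_smul_left, hu] at hperp
        have hb : (a ^ 2) ^ 3 = -1 := by
          have h12 : a ^ 12 = 1 := by have h := pow_orderOf_eq_one a; rwa [ha] at h
          have hne : a ^ 6 ≠ 1 := fun h => by
            have := orderOf_dvd_of_pow_eq_one h
            rw [ha] at this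
            norm_num at this
          have h0 : (a ^ 6 - 1) * (a ^ 6 + 1) = 0 := by linear_combination h12
          rw [← pow_mul]
          exact eq_neg_of_add_eq_zero_left ((mul_eq_zero.1 h0).resolve_left (sub_ne_zero.2 hne))
        refine h11 rfl ?_
        have h0 := pow_ne_zero 2 ha0
        have hb2 : (a ^ 2)⁻¹ ^ 2 = -(a ^ 2) := by
          field_simp
          linear_combination hb
        rw [hb2] at hperp
        have h1 : a ^ 2 * (1 - 2 * (herm 11 u c * herm 11 c u)) = 0 := by linear_combination hperp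
        exact (sub_eq_zero.1 ((mul_eq_zero.1 h1).resolve_left h0)).symm
  · exfalso
    obtain ⟨i, hi, hdvd⟩ := horder iso [2, 3, 5] (by decide +kernel)
    obtain ⟨h9, h15, -⟩ := hsmall (hodd hp2)
    fin_cases hi
    · exact hn6 hdvd
    · exact h9 hdvd
    · exact h15 hdvd
  · refine hsub F₀ h h4 (fun s _ => ?_) (fun π hπ => ?_) (fun h8q h8₀ => ?_)
    · have hm : subPGL F₀ s ∈ (Gim hF X).map (MulAut.conj h⁻¹).toMonoidHom := by
        rw [he]; exact ⟨s, rfl⟩
      obtain ⟨π, hπ, e'⟩ := hm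
      rw [← e']; simpa [mul_assoc] using hπ
    · have hm : h⁻¹ * π * h ∈ (subPGL F₀).range := by rw [← he]; exact ⟨π, hπ, by simp⟩
      obtain ⟨s, hs'⟩ := hm
      exact ⟨s, by rw [hs']; group⟩
    -- an element of order five has no room on nine points
    haveI : Fact (Nat.Prime 5) := ⟨Nat.prime_five⟩
    haveI : Fintype F₀ := Fintype.ofFinite F₀
    have hc60 : 5 ∣ Nat.card (Gim hF X) := by
      rw [Nat.card_congr ((Gim hF X).equivMapOfInjective (MulAut.conj h⁻¹).toMonoidHom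
        (MulAut.conj h⁻¹).injective).toEquiv, he,
        card_subPGL_range, h8₀]
      norm_num
    obtain ⟨⟨π, hπ⟩, hord⟩ := exists_prime_orderOf_dvd_card' 5 hc60
    rw [Subgroup.orderOf_mk] at hord
    have hπ1 : π ≠ 1 := by rintro rfl; simp at hord
    have hmod := hfixS 5 π hπ (hord ▸ pow_orderOf_eq_one π)
    rw [card_Sset hF] at hmod
    have h2 : 2 < Nat.card {z : Sset hF // π • z.1 = z.1} := by
      unfold Nat.ModEq at hmod
      omega
    rw [Nat.card_eq_fintype_card, Fintype.two_lt_card_iff] at h2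
    obtain ⟨z₁, z₂, z₃, h12, h13, h23⟩ := h2
    exact hπ1 (eq_one_of_three (fun e => h12 (Subtype.ext (Subtype.ext e)))
      (fun e => h13 (Subtype.ext (Subtype.ext e))) (fun e => h23 (Subtype.ext (Subtype.ext e)))
      z₁.2 z₂.2 z₃.2)
  · refine hsub F₀ h h4 (fun s hs' => ?_) (fun π hπ => ?_) (fun _ h8₀ => ?_)
    · have hm : subPGL F₀ s ∈ (Gim hF X).map (MulAut.conj h⁻¹).toMonoidHom := by
        rw [he, range_subPSL]; exact ⟨s, hs', rfl⟩
      obtain ⟨π, hπ, e'⟩ := hm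
      rw [← e']; simpa [mul_assoc] using hπ
    · have hm : h⁻¹ * π * h ∈ (subPSL F₀).range := by rw [← he]; exact ⟨π, hπ, by simp⟩
      rw [range_subPSL] at hm
      obtain ⟨s, -, hs'⟩ := hm
      exact ⟨s, by rw [hs']; group⟩
    rw [h8₀] at hodd0
    exact absurd hodd0 (by decide)

/-- Two non-orthogonal homology centres spanning a non-degenerate plane. -/
theorem full_of_pair (hq : 3 ≤ q) (h5 : q ≠ 5) {u c : Fin (1 + 2) → F} (hu : herm q u u = 1)
    (hc : herm q c c = 1) (hk0 : herm q u c ≠ 0) (hk1 : herm q u c * herm q c u ≠ 1)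
    (h11 : q = 11 → 2 * (herm q u c * herm q c u) ≠ 1) (hXu : Hom X u) (hXc : Hom X c) :
    ∃ v : Fin (1 + 2) → F, v ≠ 0 ∧ herm q v v = 0 ∧ Full hF X v := by
  let φ : (Fin (1 + 2) → F) →ₗ[F] F × F :=
    { toFun := fun v => (herm q v u, herm q v c)
      map_add' := fun v w => by ext <;> simp [herm_add_left]
      map_smul' := fun d v => by ext <;> simp [herm_smul_left] }
  obtain ⟨w, hw, hw0⟩ : ∃ w ∈ LinearMap.ker φ, w ≠ 0 := by
    refine Submodule.exists_mem_ne_zero_of_ne_bot fun h => ?_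
    have h1 := LinearMap.finrank_le_finrank_of_injective (LinearMap.ker_eq_bot.1 h)
    rw [Module.finrank_fin_fun, Module.finrank_prod, Module.finrank_self] at h1
    omega
  have hw' : herm q w u = 0 ∧ herm q w c = 0 := by
    simpa [φ, Prod.ext_iff] using hw
  have hww : herm q w w ≠ 0 := by
    intro hz
    have hLI : LinearIndependent F ![u, c, w] := by
      rw [Fintype.linearIndependent_iff]
      intro g hg
      simp only [Fin.sum_univ_three, Matrix.cons_val_zero, Matrix.cons_val_one,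
        Matrix.cons_val] at hg
      have e1 := congrArg (fun v => herm q v u) hg
      have e2 := congrArg (fun v => herm q v c) hg
      simp only [herm_add_left, herm_smul_left, herm_zero_left, hu, hc, hw'.1, hw'.2] at e1 e2
      have h0 : g 0 * (1 - herm q u c * herm q c u) = 0 := by
        linear_combination e1 - herm q c u * e2
      have g0 : g 0 = 0 := (mul_eq_zero.1 h0).resolve_right (sub_ne_zero.2 (Ne.symm hk1))
      have g1 : g 1 = 0 := by linear_combination e2 - herm q u c * g0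
      rw [g0, g1, zero_smul, zero_smul, zero_add, zero_add] at hg
      intro i
      fin_cases i
      · exact g0
      · exact g1
      · exact (smul_eq_zero.1 hg).resolve_right hw0
    refine hw0 (hF.eq_zero_of_herm w fun v => ?_)
    obtain ⟨g, rfl⟩ : ∃ g : Fin 3 → F, ∑ i, g i • ![u, c, w] i = v := by
      rw [← Submodule.mem_span_range_iff_exists_fun,
        hLI.span_eq_top_of_card_eq_finrank (by simp)]
      trivial
    simp [Fin.sum_univ_three, hF.herm_add_right, herm_smul_right, hw'.1, hw'.2, hz]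
  have how : herm q (ow hF) (ow hF) = 1 := by rw [ow, herm_ph, herm_one hF]; simp
  obtain ⟨d, hd⟩ := hF.exists_norm (c := (herm q w w)⁻¹) (by rw [inv_pow, hF.herm_symm])
  have hw1 : herm q (d • w) (d • w) = 1 := by
    rw [herm_smul_left, herm_smul_right, ← mul_assoc, ← pow_succ', hd, inv_mul_cancel₀ hww]
  obtain ⟨t, ht⟩ := exists_SUG_map hF (m := 1 + 2) (by norm_num) (v := d • w) (v' := ow hF)
    (by rw [hw1]; exact one_ne_zero) (by rw [hw1, how])
  have hperp : ∀ v, herm q w v = 0 → herm q (t.1.1 v) (ow hF) = 0 := fun v hv => by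
    rw [← ht, UG_app, herm_smul_right, Forms.herm_comm_zero hF hv, mul_zero]
  obtain ⟨v, hv, hv0, hfull⟩ := full_of_plane hF hq h5 (u := t.1.1 u) (c := t.1.1 c)
    (X := X.map (MulAut.conj t).toMonoidHom) (hperp u hw'.1) (hperp c hw'.2) (by rw [UG_app, hu])
    (by rw [UG_app, hc]) (by rw [UG_app]; exact hk0) (by rw [UG_app, UG_app]; exact hk1)
    (by rw [UG_app, UG_app]; exact h11) (hXu.conjX t) (hXc.conjX t)
  refine ⟨(t⁻¹).1.1 v, fun e => hv ((LinearEquiv.map_eq_zero_iff _).1 e),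
    by rw [UG_app]; exact hv0, ?_⟩
  have := hfull.conjX hF t⁻¹
  rwa [Subgroup.map_map, show (MulAut.conj t⁻¹).toMonoidHom.comp (MulAut.conj t).toMonoidHom =
    MonoidHom.id (SG 1 F q) from MonoidHom.ext fun x => by simp [mul_assoc], Subgroup.map_id]
    at this

end Cfsg.Agent.SUGeo
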