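import Cfsg.Agent.MaxSub.SubfieldMax.SL2Gen

/-!
Generation of `SL(2, F)` by two opposite root groups over a subfield with irrational product of
parameters; the subfield has at least three elements.
-/

set_option autoImplicit false
set_option linter.unusedSectionVars false
set_option linter.style.haveILetI false

namespace Cfsg.Agent.SUGeo

open Matrix Cfsg.Agent.PSLTwoSub Cfsg.Agent.MaxSub
open Cfsg.Agent.MaxSub.SubfieldMax (lo up trace_lo_mul_up up_mul)
open scoped MatrixGroups OnePoint Cfsg.Agent.MaxSub.Dickson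

variable {F : Type*} [Field F]

/-- Traces of cubes. -/
theorem trace_cube (h3 : (3 : F) = 0) (A : Matrix (Fin 2) (Fin 2) F) :
    (A ^ 3).trace = A.trace ^ 3 := by
  simp [pow_succ, Matrix.trace_fin_two, Matrix.mul_apply, Fin.sum_univ_two]
  linear_combination (-(A 0 0 + A 1 1) * (A 0 0 * A 1 1 - A 0 1 * A 1 0)) * h3

/-- Traces of fifth powers. -/
theorem trace_fifth (h5 : (5 : F) = 0) (A : Matrix (Fin 2) (Fin 2) F) :
    (A ^ 5).trace = A.trace ^ 5 := by
  simp [pow_succ, Matrix.trace_fin_two, Matrix.mul_apply, Fin.sum_univ_two]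
  linear_combination (-(A 0 0 + A 1 1) ^ 3 * (A 0 0 * A 1 1 - A 0 1 * A 1 0) +
    (A 0 0 + A 1 1) * (A 0 0 * A 1 1 - A 0 1 * A 1 0) ^ 2) * h5

theorem trace_pow_prime {p : ℕ} [CharP F p] (hp : p = 3 ∨ p = 5) (A : Matrix (Fin 2) (Fin 2) F) :
    ∀ k, (A ^ p ^ k).trace = A.trace ^ p ^ k
  | 0 => by simp
  | k + 1 => by
    have h0 : ((p : ℕ) : F) = 0 := CharP.cast_eq_zero F p
    rw [pow_succ, pow_mul, pow_mul, ← trace_pow_prime hp A k]
    rcases hp with rfl | rfl
    · exact trace_cube (by exact_mod_cast h0) _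
    · exact trace_fifth (by exact_mod_cast h0) _

variable [Fintype F]

theorem eq_top_of_pair (F₀ : Subfield F) (hmid : ∀ L : Subfield F, F₀ ≤ L → L = F₀ ∨ L = ⊤)
    (hq₀ : Nat.card F₀ ≠ 2) (hfour : ∀ t : F, t ^ Nat.card F₀ ^ 4 = t → t ∈ F₀)
    (H : Subgroup SL(2, F)) {l m : F} (hl : l ≠ 0) (hm : m ≠ 0) (hr : l * m ∉ F₀)
    (hL : ∀ a ∈ F₀, lo (a * l) ∈ H) (hU : ∀ a ∈ F₀, up (a * m) ∈ H) :
    H = ⊤ := by
  classical
  obtain ⟨p, hpc, n, hp, hcard⟩ := FiniteField.card' F
  haveI : CharP F p := hpc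
  haveI : Fact p.Prime := ⟨hp⟩
  haveI : CharP F₀ p := F₀.subtype.charP F₀.subtype.injective p
  haveI := Fintype.ofFinite F₀
  obtain ⟨k, -, hk⟩ := FiniteField.card F₀ p
  rw [← Nat.card_eq_fintype_card] at hk
  let K := AlgebraicClosure F
  haveI : DecidableEq K := Classical.decEq K
  set π : SL(2, F) →* PGL(2, F) := projHom (RingHom.id F) with hπ
  have hlo1 : lo l ∈ H := by simpa using hL 1 (one_mem _)
  have hup1 : up m ∈ H := by simpa using hU 1 (one_mem _)
  -- the upper root group
  let ν : Multiplicative F₀ →* (H.map π : Subgroup PGL(2, F)) :=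
    MonoidHom.mk' (fun a => ⟨π (up ((a.toAdd : F) * m)), _, hU _ a.toAdd.2, rfl⟩)
      (fun x y => Subtype.ext (by
        show π _ = π _ * π _
        rw [← map_mul, up_mul]
        congr 2
        simp only [toAdd_mul, Subfield.coe_add]
        ring))
  have hdvd : p ^ (k : ℕ) ∣ Nat.card (H.map π) := by
    have hinj : Function.Injective ν := by
      rw [injective_iff_map_eq_one]
      intro x hx
      have h0 := (projHom_eq_one (RingHom.id F) (congrArg Subtype.val hx)).1
      simp [up, hm] at h0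
      exact h0
    have h1 := Subgroup.card_dvd_of_injective ν hinj
    rwa [Nat.card_congr Multiplicative.toAdd, hk] at h1
  have hp_dvd : p ∣ Nat.card (H.map π) := (dvd_pow_self p k.ne_zero).trans hdvd
  have hsq : ∀ F₁ : Subfield F, ∀ h : PGL(2, F),
      (H.map π).map (MulAut.conj h⁻¹).toMonoidHom ≤ (Dickson.subPGL F₁).range →
      ∀ g ∈ H, Matrix.trace (g : Matrix (Fin 2) (Fin 2) F) ^ 2 ∈ F₁ := fun F₁ h hle g hg =>
    trace_sq_mem (RingHom.id F) F₁ h g (by
      have := hle ⟨_, ⟨g, hg, rfl⟩, rfl⟩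
      simpa [MulAut.conj_apply, hπ] using this)
  -- the trace square field contains the product
  have hprod : ∀ F₁ : Subfield F, (∀ g ∈ H, Matrix.trace (g : Matrix (Fin 2) (Fin 2) F) ^ 2 ∈ F₁) →
      ∀ b ∈ F₀, b * l * m ∈ F₁ := by
    intro F₁ hsq b hb
    have e₁ := hsq _ (mul_mem hlo1 (hU b hb))
    have e₂ := hsq _ (mul_mem hlo1 (hU (-b) (neg_mem hb)))
    rw [trace_lo_mul_up] at e₁ e₂
    by_cases h2 : (2 : F) = 0
    · have hx : (b * l * m) ^ 2 ∈ F₁ := by
        convert e₁ using 1
        linear_combination (-2 - 2 * l * (b * m)) * h2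
      have hp2 : p = 2 := by
        have h2' : ((2 : ℕ) : F) = 0 := by exact_mod_cast h2
        rcases (Nat.dvd_prime Nat.prime_two).mp ((CharP.cast_eq_zero_iff F p 2).mp h2') with h | h
        · exact absurd h hp.ne_one
        · exact h
      have hq := FiniteField.pow_card (b * l * m)
      rw [hcard, hp2, show (2 : ℕ) ^ (n : ℕ) = 2 * 2 ^ ((n : ℕ) - 1) by
        rw [← pow_succ']; congr 1; have := n.pos; omega, pow_mul] at hq
      rw [← hq]; exact pow_mem hx _
    · have h8 : (2 * 2 * 2 : F) * (b * l * m) ∈ F₁ := by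
        convert sub_mem e₁ e₂ using 1
        ring
      have h8' : (2 * 2 * 2 : F) ∈ F₁ :=
        mul_mem (mul_mem (natCast_mem _ 2) (natCast_mem _ 2)) (natCast_mem _ 2)
      have := div_mem h8 h8'
      rwa [mul_div_cancel_left₀ _ (by simp [h2])] at this
  have key : ∀ F₁ : Subfield F,
      (∀ g ∈ H, Matrix.trace (g : Matrix (Fin 2) (Fin 2) F) ^ 2 ∈ F₁) → F₁ = ⊤ := by
    intro F₁ hsq
    have hc0 : l * m ∈ F₁ := by simpa using hprod F₁ hsq 1 (one_mem _)
    have hle0 : F₀ ≤ F₁ := fun a ha => by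
      have := div_mem (hprod F₁ hsq a ha) hc0
      rwa [mul_assoc, mul_div_cancel_right₀ _ (mul_ne_zero hl hm)] at this
    exact (hmid F₁ hle0).resolve_left fun e => hr (e ▸ hc0)
  have hsmall : ∀ N : ℕ, Nat.card (H.map π) = N → p ≠ 2 → N = 12 ∨ N = 24 ∨ N = 60 → False := by
    intro N hN hp2 h3
    rw [hN] at hdvd hp_dvd
    have hp35 : p = 3 ∨ p = 5 := by
      have := Nat.le_of_dvd (by omega) hp_dvd
      have := hp.two_le
      have h60 : N ∣ 120 := by rcases h3 with rfl | rfl | rfl <;> norm_num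
      have hp120 : p ∣ 2 ^ 3 * 3 * 5 := by norm_num; exact hp_dvd.trans h60
      rcases (Nat.Prime.dvd_mul hp).1 hp120 with h | h
      · rcases (Nat.Prime.dvd_mul hp).1 h with h | h
        · exact absurd ((Nat.prime_dvd_prime_iff_eq hp Nat.prime_two).1 (hp.dvd_of_dvd_pow h)) hp2
        · exact Or.inl ((Nat.prime_dvd_prime_iff_eq hp Nat.prime_three).1 h)
      · exact Or.inr ((Nat.prime_dvd_prime_iff_eq hp Nat.prime_five).1 h)
    have hk1 : (k : ℕ) = 1 := by
      by_contra hk1
      have h2 : p ^ 2 ∣ N := (pow_dvd_pow p (by have := k.pos; omega)).trans hdvd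
      rcases hp35 with rfl | rfl <;> rcases h3 with rfl | rfl | rfl <;> norm_num at h2
    have hN240 : 2 * N ∣ p * (p ^ 4 - 1) := by
      rcases hp35 with rfl | rfl <;> rcases h3 with rfl | rfl | rfl <;>
        first | norm_num | (norm_num at hp_dvd)
    have hfix : ∀ g ∈ H, Matrix.trace (g : Matrix (Fin 2) (Fin 2) F) ∈ F₀ := by
      intro g hg
      refine hfour _ ?_
      rw [hk, hk1, pow_one]
      have hpi : π (g ^ N) = 1 := by
        have h1 := pow_card_eq_one' (G := (H.map π : Subgroup PGL(2, F))) (x := ⟨π g, g, hg, rfl⟩)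
        rw [hN] at h1
        rw [map_pow]
        exact congrArg Subtype.val h1
      obtain ⟨h01, h10, h00⟩ := projHom_eq_one (RingHom.id F) hpi
      have hd := (g ^ N).2
      rw [Matrix.det_fin_two, h01, h10, ← h00, mul_zero, sub_zero] at hd
      have h2N : (g : Matrix (Fin 2) (Fin 2) F) ^ (2 * N) = 1 := by
        rw [mul_comm, pow_mul, ← Matrix.SpecialLinearGroup.coe_pow, sq]
        generalize ((g ^ N : SL(2, F)) : Matrix (Fin 2) (Fin 2) F) = B at h01 h10 h00 hd
        ext i j
        fin_cases i <;> fin_cases j <;>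
          simp [Matrix.mul_apply, h01, h10, ← h00, hd]
      set A : Matrix (Fin 2) (Fin 2) F := (g : Matrix (Fin 2) (Fin 2) F) with hA
      obtain ⟨c, hc⟩ := hN240
      have hn : IsNilpotent (A ^ (p ^ 4 - 1) - 1) := by
        refine ⟨p, ?_⟩
        rw [sub_pow_char_of_commute (p := p) (h := Commute.one_right _), one_pow, ← pow_mul, mul_comm, hc,
          pow_mul, h2N, one_pow, sub_self]
      have hcomm : Commute A (A ^ (p ^ 4 - 1) - 1) :=
        ((Commute.refl A).pow_right _).sub_right (Commute.one_right A)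
      have h0 := (Matrix.isNilpotent_trace_of_isNilpotent (hcomm.isNilpotent_mul_left hn)).eq_zero
      rw [mul_sub, ← pow_succ', Nat.sub_add_cancel (Nat.one_le_pow _ _ hp.pos), mul_one,
        Matrix.trace_sub, sub_eq_zero, trace_pow_prime hp35] at h0
      exact h0
    refine hr ?_
    have e := key F₀ fun g hg => pow_mem (hfix g hg) 2
    rw [e]
    trivial
  have hbig : Dickson.lsub F ≤ H.map π := by
    rcases Dickson.classifyF (K := K) (p := p) (H.map π) with
      ⟨a, b, m', hpn, -, -, -, -⟩ | ⟨a, b, m', N, -, -, hN, hpn, -, hc, -⟩ | ⟨x, hfix, -⟩ |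
      ⟨hp2, hc, -⟩ | ⟨hp2, hc, -⟩ | ⟨hp2, hc, -⟩ | ⟨F₁, h, -, he⟩ | ⟨F₁, h, -, -, he⟩
    · exact absurd hp_dvd hpn
    · rw [hc] at hdvd
      have hcop : Nat.Coprime (p ^ (k : ℕ)) N :=
        Nat.Coprime.pow_left _ (hp.coprime_iff_not_dvd.2 hpn)
      have h1 := Nat.le_of_dvd two_pos (hcop.dvd_of_dvd_mul_right hdvd)
      have h2 := Nat.le_self_pow k.ne_zero p
      have := hp.two_le
      omega
    · exfalso
      have h1 := hfix _ ⟨lo l, hlo1, rfl⟩
      have h2 := hfix _ ⟨up m, hup1, rfl⟩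
      change ProjGenLinGroup.mk (Matrix.SpecialLinearGroup.toGL
        (Matrix.SpecialLinearGroup.map (RingHom.id F) (lo l))) • x = x at h1
      change ProjGenLinGroup.mk (Matrix.SpecialLinearGroup.toGL
        (Matrix.SpecialLinearGroup.map (RingHom.id F) (up m))) • x = x at h2
      rw [Dickson.mk_smul] at h1 h2
      cases x using OnePoint.rec with
      | infty =>
        rw [OnePoint.smul_infty_eq_self_iff] at h1
        simp [lo] at h1
        exact hl h1
      | coe x =>
        rw [OnePoint.smul_some_eq_ite] at h2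
        simp [up] at h2
        exact hm h2
    · exact (hsmall _ hc hp2 (Or.inl rfl)).elim
    · exact (hsmall _ hc hp2 (Or.inr (Or.inl rfl))).elim
    · exact (hsmall _ hc hp2 (Or.inr (Or.inr rfl))).elim
    · obtain rfl := key F₁ (hsq F₁ h he.le)
      have h1 := Dickson.subPSL_le_subPGL (⊤ : Subfield F)
      rw [← he, Dickson.range_subPSL,
        show Dickson.subPGL (⊤ : Subfield F) = ProjGenLinGroup.map
          (Subfield.topEquiv : (⊤ : Subfield F) ≃+* F).toRingHom from rfl, Dickson.map_lsub_eq] at h1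
      have h2 := Subgroup.map_mono (f := (MulAut.conj h).toMonoidHom) h1
      rw [Dickson.map_conj_lsub, Subgroup.map_map] at h2
      convert h2 using 1
      ext y
      simp [MulAut.conj_apply, mul_assoc]
    · obtain rfl := key F₁ (hsq F₁ h (he.le.trans (Dickson.subPSL_le_subPGL _)))
      have h1 := he.ge
      rw [Dickson.range_subPSL,
        show Dickson.subPGL (⊤ : Subfield F) = ProjGenLinGroup.map
          (Subfield.topEquiv : (⊤ : Subfield F) ≃+* F).toRingHom from rfl, Dickson.map_lsub_eq] at h1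
      have h2 := Subgroup.map_mono (f := (MulAut.conj h).toMonoidHom) h1
      rw [Dickson.map_conj_lsub, Subgroup.map_map] at h2
      convert h2 using 1
      ext y
      simp [MulAut.conj_apply, mul_assoc]
  have hmem : ∀ S : SL(2, F), S ∈ H ∨ -S ∈ H := by
    intro S
    obtain ⟨T, hT, hTS⟩ := hbig (show ProjGenLinGroup.mk (Matrix.SpecialLinearGroup.toGL S) ∈
      Dickson.lsub F from ⟨S, rfl⟩)
    have : π (T * S⁻¹) = 1 := by
      rw [map_mul, map_inv, mul_inv_eq_one, hTS]; rfl
    obtain ⟨h01, h10, h00⟩ := projHom_eq_one (RingHom.id F) this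
    have hd := (T * S⁻¹).2
    rw [Matrix.det_fin_two, h01, h10, ← h00, mul_zero, sub_zero] at hd
    rcases mul_self_eq_mul_self_iff.1 (hd.trans (one_mul 1).symm) with h | h
    · left
      have e : T * S⁻¹ = 1 := by
        apply Subtype.ext; ext i j
        fin_cases i <;> fin_cases j <;> simp [h01, h10, ← h00, h]
      exact mul_inv_eq_one.1 e ▸ hT
    · right
      have e : T * S⁻¹ = -1 := by
        apply Subtype.ext; ext i j
        fin_cases i <;> fin_cases j <;> simp [h01, h10, ← h00, h]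
      have : T = -S := by rw [← inv_mul_cancel_right T S, e, neg_one_mul]
      exact this ▸ hT
  have hw : (-1 : SL(2, F)) ∈ H := by
    let w : SL(2, F) := mk22 0 1 (-1) 0 (by ring)
    have e : w * w = -1 := by
      apply Subtype.ext
      rw [Matrix.SpecialLinearGroup.coe_mul]
      simp [w, Matrix.one_fin_two]
    rcases hmem w with h | h
    · exact e ▸ mul_mem h h
    · have := mul_mem h h
      rwa [neg_mul_neg, e] at this
  rw [eq_top_iff]
  intro S _
  rcases hmem S with h | h
  · exact h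
  · simpa using mul_mem hw h

end Cfsg.Agent.SUGeo
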