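import Cfsg.Agent.SUGeo.Base
import Cfsg.Agent.MinU.ThreePlane

/-!
A subgroup of the three-dimensional special unitary group with a full transvection group fixes the
centre, fixes a non-isotropic point, or is everything.
-/

set_option autoImplicit false
set_option linter.unusedSectionVars false

namespace Cfsg.Agent.SUGeo

open Cfsg.Agent.Classical.U Cfsg.Agent.MinU Cfsg.Agent.MinU.Three
open scoped MatrixGroups

universe u

variable {F : Type u} [Field F] {q : ℕ}
variable (hF : SqField F q)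
include hF

/-- `X` contains all transvections centred at `v`. -/
def Full (X : Subgroup (SG 1 F q)) (v : Fin (1 + 2) → F) : Prop :=
  ∀ (a : F) (h : TrvCond q v a), tS hF h ∈ X

variable {X : Subgroup (SG 1 F q)}

theorem Full.smul {v : Fin (1 + 2) → F} (h : Full hF X v) {c : F} (hc : c ≠ 0) :
    Full hF X (c • v) := by
  intro a ha
  have hv0 : herm q v v = 0 := by
    have := ha.1
    rw [herm_smul_left, herm_smul_right, mul_eq_zero, mul_eq_zero] at this
    rcases this with h1 | h1 | h1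
    · exact absurd h1 hc
    · exact absurd h1 (pow_ne_zero _ hc)
    · exact h1
  have h' : TrvCond q v (c * c ^ q * a) :=
    ⟨hv0, by rw [mul_pow, mul_pow, hF.pow_pow, ha.2]; ring⟩
  rw [tS_smul hF ha h']
  exact h _ h'

theorem Full.map {v : Fin (1 + 2) → F} (h : Full hF X v) {g : SG 1 F q} (hg : g ∈ X) :
    Full hF X (g.1.1 v) := by
  intro a ha
  have hv : TrvCond q v a := ⟨by rw [← UG_app g.1]; exact ha.1, ha.2⟩
  obtain ⟨h', e⟩ := tS_conj hF g hv
  have : tS hF ha = g * tS hF hv * g⁻¹ := e.symm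
  rw [this]
  exact mul_mem (mul_mem hg (h a hv)) (inv_mem hg)

theorem Full.conjX {v : Fin (1 + 2) → F} (h : Full hF X v) (t : SG 1 F q) :
    Full hF (X.map (MulAut.conj t).toMonoidHom) (t.1.1 v) := by
  intro a ha
  have hv : TrvCond q v a := ⟨by rw [← UG_app t.1]; exact ha.1, ha.2⟩
  obtain ⟨h', e⟩ := tS_conj hF t hv
  exact ⟨_, h a hv, e⟩

theorem iso_cases {v : Fin (1 + 2) → F} (hv : v ≠ 0) (hv0 : herm q v v = 0) :
    (∃ c : F, c ≠ 0 ∧ v = c • eV hF 1) ∨
      ∃ (p : Heis 1 F q) (c : F), c ≠ 0 ∧ v = c • (tE hF p).1.1 (fV hF 1) := by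
  let L : Ln F q := ⟨Submodule.span F {v}, v, ⟨hv, hv0⟩, rfl⟩
  have key : ∀ w, Submodule.span F {v} = Submodule.span F {w} → ∃ c : F, c ≠ 0 ∧ v = c • w := by
    intro w h
    obtain ⟨c, hc⟩ := Submodule.mem_span_singleton.1 (h ▸ Submodule.mem_span_singleton_self v)
    exact ⟨c, fun h0 => hv (by rw [← hc, h0, zero_smul]), hc.symm⟩
  rcases Ln_cases hF L with h | ⟨p, h⟩
  · exact Or.inl (key _ (congrArg Subtype.val h))
  · refine Or.inr ⟨p, key _ ?_⟩
    have h' : Submodule.span F {v} = mapL (tE hF p) (Submodule.span F {fV hF 1}) :=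
      congrArg Subtype.val h
    rw [h', mapL_span]

theorem top_of_all (hq : 3 ≤ q)
    (h : ∀ v : Fin (1 + 2) → F, v ≠ 0 → herm q v v = 0 → Full hF X v) : X = ⊤ := by
  refine eq_top_iff.2 fun g _ => ?_
  have hgen : TG (1 + 2) F q ≤ X.map (SUG (1 + 2) F q).subtype := by
    rw [TG, Subgroup.closure_le]
    rintro x ⟨e, a, hc, hx⟩
    rw [mem_TG_generator hF hc hx]
    by_cases he : e = 0
    · have : trv hF hc = 1 := Subtype.ext (LinearEquiv.ext fun w => by simp [trv_apply, he])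
      rw [this]
      exact one_mem _
    · exact ⟨tS hF hc, h e he hc.1 a hc, rfl⟩
  have hm : g.1 ∈ TG (1 + 2) F q := by
    rw [← SUG_eq_TG hF (by norm_num) (by omega)]; exact g.2
  obtain ⟨y, hy, e⟩ := hgen hm
  exact (Subtype.ext e : y = g) ▸ hy

theorem pl_mem (he : Full hF X (eV hF 1)) (hf : Full hF X (fV hF 1)) (A : SL(2, fixF hF)) :
    pl hF A ∈ X :=
  sl_mem hF (H := X.comap (pl hF))
    (fun t => by rw [Subgroup.mem_comap, pl_sUp]; exact he _ _)
    (fun t => by rw [Subgroup.mem_comap, pl_sLo]; exact hf _ _) A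

theorem lv_mem (he : Full hF X (eV hF 1)) (hf : Full hF X (fV hF 1)) {l : Fˣ}
    (hl : (l : F) ∈ fixF hF) : lv hF l ∈ X := by
  let a : fixF hF := ⟨l, hl⟩
  have ha : a ≠ 0 := fun h => l.ne_zero (congrArg Subtype.val h)
  let A : SL(2, fixF hF) := ⟨!![a, 0; 0, a⁻¹], by simp [Matrix.det_fin_two, ha]⟩
  have e : lv hF l = pl hF A := SG_ext hF fun ⟨⟨x, y⟩, z⟩ => by
    rw [lv_apply, pl_apply]
    congr 1
    refine Prod.ext (Prod.ext ?_ ?_) ?_
    · simp [A, a]
    · simp [A, a, (mem_fixF hF).1 hl]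
    · simp [(mem_fixF hF).1 hl]
  rw [e]
  exact pl_mem hF he hf A

theorem tE_fV (p : Heis 1 F q) :
    (tE hF p).1.1 (fV hF 1) = ph hF 1 ((p.1.2, 1), p.1.1) := by
  rw [← ph_fV hF, tE_apply]; simp

/-- The coordinate of the radical part of `X`. -/
def wPart (X : Subgroup (SG 1 F q)) : Set F := {w | ∃ p : Heis 1 F q, p.1.1 0 = w ∧ tE hF p ∈ X}

theorem wPart_add {w w' : F} (h : w ∈ wPart hF X) (h' : w' ∈ wPart hF X) : w + w' ∈ wPart hF X := by
  obtain ⟨p, rfl, hp⟩ := h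
  obtain ⟨r, rfl, hr⟩ := h'
  exact ⟨hMul hF p r, rfl, by rw [← tE_mul]; exact mul_mem hp hr⟩

/-- A third centre gives the subfield multiples of its coordinate. -/
theorem fix_mul_mem_wPart (hq : 3 ≤ q) (he : Full hF X (eV hF 1)) (hf : Full hF X (fV hF 1))
    {p : Heis 1 F q} (hp : Full hF X ((tE hF p).1.1 (fV hF 1))) {r : F} (hr : r ∈ fixF hF) :
    r * p.1.1 0 ∈ wPart hF X := by
  have base : ∀ s ∈ fixF hF, s ≠ 1 → s * p.1.1 0 ∈ wPart hF X := by
    intro s hs hs1
    have hl : 1 - s ∈ fixF hF := sub_mem (one_mem _) hs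
    have hl0 : 1 - s ≠ 0 := sub_ne_zero.2 (Ne.symm hs1)
    let l : Fˣ := Units.mk0 _ hl0
    have hlX := lv_mem hF he hf (l := l) hl
    have h1 : tE hF p * lv hF l * (tE hF p)⁻¹ ∈ X := by
      let X' := X.map (MulAut.conj (tE hF p)⁻¹).toMonoidHom
      have e1 : ((tE hF p)⁻¹).1.1 (eV hF 1) = eV hF 1 := by
        rw [tE_inv, ← ph_eV hF, tE_apply]; simp
      have e2 : ((tE hF p)⁻¹).1.1 ((tE hF p).1.1 (fV hF 1)) = fV hF 1 :=
        (tE hF p).1.1.symm_apply_apply _
      have h2 := he.conjX hF (tE hF p)⁻¹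
      have h3 := hp.conjX hF (tE hF p)⁻¹
      rw [e1] at h2
      rw [e2] at h3
      obtain ⟨x, hx, hxe⟩ := lv_mem hF h2 h3 (l := l) hl
      have : x = tE hF p * lv hF l * (tE hF p)⁻¹ := by
        rw [← hxe]; simp [mul_assoc]
      rw [← this]; exact hx
    have h2 := mul_mem h1 (inv_mem hlX)
    rw [show tE hF p * lv hF l * (tE hF p)⁻¹ * (lv hF l)⁻¹ =
        tE hF p * (lv hF l * (tE hF p)⁻¹ * (lv hF l)⁻¹) by group, tE_inv, lv_conj, tE_mul] at h2
    refine ⟨_, ?_, h2⟩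
    change p.1.1 0 + ((mu q l : F) • (-p.1.1)) 0 = s * p.1.1 0
    have hlf : (1 - s) ^ q = 1 - s := (mem_fixF hF).1 hl
    rw [mu_coe, show (l : F) = 1 - s from rfl, hlf, mul_inv_cancel₀ hl0, mul_one, Pi.smul_apply,
      Pi.neg_apply, smul_eq_mul]
    ring
  by_cases h1 : r = 1
  · subst h1
    classical
    obtain ⟨hfin, -⟩ := id hF
    have := Fintype.ofFinite (fixF hF)
    obtain ⟨a, -, ha⟩ := Finset.exists_mem_notMem_of_card_lt_card
      (show ({0, 1} : Finset (fixF hF)).card < (Finset.univ : Finset (fixF hF)).card by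
        rw [Finset.card_univ, ← Nat.card_eq_fintype_card, card_fixF]
        exact lt_of_le_of_lt Finset.card_le_two hq)
    simp only [Finset.mem_insert, Finset.mem_singleton, not_or] at ha
    have := wPart_add hF (base a a.2 fun h => ha.2 (Subtype.ext h))
      (base (1 - a) (sub_mem (one_mem _) a.2) fun h => ha.1 (Subtype.ext (by simpa using h)))
    rwa [← add_mul, add_sub_cancel] at this
  · exact base r hr h1

/-- Two full centres and one off their plane give everything. -/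
theorem top_of_three (hq : 3 ≤ q) (he : Full hF X (eV hF 1)) (hf : Full hF X (fV hF 1))
    {p : Heis 1 F q} (hp : Full hF X ((tE hF p).1.1 (fV hF 1))) (hw : p.1.1 0 ≠ 0) : X = ⊤ := by
  classical
  obtain ⟨hfin, hcard⟩ := id hF
  have hd := skw_ne hF
  have hne : p.1.2 + p.1.2 ^ q ≠ 0 := fun h => hw (by
    have := p.2
    rw [h, zero_add] at this
    exact congrFun (eq_zero_of_norm hF this) 0)
  set c : F := (skw hF)⁻¹ * p.1.2 + 1 with hc
  have hcf : c ∉ fixF hF := by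
    intro h
    rw [mem_fixF, hc, hF.add_pow, one_pow, mul_pow, inv_pow, skw_pow, inv_neg] at h
    refine hne ((mul_eq_zero.1 (?_ : (skw hF)⁻¹ * (p.1.2 + p.1.2 ^ q) = 0)).resolve_left
      (inv_ne_zero hd))
    linear_combination -h
  have hc0 : c ≠ 0 := fun h => hcf (h ▸ zero_mem _)
  have hg := pl_mem hF he hf (sLo hF 1)
  have hy : (c⁻¹) • (pl hF (sLo hF 1)).1.1 ((tE hF p).1.1 (fV hF 1)) =
      ph hF 1 ((c⁻¹ * p.1.2, 1), c⁻¹ • p.1.1) := by
    rw [tE_fV, pl_apply, ← map_smul]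
    congr 1
    refine Prod.ext (Prod.ext ?_ ?_) rfl
    · simp [sLo]
    · simp only [Prod.smul_snd, Prod.smul_fst, smul_eq_mul, sLo]
      simp [← hc, hc0]
  have hcond : c⁻¹ * p.1.2 + (c⁻¹ * p.1.2) ^ q + herm q (c⁻¹ • p.1.1) (c⁻¹ • p.1.1) = 0 := by
    have h0 : herm q (ph hF 1 ((c⁻¹ * p.1.2, 1), c⁻¹ • p.1.1))
        (ph hF 1 ((c⁻¹ * p.1.2, 1), c⁻¹ • p.1.1)) = 0 := by
      rw [← hy, herm_smul_left, herm_smul_right, UG_app, UG_app, h_ff hF]; ring
    rw [herm_ph] at h0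
    simpa using h0
  let p' : Heis 1 F q := ⟨(c⁻¹ • p.1.1, c⁻¹ * p.1.2), hcond⟩
  have hp' : Full hF X ((tE hF p').1.1 (fV hF 1)) := by
    rw [tE_fV]
    have := (hp.map hF hg).smul hF (inv_ne_zero hc0)
    rwa [hy] at this
  have hall : ∀ z : F, z ∈ wPart hF X := by
    let f : fixF hF × fixF hF → F := fun r => (r.1 : F) * p.1.1 0 + (r.2 : F) * p'.1.1 0
    have hinj : Function.Injective f := by
      rintro ⟨a, b⟩ ⟨a', b'⟩ h
      simp only [f, p', Pi.smul_apply, smul_eq_mul] at h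
      have h2 : (((a : F) - a') * c + ((b : F) - b')) * p.1.1 0 = 0 := by
        field_simp at h
        linear_combination (p.1.1 0) * h
      have h3 := (mul_eq_zero.1 h2).resolve_right hw
      have haa : (a : F) = a' := by
        by_contra hne'
        refine hcf ?_
        have hs : (a : F) - a' ≠ 0 := sub_ne_zero.2 hne'
        rw [show c = ((b' : F) - b) / ((a : F) - a') by rw [eq_div_iff hs]; linear_combination h3]
        exact div_mem (sub_mem b'.2 b.2) (sub_mem a.2 a'.2)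
      rw [haa, sub_self, zero_mul, zero_add, sub_eq_zero] at h3
      exact Prod.ext (Subtype.ext haa) (Subtype.ext h3)
    intro z
    obtain ⟨⟨a, b⟩, rfl⟩ := ((Nat.bijective_iff_injective_and_card f).2
      ⟨hinj, by rw [Nat.card_prod, card_fixF, hcard, sq]⟩).2 z
    exact wPart_add hF (fix_mul_mem_wPart hF hq he hf hp a.2)
      (fix_mul_mem_wPart hF hq he hf hp' b.2)
  have hrad : ∀ r : Heis 1 F q, tE hF r ∈ X := by
    intro r
    obtain ⟨s, hs, hsX⟩ := hall (r.1.1 0)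
    obtain ⟨a, -, ha⟩ := exists_zc hF (p := hMul hF r (hInv hF s))
      (ext_one (by simp [hMul, hInv, hs]))
    have hzX : zc hF a ∈ X := by
      rw [zc, ← tS_eV hF a.2]; exact he _ _
    have := mul_mem (ha ▸ hzX : tE hF (hMul hF r (hInv hF s)) ∈ X) hsX
    rwa [← tE_mul, ← tE_inv, inv_mul_cancel_right] at this
  refine top_of_all hF hq fun v hv hv0 => ?_
  rcases iso_cases hF hv hv0 with ⟨d, hd, rfl⟩ | ⟨r, d, hd, rfl⟩
  · exact he.smul hF hd
  · exact ((hf.map hF (hrad r))).smul hF hd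

theorem ow_perp (x y : F) : herm q (ow hF) (ph hF 1 ((x, y), 0)) = 0 := by
  rw [ow, herm_ph, hF.herm_zero_right]; simp [hF.q_ne_zero]

/-- Two full centres: the pole is fixed, or everything. -/
theorem pole_or_top (hq : 3 ≤ q) (he : Full hF X (eV hF 1)) (hf : Full hF X (fV hF 1)) :
    (∀ x ∈ X, x.1.1 (ow hF) ∈ Submodule.span F {ow hF}) ∨ X = ⊤ := by
  by_cases h : ∀ x ∈ X, ∀ u, (u = eV hF 1 ∨ u = fV hF 1) → ((ph hF 1).symm (x.1.1 u)).2 0 = 0
  · left
    intro g hg
    have key : ∀ u, (u = eV hF 1 ∨ u = fV hF 1) → herm q (g.1.1 (ow hF)) u = 0 := by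
      intro u hu
      have h0 := h g⁻¹ (inv_mem hg) u hu
      obtain ⟨⟨⟨a, b⟩, z⟩, hz⟩ := (ph hF 1).surjective (g⁻¹.1.1 u)
      rw [← hz, LinearEquiv.symm_apply_apply] at h0
      have hu' : u = g.1.1 (g⁻¹.1.1 u) := (g.1.1.apply_symm_apply u).symm
      rw [hu', UG_app, ← hz, show z = 0 from ext_one h0]
      exact ow_perp hF a b
    obtain ⟨⟨⟨a, b⟩, z⟩, hz⟩ := (ph hF 1).surjective (g.1.1 (ow hF))
    have h1 := key _ (Or.inl rfl)
    have h2 := key _ (Or.inr rfl)
    rw [← hz, ← ph_eV hF, herm_ph] at h1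
    rw [← hz, ← ph_fV hF, herm_ph] at h2
    simp [hF.q_ne_zero, hF.herm_zero_right] at h1 h2
    subst h1 h2
    refine Submodule.mem_span_singleton.2 ⟨z 0, ?_⟩
    rw [← hz, ow, ← map_smul]
    congr 1
    refine Prod.ext (by simp) (ext_one (by simp))
  · right
    push Not at h
    obtain ⟨x, hx, u, hu, hne⟩ := h
    have hfu : Full hF X (x.1.1 u) ∧ herm q u u = 0 ∧ u ≠ 0 := by
      rcases hu with rfl | rfl
      · exact ⟨he.map hF hx, h_ee hF, (pair_spec hF).1.ne_zero⟩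
      · exact ⟨hf.map hF hx, h_ff hF, ((pair_spec hF).1.symm hF).ne_zero⟩
    have hv0 : x.1.1 u ≠ 0 := fun h0 => hfu.2.2 ((LinearEquiv.map_eq_zero_iff _).1 h0)
    rcases iso_cases hF hv0 (by rw [UG_app]; exact hfu.2.1) with ⟨d, hd, e⟩ | ⟨p, d, hd, e⟩
    · refine absurd ?_ hne
      rw [e, map_smul, ← ph_eV hF, LinearEquiv.symm_apply_apply]
      simp
    · refine top_of_three hF hq he hf (p := p) ?_ fun h0 => hne ?_
      · have := hfu.1.smul hF (inv_ne_zero hd)
        rwa [e, smul_smul, inv_mul_cancel₀ hd, one_smul] at this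
      · rw [e, map_smul, tE_fV, LinearEquiv.symm_apply_apply]
        simp [h0]

/-- A full centre: a fixed point, or everything. -/
theorem root (hq : 3 ≤ q) {v : Fin (1 + 2) → F} (hv : v ≠ 0) (hv0 : herm q v v = 0)
    (hfull : Full hF X v) : (∀ x ∈ X, x.1.1 v ∈ Submodule.span F {v}) ∨
      (∃ c : Fin (1 + 2) → F, herm q c c ≠ 0 ∧ ∀ x ∈ X, x.1.1 c ∈ Submodule.span F {c}) ∨
      X = ⊤ := by
  by_cases hfix : ∀ x ∈ X, x.1.1 v ∈ Submodule.span F {v}
  · exact Or.inl hfix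
  right
  push Not at hfix
  obtain ⟨g, hg, hgv⟩ := hfix
  obtain ⟨t, c, hc, ht⟩ := exists_SUG_line hF hv hv0 (pair_spec hF (m := 1)).1.ne_zero (h_ee hF)
  set y := t.1.1 (g.1.1 v) with hy
  have hy0 : y ≠ 0 := fun h => hgv (by
    rw [(LinearEquiv.map_eq_zero_iff _).1 ((LinearEquiv.map_eq_zero_iff _).1 h), map_zero]
    exact zero_mem _)
  rcases iso_cases hF hy0 (by rw [hy, UG_app, UG_app]; exact hv0) with ⟨d, hd, e⟩ | ⟨p, d, hd, e⟩
  · refine absurd (Submodule.mem_span_singleton.2 ⟨d * c⁻¹, t.1.1.injective ?_⟩) hgv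
    rw [map_smul, ht, smul_smul, mul_assoc, inv_mul_cancel₀ hc, mul_one, ← e]
  set s : SG 1 F q := (tE hF p)⁻¹ * t with hs
  set X' := X.map (MulAut.conj s).toMonoidHom with hX'
  have se : s.1.1 v = c • eV hF 1 := by
    rw [hs, coe_mul_apply hF, ht, map_smul, tE_inv hF, ← ph_eV hF, tE_apply]; simp
  have sf : s.1.1 (g.1.1 v) = d • fV hF 1 := by
    rw [hs, coe_mul_apply hF, ← hy, e, map_smul]
    exact congrArg (d • ·) ((tE hF p).1.1.symm_apply_apply _)
  have hE : Full hF X' (eV hF 1) := by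
    have := (hfull.conjX hF s).smul hF (inv_ne_zero hc)
    rwa [se, smul_smul, inv_mul_cancel₀ hc, one_smul] at this
  have hFf : Full hF X' (fV hF 1) := by
    have := ((hfull.map hF hg).conjX hF s).smul hF (inv_ne_zero hd)
    rwa [sf, smul_smul, inv_mul_cancel₀ hd, one_smul] at this
  rcases pole_or_top hF hq hE hFf with h | h
  · left
    refine ⟨s.1.1.symm (ow hF), ?_, fun x hx => ?_⟩
    · rw [← UG_app s.1, LinearEquiv.apply_symm_apply, ow, herm_ph, herm_one hF]; simp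
    · obtain ⟨k, hk⟩ := Submodule.mem_span_singleton.1 (h _ ⟨x, hx, rfl⟩)
      refine Submodule.mem_span_singleton.2 ⟨k, s.1.1.injective ?_⟩
      rw [map_smul, LinearEquiv.apply_symm_apply, hk]
      rfl
  · right
    exact Subgroup.map_injective (f := (MulAut.conj s).toMonoidHom) (MulAut.conj s).injective
      (h.trans (Subgroup.map_top_of_surjective _ (MulAut.conj s).surjective).symm)

end Cfsg.Agent.SUGeo
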