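/-
The arithmetic of an overgroup of the cubic torus normaliser in dimension three.
-/
import Mathlib

set_option autoImplicit false

namespace Cfsg.Agent.SUGeo

set_option synthInstance.maxSize 2000 in
set_option maxSynthPendingDepth 5 in
theorem singer_arith_small :
    ∀ q < 50, ∀ j < 53, ∀ d < 4, (3 ≤ q ∧ 1 ≤ j ∧ d ≠ 0 ∧ 3 % d = 0 ∧
      (decide (d = 3) = decide ((q + 1) % 3 = 0)) ∧
      3 * (d + j * (q * (q - 1) + 1)) * (q * (q - 1) + 1) ≤ d * (q ^ 3 * (q ^ 2 - 1)) ∧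
      q ^ 3 * (q + 1) * (q ^ 2 - 1) % (d + j * (q * (q - 1) + 1)) = 0) →
      ((q = 8 ∧ j = 5) ∨ q = 3 ∨ q = 5 ∨ q = 6 ∨ q = 14 ∨ q = 35) := by
  decide +kernel

/-- The index of an overgroup of the torus normaliser determines `q`. -/
theorem singer_arith {q p k d j : ℕ} (hp : p.Prime) (hpk : q = p ^ k) (hq : 3 ≤ q) (h3 : q ≠ 3) (h5 : q ≠ 5)
    (hd : d = Nat.gcd 3 (q + 1)) (hj : 1 ≤ j)
    (hle : 3 * (d + j * (q ^ 2 - q + 1)) * (q ^ 2 - q + 1) ≤ d * (q ^ 3 * (q ^ 2 - 1)))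
    (hdvd : d + j * (q ^ 2 - q + 1) ∣ q ^ 3 * (q + 1) * (q ^ 2 - 1)) :
    q = 8 ∧ j = 5 := by
  have hc : q ^ 2 - q + 1 = q * (q - 1) + 1 := by rw [Nat.mul_sub_one, pow_two]
  rw [hc] at hle hdvd
  have hd13 : d = 1 ∨ d = 3 := (Nat.dvd_prime Nat.prime_three).1 (hd ▸ Nat.gcd_dvd_left 3 (q + 1))
  obtain ⟨r, rfl⟩ : ∃ r, q = r + 1 := ⟨q - 1, by omega⟩
  set m := d + j * ((r + 1) * (r + 1 - 1) + 1) with hm
  simp only [Nat.add_sub_cancel] at hle hdvd hm
  have hsq : (r + 1) ^ 2 - 1 = r * (r + 2) := by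
    rw [show (r + 1) ^ 2 = r * (r + 2) + 1 by ring, Nat.add_sub_cancel]
  have hjle : j ≤ r + 3 := by
    by_contra hlt
    rw [hsq] at hle
    have h1 : 3 * ((r + 4) * ((r + 1) * r + 1)) * ((r + 1) * r + 1) ≤ 3 * ((r + 1) ^ 3 * (r * (r + 2))) := by
      refine le_trans (le_trans ?_ hle) (Nat.mul_le_mul_right _ (by omega))
      refine Nat.mul_le_mul_right _ (Nat.mul_le_mul_left _ ?_)
      exact le_trans (Nat.mul_le_mul_right _ (by omega)) (Nat.le_add_left _ _)
    nlinarith [Nat.mul_le_mul_left (r * r) (show 2 ≤ r by omega), Nat.mul_le_mul_left r (show 2 ≤ r by omega)]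
  rcases Nat.lt_or_ge (r + 1) 50 with hsmall | hbig
  · have hiff : d = 3 ↔ (r + 1 + 1) % 3 = 0 := by
      rw [← Nat.dvd_iff_mod_eq_zero, hd, Nat.gcd_eq_left_iff_dvd]
    have hne : ∀ a b : ℕ, a.Prime → b.Prime → a ≠ b → a ∣ r + 1 → b ∣ r + 1 → False := by
      intro a b ha hb hab ha' hb'
      rw [hpk] at ha' hb'
      exact hab (((Nat.prime_dvd_prime_iff_eq ha hp).1 (ha.dvd_of_dvd_pow ha')).trans
        ((Nat.prime_dvd_prime_iff_eq hb hp).1 (hb.dvd_of_dvd_pow hb')).symm)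
    rcases singer_arith_small (r + 1) hsmall j (by omega) d (by omega) ⟨hq, hj, (by omega),
      (by rcases hd13 with h | h <;> rw [h]), decide_eq_decide.2 hiff,
      (by rw [Nat.add_sub_cancel]; exact hle), (by rw [Nat.add_sub_cancel]; exact Nat.mod_eq_zero_of_dvd hdvd)⟩
      with h | h | h | h | h | h
    · exact h
    · exact absurd h h3
    · exact absurd h h5
    · exact (hne 2 3 Nat.prime_two Nat.prime_three (by norm_num) (by omega) (by omega)).elim
    · exact (hne 2 7 Nat.prime_two (by norm_num) (by norm_num) (by omega) (by omega)).elim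
    · exact (hne 5 7 (by norm_num) (by norm_num) (by norm_num) (by omega) (by omega)).elim
  exfalso
  have hmul : m = (d + j) + (j * r) * (r + 1) := by rw [hm]; ring
  have hdvd' : m ∣ (r + 1) ^ 3 * (r * (r + 2) ^ 2) := by
    rw [hsq] at hdvd
    rw [show (r + 1) ^ 3 * (r * (r + 2) ^ 2) = (r + 1) ^ 3 * (r + 1 + 1) * (r * (r + 2)) by ring]
    exact hdvd
  by_cases hqdj : r + 1 ∣ d + j
  · obtain ⟨t, ht⟩ := hqdj
    have ht1 : t = 1 := by
      rcases t with _ | _ | t
      · omega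
      · rfl
      · have : (r + 1) * 2 ≤ (r + 1) * (t + 1 + 1) := Nat.mul_le_mul_left _ (by omega)
        omega
    rw [ht1, mul_one] at ht
    rcases hd13 with rfl | rfl
    · obtain rfl : j = r := by omega
      rw [hsq] at hle
      nlinarith [Nat.mul_le_mul_left (j * j * j) (show 2 ≤ j by omega)]
    · obtain ⟨s, rfl⟩ : ∃ s, r = s + 2 := ⟨r - 2, by omega⟩
      obtain rfl : j = s := by omega
      have hm' : m = (j + 3) * ((j + 1) * (j + 1)) := by rw [hm]; ring
      have h1 : (j + 1) ∣ (j + 3) ^ 3 * ((j + 2) * (j + 4) ^ 2) :=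
        (Dvd.intro _ rfl).trans ((hm' ▸ Dvd.intro_left (j + 3) rfl : (j + 1) * (j + 1) ∣ m).trans
          (by simpa [add_assoc] using hdvd'))
      have h2 : ((j : ℤ) + 1) ∣ ((j : ℤ) + 3) ^ 3 * (((j : ℤ) + 2) * ((j : ℤ) + 4) ^ 2) := by
        have := Int.natCast_dvd_natCast.2 h1
        push_cast at this
        exact this
      have h3' : ((j : ℤ) + 1) ∣ 72 := by
        obtain ⟨t, ht'⟩ := h2
        refine ⟨t - (((j : ℤ) + 1) ^ 5 + 13 * ((j : ℤ) + 1) ^ 4 + 69 * ((j : ℤ) + 1) ^ 3 +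
          191 * ((j : ℤ) + 1) ^ 2 + 290 * ((j : ℤ) + 1) + 228), ?_⟩
        linear_combination ht'
      have h72 : j + 1 ∣ 72 := Int.natCast_dvd_natCast.1 (by exact_mod_cast h3')
      have := Nat.le_of_dvd (by norm_num) h72
      have hj71 : j = 71 := by
        have : j ∈ Finset.Icc 47 71 := Finset.mem_Icc.2 ⟨by omega, by omega⟩
        revert h72
        fin_cases this <;> norm_num
      subst hj71
      have h2' : 2 ∣ p ^ k := hpk ▸ (by norm_num)
      have h37 : 37 ∣ p ^ k := hpk ▸ (by norm_num)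
      have e2 := (Nat.prime_dvd_prime_iff_eq Nat.prime_two hp).1 (Nat.prime_two.dvd_of_dvd_pow h2')
      have e37 := (Nat.prime_dvd_prime_iff_eq (by norm_num) hp).1
        ((by norm_num : Nat.Prime 37).dvd_of_dvd_pow h37)
      omega
  · have hg1 : Nat.gcd m ((r + 1) ^ 3) ∣ d + j := by
      rw [hpk, ← pow_mul]
      obtain ⟨i, -, hi⟩ := (Nat.dvd_prime_pow hp).1 (Nat.gcd_dvd_right m (p ^ (k * 3)))
      rw [hi]
      have him : p ^ i ∣ m := hi ▸ Nat.gcd_dvd_left _ _
      by_cases hik : k ≤ i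
      · exfalso
        apply hqdj
        have : r + 1 ∣ m := (hpk ▸ pow_dvd_pow p hik).trans him
        rw [hmul] at this
        exact (Nat.dvd_add_left (Dvd.intro_left _ rfl)).1 this
      · have hiq : p ^ i ∣ r + 1 := hpk ▸ pow_dvd_pow p (by omega)
        rw [hmul] at him
        exact (Nat.dvd_add_left (hiq.trans (Dvd.intro_left _ rfl))).1 him
    have hg2 : Nat.gcd m r ∣ d + j := by
      have h1 := Nat.gcd_dvd_left m r
      conv at h1 => rhs; rw [hmul]
      exact (Nat.dvd_add_left (((Nat.gcd_dvd_right m r).trans (Dvd.intro_left j rfl)).mul_right (r + 1))).1 h1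
    have hgg : Nat.gcd m ((r + 1) ^ 3) * Nat.gcd m r ∣ d + j := by
      refine Nat.Coprime.mul_dvd_of_dvd_of_dvd ?_ hg1 hg2
      refine Nat.Coprime.coprime_dvd_left (Nat.gcd_dvd_right _ _)
        (Nat.Coprime.coprime_dvd_right (Nat.gcd_dvd_right _ _) (Nat.Coprime.pow_left 3 ?_))
      exact (Nat.coprime_self_add_left.2 (Nat.coprime_one_left r) : Nat.Coprime (r + 1) r)
    obtain ⟨a, b, ha, hb, hab⟩ := (dvd_mul.1 hdvd')
    obtain ⟨a', b', ha', hb', hab'⟩ := (dvd_mul.1 hb)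
    have hall : m ∣ (d + j) * (r + 2) ^ 2 := by
      rw [hab, hab', ← mul_assoc]
      refine mul_dvd_mul (dvd_trans ?_ hgg) hb'
      refine mul_dvd_mul (Nat.dvd_gcd ⟨b, hab⟩ ha) (Nat.dvd_gcd ?_ ha')
      exact (Dvd.intro b' hab'.symm).trans ⟨a, by rw [hab]; ring⟩
    obtain ⟨e, he⟩ := hall
    have he0 : e ≠ 0 := by
      rintro rfl
      have : 0 < (d + j) * (r + 2) ^ 2 := Nat.mul_pos (by omega) (pow_pos (by omega) 2)
      omega
    have he1 : e ≠ 1 := by
      rintro rfl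
      rw [hm] at he
      nlinarith [Nat.mul_le_mul_left r (show 49 ≤ r by omega)]
    have h2m : 2 * m ≤ (d + j) * (r + 2) ^ 2 := by
      rw [he, mul_comm]; exact Nat.mul_le_mul_left _ (by omega)
    rw [hm] at h2m
    have hd3 : d ≤ 3 := by omega
    have hj3 : j ≤ 4 := by
      by_contra hj4
      nlinarith [Nat.mul_le_mul_right ((r + 2) ^ 2) (show d + j ≤ 3 + j by omega),
        Nat.mul_le_mul_left (j * r) (show 49 ≤ r by omega), Nat.mul_le_mul_left (r * r) (show 5 ≤ j by omega),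
        Nat.mul_le_mul_left r (show 49 ≤ r by omega), Nat.mul_le_mul_left j (show 49 ≤ r by omega)]
    have hek : e ≤ 8 := by
      by_contra he8
      have h9 : 9 * m ≤ (d + j) * (r + 2) ^ 2 := by
        rw [he, mul_comm]; exact Nat.mul_le_mul_left _ (by omega)
      rw [hm] at h9
      nlinarith [Nat.mul_le_mul_right ((r + 2) ^ 2) (show d + j ≤ 3 + j by omega),
        Nat.mul_le_mul_left (j * r) (show 49 ≤ r by omega), Nat.mul_le_mul_left (r * r) hj,
        Nat.mul_le_mul_left r (show 49 ≤ r by omega), Nat.mul_le_mul_left j (show 49 ≤ r by omega)]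
    obtain ⟨e, rfl⟩ : ∃ i, e = i + 1 := ⟨e - 1, by omega⟩
    have hq' : r + 1 ∣ e * (d + j) := by
      have h1 : (e + 1) * (d + j) + (r + 1) * ((e + 1) * (j * r)) = (d + j) + (r + 1) * ((d + j) * (r + 3)) := by
        calc (e + 1) * (d + j) + (r + 1) * ((e + 1) * (j * r)) = m * (e + 1) := by rw [hmul]; ring
          _ = (d + j) * (r + 2) ^ 2 := he.symm
          _ = _ := by ring
      have h2 : r + 1 ∣ (d + j) + e * (d + j) + (r + 1) * ((e + 1) * (j * r)) - (d + j) := by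
        rw [show (d + j) + e * (d + j) + (r + 1) * ((e + 1) * (j * r)) =
          (e + 1) * (d + j) + (r + 1) * ((e + 1) * (j * r)) by ring, h1, Nat.add_sub_cancel_left]
        exact Dvd.intro _ rfl
      rw [add_assoc, Nat.add_sub_cancel_left] at h2
      exact (Nat.dvd_add_left (Dvd.intro _ rfl)).1 h2
    have hpos : 0 < e * (d + j) := Nat.mul_pos (by omega) (by omega)
    have := Nat.le_of_dvd hpos hq'
    have : e * (d + j) ≤ 7 * 7 := Nat.mul_le_mul (by omega) (by omega)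
    omega

end Cfsg.Agent.SUGeo
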