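/-
The torus normaliser of the three-dimensional special unitary group, abstractly.
-/
import Mathlib
import Cfsg.Agent.MinU3.Main
import Cfsg.Agent.SUGeo.SingerArith

set_option autoImplicit false
set_option linter.unusedSectionVars false
set_option linter.style.haveILetI false

namespace Cfsg.Agent.SUGeo

open Cfsg.Agent.Classical.U Cfsg.Agent.MinU Cfsg.Agent.MinU3

universe u

variable {F : Type u} [Field F] {q : ℕ}
variable (hF : SqField F q)
include hF

/-- The index of a proper subgroup with the centre. -/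
theorem index_gt (hq : 3 ≤ q) (h5 : q ≠ 5) (K : Subgroup (SG 1 F q)) (hK : K ≠ ⊤)
    (hZ : Subgroup.center (SG 1 F q) ≤ K) : q ^ 3 + 1 ≤ K.index := by
  by_contra hlt
  push Not at hlt
  haveI := finite_SG hF
  letI : UAct F q (SG 1 F q ⧸ K) 1 := ⟨inferInstance⟩
  haveI : MulAction.IsPretransitive (SG 1 F q) (SG 1 F q ⧸ K) :=
    inferInstanceAs (MulAction.IsPretransitive (SG 1 F q) (SG 1 F q ⧸ K))
  refine transitive_absurd hF (X := SG 1 F q ⧸ K) hq h5 ?_ ?_ (by
    rw [← Subgroup.index_eq_card]; omega)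
  · intro y
    by_contra hy
    push Not at hy
    refine hK (Subgroup.index_eq_one.1 ?_)
    rw [Subgroup.index_eq_card, Nat.card_eq_one_iff_unique]
    refine ⟨⟨fun a b => ?_⟩, ⟨y⟩⟩
    obtain ⟨g, hg⟩ := MulAction.exists_smul_eq (SG 1 F q) y a
    obtain ⟨g', hg'⟩ := MulAction.exists_smul_eq (SG 1 F q) y b
    rw [← hg, ← hg', hy, hy]
  · intro z hz y
    induction y using QuotientGroup.induction_on with
    | H g =>
      change ((z * g : SG 1 F q) : SG 1 F q ⧸ K) = (g : SG 1 F q ⧸ K)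
      rw [QuotientGroup.eq, show (z * g)⁻¹ * g = z⁻¹ by
        rw [mul_inv_rev, Subgroup.mem_center_iff.1 (Subgroup.inv_mem _ hz) g⁻¹, inv_mul_cancel_right]]
      exact hZ (Subgroup.inv_mem _ hz)

/-- A unipotent fixes one isotropic line only. -/
theorem eLine_unique [CharP F 2] {g : SG 1 F q} {n : ℕ} (hg1 : g ≠ 1) (hg : g ^ 2 ^ n = 1)
    (he : mapL g (eLine hF 1) = eLine hF 1) {L : Submodule F (Fin (1 + 2) → F)}
    (hL : L ∈ isoLines (1 + 2) F q) (hgL : mapL g L = L) : L = eLine hF 1 := by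
  haveI : Fact (Nat.Prime 2) := ⟨Nat.prime_two⟩
  have hpow : ∀ {v : Fin (1 + 2) → F} {c : F}, g.1.1 v = c • v → ∀ i, (g ^ i).1.1 v = c ^ i • v := by
    intro v c h i
    induction i with
    | zero => rw [pow_zero, pow_zero, one_smul]; rfl
    | succ i ih => rw [pow_succ, SG_mul_apply hF, h, map_smul, ih, smul_smul, ← pow_succ']
  have hroot : ∀ {v : Fin (1 + 2) → F}, v ≠ 0 →
      mapL g (Submodule.span F {v}) = Submodule.span F {v} → g.1.1 v = v := by
    intro v hv h
    rw [mapL_span] at h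
    obtain ⟨c, hc⟩ := Submodule.mem_span_singleton.1
      (h ▸ Submodule.mem_span_singleton_self (g.1.1 v) : g.1.1 v ∈ Submodule.span F {v})
    have h1 := hpow hc.symm (2 ^ n)
    rw [hg] at h1
    have hc1 : c ^ 2 ^ n = 1 := by
      refine smul_left_injective F hv ?_
      change c ^ 2 ^ n • v = (1 : F) • v
      rw [one_smul]; exact h1.symm
    have h0 : (c - 1) ^ 2 ^ n = 0 := by rw [sub_pow_char_pow, hc1, one_pow, sub_self]
    rw [sub_eq_zero.1 (eq_zero_of_pow_eq_zero h0), one_smul] at hc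
    exact hc.symm
  have heV : g.1.1 (eV hF 1) = eV hF 1 := hroot (pair_spec hF).1.ne_zero he
  obtain ⟨p, hl, hgp⟩ := exists_tE_lv hF (g := g) (l := 1) (by rw [one_smul]; exact heV)
  rw [lv_congr hF hl one_ne_zero rfl, lv_one, mul_one] at hgp
  subst hgp
  obtain ⟨v, ⟨hv, hv0⟩, rfl⟩ := hL
  obtain ⟨c, hc⟩ := tE_fix_line hF hg1 hv0 (hroot hv hgL)
  have hc0 : c ≠ 0 := fun h => hv (by rw [hc, h, zero_smul])
  rw [eLine, hc]
  exact Submodule.span_singleton_smul_eq (IsUnit.mk0 _ hc0) _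

/-- The last configuration at eight. -/
theorem eight_absurd (h8 : q = 8) (C X : Subgroup (SG 1 F q)) (hCX : C ≤ X)
    (hZX : Nat.card X = 16416) (z : SG 1 F q) (hzX : z ∈ X) (hz3 : orderOf z = 3)
    (hzfix : ∀ v, ∃ a : F, z.1.1 v = a • v)
    (hno : ∃ c ∈ C, ∀ v, v ≠ 0 → ∀ a : F, c.1.1 v ≠ a • v) : False := by
  classical
  subst h8
  obtain ⟨hfin, hcard⟩ := id hF
  haveI := finite_SG hF
  haveI : Fact (Nat.Prime 2) := ⟨Nat.prime_two⟩
  haveI : CharP F 2 := by
    obtain ⟨p, k, hp, hc, he⟩ := hF.exists_char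
    have h2 : 2 ∣ p := Nat.prime_two.dvd_of_dvd_pow (he ▸ (by norm_num) : 2 ∣ p ^ k)
    obtain rfl := (Nat.prime_dvd_prime_iff_eq Nat.prime_two hp).1 h2
    exact hc
  letI actL : MulAction X (isoLines (1 + 2) F 8) :=
    { smul := fun g L => ⟨mapL g.1 L.1, mapL_mem g.1 L.2⟩
      one_smul := fun L => Subtype.ext (Submodule.map_id L.1)
      mul_smul := fun g g' L => Subtype.ext (mapL_mapL hF g.1 g'.1 L.1).symm }
  haveI : Finite X := Subtype.finite
  haveI : Finite (isoLines (1 + 2) F 8) := Subtype.finite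
  obtain ⟨P⟩ : Nonempty (Sylow 2 X) := inferInstance
  have hP : Nat.card P = 32 := by
    rw [P.card_eq_multiplicity, hZX, show (16416 : ℕ) = 2 ^ 5 * 513 by norm_num,
      Nat.factorization_mul (by norm_num) (by norm_num), Nat.Prime.factorization_pow Nat.prime_two]
    simp [Nat.factorization_eq_zero_of_not_dvd]
  have hlines : Nat.card (isoLines (1 + 2) F 8) = 513 := by
    rw [card_isoLines hF, show isoN 8 (1 + 2) = 8 ^ 3 + 1 from isoN_three 8]; norm_num
  obtain ⟨L₀, hL₀⟩ : ∃ L : isoLines (1 + 2) F 8, L ∈ MulAction.fixedPoints P (isoLines (1 + 2) F 8) :=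
    P.isPGroup'.nonempty_fixed_point_of_prime_not_dvd_card _ (by rw [hlines]; norm_num)
  have hfree : ∀ g : P, g ≠ 1 → ∀ L : isoLines (1 + 2) F 8, g • L = L → L = L₀ := by
    intro g hg L hgL
    obtain ⟨g₀, hg₀⟩ := exists_mapL_eq hF L₀.2
    set g' := g₀ * g.1.1 * g₀⁻¹ with hg'
    have hconj : ∀ K : Submodule F (Fin (1 + 2) → F), mapL g.1.1 K = K →
        mapL g' (mapL g₀ K) = mapL g₀ K := by
      intro K hK
      rw [mapL_mapL hF, show g' * g₀ = g₀ * g.1.1 by rw [hg']; group, ← mapL_mapL hF, hK]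
    obtain ⟨n, hn⟩ := (IsPGroup.iff_orderOf.1 P.isPGroup') g
    refine Subtype.ext (mapL_injective g₀ ?_)
    rw [hg₀]
    refine eLine_unique hF (g := g') (n := n) (fun h => hg ?_) ?_ ?_ (mapL_mem g₀ L.2)
      (hconj _ (congrArg Subtype.val hgL))
    · rw [hg', mul_inv_eq_one, mul_eq_left] at h
      exact Subtype.ext (Subtype.ext h)
    · rw [hg', conj_pow, ← Subgroup.coe_pow, ← Subgroup.coe_pow, ← hn, pow_orderOf_eq_one]
      simp
    · rw [← hg₀]
      exact hconj _ (congrArg Subtype.val (hL₀ g))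
  have hzL : ∀ L : isoLines (1 + 2) F 8, mapL z L.1 = L.1 := by
    rintro ⟨_, v, ⟨hv, hv0⟩, rfl⟩
    obtain ⟨a, ha⟩ := hzfix v
    have ha0 : a ≠ 0 := fun h0 => hv (z.1.1.injective (by rw [ha, h0, zero_smul, map_zero]))
    rw [mapL_span, ha]
    exact Submodule.span_singleton_smul_eq (IsUnit.mk0 _ ha0) _
  set O := MulAction.orbit X L₀ with hO
  have hO171 : Nat.card O ∣ 171 := by
    set S := MulAction.stabilizer X L₀ with hS
    have hPS : (P : Subgroup X) ≤ S := fun g hg => hL₀ ⟨g, hg⟩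
    have hzS : (⟨z, hzX⟩ : X) ∈ S := Subtype.ext (hzL L₀)
    have h96 : 96 ∣ Nat.card S := by
      have h32 := Subgroup.card_dvd_of_le hPS
      rw [show Nat.card (P : Subgroup X) = 32 from hP] at h32
      have h3 := S.orderOf_dvd_natCard hzS
      rw [← Subgroup.orderOf_coe, hz3] at h3
      exact Nat.Coprime.mul_dvd_of_dvd_of_dvd (by norm_num : Nat.Coprime 32 3) h32 h3
    have h := Nat.card_congr (MulAction.orbitProdStabilizerEquivGroup X L₀)
    rw [Nat.card_prod, hZX] at h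
    obtain ⟨t, ht⟩ := h96
    refine Dvd.intro t ?_
    rw [ht] at h
    refine Nat.eq_of_mul_eq_mul_left (show 0 < 96 by norm_num) ?_
    rw [mul_left_comm]
    exact h
  have hmod : Nat.card O ≡ 1 [MOD 32] := by
    have hL0O : L₀ ∈ O := MulAction.mem_orbit_self L₀
    let T := {L : O // L.1 ≠ L₀}
    letI : MulAction P T :=
      { smul := fun g L => ⟨⟨g • L.1.1, by
          obtain ⟨x, hx⟩ := L.1.2
          exact ⟨g.1 * x, by rw [← hx]; exact mul_smul g.1 x L₀⟩⟩, fun h => L.2 (by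
          have : g • L.1.1 = g • L₀ := h.trans (hL₀ g).symm
          exact MulAction.injective g this)⟩
        one_smul := fun L => Subtype.ext (Subtype.ext (one_smul P L.1.1))
        mul_smul := fun g g' L => Subtype.ext (Subtype.ext (mul_smul g g' L.1.1)) }
    have hT : 32 ∣ Nat.card T := by
      haveI : Finite T := inferInstance
      haveI := Fintype.ofFinite (MulAction.orbitRel.Quotient P T)
      rw [Nat.card_congr (MulAction.selfEquivSigmaOrbitsQuotientStabilizer P T), Nat.card_sigma]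
      refine Finset.dvd_sum fun ω _ => ?_
      have hst : MulAction.stabilizer P ω.out = ⊥ := by
        rw [Subgroup.eq_bot_iff_forall]
        intro g hg
        by_contra hg1
        refine ω.out.2 (hfree g hg1 _ ?_)
        exact congrArg (fun L : T => L.1.1) (MulAction.mem_stabilizer_iff.1 hg)
      rw [hst, ← Subgroup.index_eq_card, Subgroup.index_bot, hP]
    have hsplit : Nat.card O = Nat.card T + 1 := by
      rw [← Finite.card_option]
      exact (Nat.card_congr (Equiv.optionSubtypeNe (⟨L₀, hL0O⟩ : O))).symm.trans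
        (by
          rw [Finite.card_option, Finite.card_option]
          congr 1
          exact Nat.card_congr (Equiv.subtypeEquivRight fun L => not_congr Subtype.ext_iff))
    rw [hsplit]
    exact (Nat.ModEq.add_right 1 (Nat.modEq_zero_iff_dvd.2 hT)).trans (by rfl)
  have hO1 : Nat.card O = 1 := by
    have hle := Nat.le_of_dvd (by norm_num) hO171
    unfold Nat.ModEq at hmod
    interval_cases h : Nat.card O <;> omega
  obtain ⟨c, hcC, hc⟩ := hno
  obtain ⟨v, ⟨hv, -⟩, hL⟩ := L₀.2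
  haveI : Subsingleton O := (Nat.card_eq_one_iff_unique.1 hO1).1
  have hfix : (⟨c, hCX hcC⟩ : X) • L₀ = L₀ :=
    congrArg Subtype.val (Subsingleton.elim (⟨_, MulAction.mem_orbit _ _⟩ : O) ⟨L₀, MulAction.mem_orbit_self L₀⟩)
  have h1 : mapL c L₀.1 = L₀.1 := congrArg Subtype.val hfix
  rw [hL, mapL_span] at h1
  obtain ⟨a, ha⟩ := Submodule.mem_span_singleton.1
    (h1 ▸ Submodule.mem_span_singleton_self (c.1.1 v) : c.1.1 v ∈ Submodule.span F {v})
  exact hc v hv a ha.symm

omit hF in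
/-- A torus element semiregular off the base gives the index. -/
theorem orbit_count {G : Type*} [Group G] [Finite G] (C H X : Subgroup G) (hCH : C ≤ H) (hHX : H ≤ X)
    (Z : Subgroup G) (hZC : Z ≤ C) (hZc : Z ≤ Subgroup.center G)
    (hsemi : ∀ g : G, g ∉ H → ∀ c ∈ C, g⁻¹ * c * g ∈ H → c ∈ Z) :
    ∃ j, Nat.card X = (1 + j * (Nat.card C / Nat.card Z)) * Nat.card H := by
  classical
  let H' := H.subgroupOf X
  have hHc : Nat.card H' = Nat.card H := Nat.card_congr (Subgroup.subgroupOfEquivOfLe hHX).toEquiv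
  let base : X ⧸ H' := ((1 : X) : X ⧸ H')
  let T := {y : X ⧸ H' // y ≠ base}
  let ι : C →* X := Subgroup.inclusion (hCH.trans hHX)
  have hbase : ∀ c : C, ι c • base = base := by
    intro c
    change ((ι c * 1 : X) : X ⧸ H') = ((1 : X) : X ⧸ H')
    rw [QuotientGroup.eq, Subgroup.mem_subgroupOf]
    simpa [ι] using hCH c.2
  letI : MulAction C T :=
    { smul := fun c y => ⟨ι c • y.1, fun h => y.2 (MulAction.injective (ι c) (h.trans (hbase c).symm))⟩
      one_smul := fun y => Subtype.ext (by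
        change ι 1 • y.1 = y.1
        rw [map_one, one_smul])
      mul_smul := fun c c' y => Subtype.ext (by
        change ι (c * c') • y.1 = ι c • ι c' • y.1
        rw [map_mul, mul_smul]) }
  have hst : ∀ y : T, MulAction.stabilizer C y = Z.subgroupOf C := by
    intro y
    obtain ⟨x, hx⟩ := QuotientGroup.mk_surjective y.1
    ext c
    rw [MulAction.mem_stabilizer_iff, Subgroup.mem_subgroupOf]
    have key : c • y = y ↔ x.1⁻¹ * (c : G)⁻¹ * x.1 ∈ H := by
      rw [Subtype.ext_iff]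
      change ι c • y.1 = y.1 ↔ _
      rw [← hx]
      change ((ι c * x : X) : X ⧸ H') = _ ↔ _
      rw [QuotientGroup.eq, Subgroup.mem_subgroupOf]
      simp [ι, mul_assoc]
    rw [key]
    constructor
    · intro h
      have hx' : x.1 ∉ H := fun hm => y.2 (by
        rw [← hx, QuotientGroup.eq, Subgroup.mem_subgroupOf]
        simpa using hm)
      simpa using Z.inv_mem (hsemi x.1 hx' _ (C.inv_mem c.2) h)
    · intro h
      rw [mul_assoc, ← Subgroup.mem_center_iff.1 (hZc (Z.inv_mem h)) x.1, inv_mul_cancel_left]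
      exact H.inv_mem (hCH c.2)
  have hdvd : Nat.card C / Nat.card Z ∣ Nat.card T := by
    haveI := Fintype.ofFinite (MulAction.orbitRel.Quotient C T)
    rw [Nat.card_congr (MulAction.selfEquivSigmaOrbitsQuotientStabilizer C T), Nat.card_sigma]
    refine Finset.dvd_sum fun ω _ => ?_
    rw [hst]
    refine dvd_of_eq (Nat.div_eq_of_eq_mul_left Nat.card_pos ?_)
    rw [← Nat.card_congr (Subgroup.subgroupOfEquivOfLe hZC).toEquiv]
    exact Subgroup.card_eq_card_quotient_mul_card_subgroup _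
  obtain ⟨j, hj⟩ := hdvd
  refine ⟨j, ?_⟩
  rw [Subgroup.card_eq_card_quotient_mul_card_subgroup H', hHc,
    ← Nat.card_congr (Equiv.optionSubtypeNe base), Finite.card_option, show Nat.card {y : X ⧸ H' // y ≠ base}
      = Nat.card T from rfl, hj]
  ring

/-- Maximality of the torus normaliser. -/
theorem core_maximal (hq : 3 ≤ q) (h3 : q ≠ 3) (h5 : q ≠ 5) (C H : Subgroup (SG 1 F q)) (hCH : C ≤ H)
    (hC : Nat.card C = q ^ 2 - q + 1) (hH : Nat.card H = 3 * (q ^ 2 - q + 1))
    (Z : Subgroup (SG 1 F q)) (hZC : Z ≤ C) (hZc : Z ≤ Subgroup.center (SG 1 F q))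
    (hcC : Subgroup.center (SG 1 F q) ≤ C)
    (hZ : Nat.card Z = Nat.gcd 3 (q + 1)) (hZfix : ∀ z ∈ Z, ∀ v, ∃ a : F, z.1.1 v = a • v)
    (hsemi : ∀ g : SG 1 F q, g ∉ H → ∀ c ∈ C, g⁻¹ * c * g ∈ H → c ∈ Z)
    (hno : ∃ c ∈ C, ∀ v, v ≠ 0 → ∀ a : F, c.1.1 v ≠ a • v)
    (X : Subgroup (SG 1 F q)) (hHX : H ≤ X) (hX : X ≠ ⊤) : X = H := by
  classical
  haveI := finite_SG hF
  obtain ⟨p, k, hp, -, hpk⟩ := hF.exists_char
  obtain ⟨j, hj⟩ := orbit_count C H X hCH hHX Z hZC hZc hsemi
  rw [hC, hH, hZ] at hj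
  rcases Nat.eq_zero_or_pos j with rfl | hjpos
  · exact (Subgroup.eq_of_le_of_card_ge hHX (by rw [hj, zero_mul, add_zero, one_mul, hH])).symm
  exfalso
  set c0 := q ^ 2 - q + 1 with hc0
  set d := Nat.gcd 3 (q + 1) with hd
  have hdc : d ∣ c0 := by
    rw [← hC, ← hZ]; exact Subgroup.card_dvd_of_le hZC
  obtain ⟨t, ht⟩ := hdc
  have hdpos : 0 < d := Nat.gcd_pos_of_pos_left _ (by norm_num)
  rw [show c0 / d = t by rw [ht, Nat.mul_div_cancel_left _ hdpos]] at hj
  have hidx := index_gt hF hq h5 X hX (hcC.trans (hCH.trans hHX))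
  have htot : X.index * Nat.card X = q ^ 3 * (q ^ 3 + 1) * (q ^ 2 - 1) := by
    rw [Subgroup.index_mul_card, card_SG_one hF]
  rw [hj] at htot
  have hq1 : q ^ 3 + 1 = (q + 1) * c0 := by
    have h2 : q ≤ q ^ 2 := Nat.le_self_pow two_ne_zero q
    rw [hc0]; zify [h2]; ring
  have hc0pos : 0 < c0 := Nat.succ_pos _
  have htot' : 3 * (1 + j * t) * X.index = q ^ 3 * (q + 1) * (q ^ 2 - 1) := by
    refine Nat.eq_of_mul_eq_mul_left hc0pos ?_
    calc c0 * (3 * (1 + j * t) * X.index) = X.index * ((1 + j * t) * (3 * c0)) := by ring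
      _ = _ := htot
      _ = _ := by rw [hq1]; ring
  have hm : d + j * c0 = d * (1 + j * t) := by rw [ht]; ring
  have hdvd : d + j * c0 ∣ q ^ 3 * (q + 1) * (q ^ 2 - 1) := by
    rw [← htot', hm]
    exact (Nat.mul_dvd_mul_right (Nat.gcd_dvd_left 3 (q + 1)) _).trans (Dvd.intro _ rfl)
  have hle : 3 * (d + j * c0) * c0 ≤ d * (q ^ 3 * (q ^ 2 - 1)) := by
    refine Nat.le_of_mul_le_mul_left ?_ (show 0 < q + 1 by omega)
    calc (q + 1) * (3 * (d + j * c0) * c0) = d * (3 * (1 + j * t) * (q ^ 3 + 1)) := by rw [hm, hq1]; ring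
      _ ≤ d * (3 * (1 + j * t) * X.index) := Nat.mul_le_mul_left _ (Nat.mul_le_mul_left _ hidx)
      _ = _ := by rw [htot']; ring
  obtain ⟨h8, rfl⟩ := singer_arith hp hpk hq h3 h5 hd hjpos hle hdvd
  subst h8
  have hd3 : d = 3 := by rw [hd]; norm_num
  rw [hd3] at ht hZ
  have hc57 : c0 = 57 := by rw [hc0]; norm_num
  obtain rfl : t = 19 := by omega
  rw [hc57] at hj
  haveI : Fact (Nat.Prime 3) := ⟨Nat.prime_three⟩
  obtain ⟨z, hz⟩ := exists_prime_orderOf_dvd_card' (G := Z) 3 (by rw [hZ])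
  exact eight_absurd hF rfl C X (hCH.trans hHX) (by rw [hj]) z.1 (hHX (hCH (hZC z.2)))
    (by rw [Subgroup.orderOf_coe]; exact hz) (hZfix z.1 z.2) hno

/-- A Sylow subgroup inside the torus is normalised by more than the torus. -/
theorem transfer_absurd
    (hperf : commutator (SG 1 F q) = ⊤) {r : ℕ} [Fact r.Prime] (P : Sylow r (SG 1 F q))
    (hP : (P : Subgroup (SG 1 F q)) ≠ ⊥)
    (hN : Subgroup.normalizer (P : Set (SG 1 F q)) ≤ Subgroup.centralizer (P : Set (SG 1 F q))) :
    False := by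
  haveI := finite_SG hF
  haveI : IsMulCommutative (P : Subgroup (SG 1 F q)) :=
    ⟨⟨fun a b => Subtype.ext (hN (Subgroup.le_normalizer b.2) a a.2)⟩⟩
  have hker : (MonoidHom.transferSylow P hN).ker = ⊤ := by
    refine top_le_iff.1 ?_
    rw [← hperf, commutator_eq_closure, Subgroup.closure_le]
    rintro _ ⟨a, b, rfl⟩
    simp [commutatorElement_def, mul_comm' (MonoidHom.transferSylow P hN a)]
  have h := MonoidHom.ker_transferSylow_isComplement' P hN
  rw [hker] at h
  exact hP (Subgroup.isComplement'_top_left.1 h)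

end Cfsg.Agent.SUGeo
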