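/-
The normaliser of an adjoint-closed cubic field is maximal in the three-dimensional special unitary group.
-/
import Mathlib
import Cfsg.Agent.SUGeo.SingerCore
import Cfsg.Agent.MaxSub.FieldSub
import Cfsg.Agent.MaxSub.UnitExt.Fld
import Cfsg.Agent.ClassicalMax.UnitaryProper

set_option autoImplicit false
set_option linter.unusedSectionVars false
set_option linter.style.haveILetI false

namespace Cfsg.Agent.SUGeo

open Matrix Cfsg.Geo Module
open Cfsg.Agent.Classical.U Cfsg.Agent.MinU Cfsg.Agent.MinU3 Cfsg.Agent.ClassicalMax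
open scoped MatrixGroups Matrix

universe u

variable {F : Type u} [Field F] {q : ℕ}

/-- The special unitary group as matrices. -/
noncomputable def psiHom (F : Type u) [Field F] (q : ℕ) : SG 1 F q →* GL (Fin 3) F :=
  (glEquiv 3 F).symm.toMonoidHom.comp ((UG 3 F q).subtype.comp (SUG 3 F q).subtype)

theorem psiHom_mulVec (g : SG 1 F q) (v : Fin 3 → F) :
    (psiHom F q g : Matrix (Fin 3) (Fin 3) F) *ᵥ v = g.1.1 v := by
  rw [← glEquiv_apply]
  exact congrArg (fun e : (Fin 3 → F) ≃ₗ[F] (Fin 3 → F) => e v) ((glEquiv 3 F).apply_symm_apply _)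

theorem psiHom_injective : Function.Injective (psiHom F q) := fun _ _ h =>
  Subtype.ext (Subtype.ext ((glEquiv 3 F).symm.injective h))

theorem range_psiHom : (psiHom F q).range = suGL 3 F q := by
  ext x
  constructor
  · rintro ⟨g, rfl⟩
    refine ⟨fun u v => ?_, ?_⟩
    · change herm q ((psiHom F q g : Matrix (Fin 3) (Fin 3) F) *ᵥ u)
        ((psiHom F q g : Matrix (Fin 3) (Fin 3) F) *ᵥ v) = herm q u v
      rw [psiHom_mulVec, psiHom_mulVec]
      exact UG_app g.1 u v
    · change Matrix.GeneralLinearGroup.det _ = 1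
      rw [← det_glEquiv]
      have h : LinearEquiv.det g.1.1 = 1 := mem_SUG.1 g.2
      rwa [show glEquiv 3 F (psiHom F q g) = g.1.1 from (glEquiv 3 F).apply_symm_apply _]
  · intro hx
    refine ⟨⟨⟨glEquiv 3 F x, fun u v => hx.1 u v⟩, ?_⟩, ?_⟩
    · rw [mem_SUG]
      change LinearEquiv.det (glEquiv 3 F x) = 1
      rw [det_glEquiv]
      exact hx.2
    · exact (glEquiv 3 F).symm_apply_apply x

theorem scalar_eq_of_apply {k : Matrix (Fin 3) (Fin 3) F} (a : F) (h : ∀ v, k *ᵥ v = a • v) :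
    k = a • (1 : Matrix (Fin 3) (Fin 3) F) :=
  Matrix.toLin'.injective (LinearMap.ext fun v => by
    rw [Matrix.toLin'_apply, Matrix.toLin'_apply, h, Matrix.smul_mulVec, Matrix.one_mulVec])

/-- The normaliser of an adjoint-closed cubic field is maximal. -/
theorem singer_maximal {F : Type*} [Field F] [Fintype F] (q : ℕ) (hFc : Fintype.card F = q ^ 2) (hq : 3 ≤ q) :
    q ≠ 3 → q ≠ 5 → ∀ K : Subalgebra F (Matrix (Fin 3) (Fin 3) F), Cfsg.Geo.IsFieldSubalgebra 3 K →
      Cfsg.Geo.IsAdjointClosedFor (Cfsg.hermForm 3 F q) K →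
      Cfsg.Geo.IsMaximalIn (Cfsg.GU 3 F q ⊓ Cfsg.Geo.specialLinear (Fin 3) F)
        (Cfsg.Geo.subalgebraNormalizer K ⊓ (Cfsg.GU 3 F q ⊓ Cfsg.Geo.specialLinear (Fin 3) F)) := by
  classical
  intro h3 h5 K hK hac
  have hF : SqField F q := sqField_of_fintype hFc
  haveI := finite_SG hF
  letI : Field K := (MaxSub.isField_of_isFieldSubalgebra hK).toField
  haveI : Finite K := Finite.of_injective (fun x : K => (x : Matrix (Fin 3) (Fin 3) F)) Subtype.val_injective
  haveI : Fintype K := Fintype.ofFinite K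
  haveI : FiniteDimensional F K := Module.Finite.of_finite
  have D : MaxSub.UnitExt.FD F K q 3 := ⟨hF, hK.finrank_eq, Nat.prime_three, by decide⟩
  have hcardK : Nat.card K = q ^ 6 := by
    rw [Module.natCard_eq_pow_finrank (K := F), hF.2, hK.finrank_eq, ← pow_mul]
  have hsep : ∀ x y : Fin 3 → F, (∀ u, herm q u x = herm q u y) → x = y := fun x y h =>
    sub_eq_zero.1 (hF.eq_zero_of_herm _ fun u => by
      rw [← hF.herm_symm, hF.herm_sub_right, h, sub_self, zero_pow hF.q_ne_zero])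
  let Mx : K → Matrix (Fin 3) (Fin 3) F := Subtype.val
  have hMmul : ∀ a b : K, Mx (a * b) = Mx a * Mx b := fun a b => rfl
  have hsimple : ∀ T : Subalgebra F K, (∃ k ∈ T, k ∉ (⊥ : Subalgebra F K)) → T = ⊤ := by
    rintro T ⟨k, hk, hk0⟩
    haveI := Subalgebra.isSimpleOrder_of_finrank_prime F K (by rw [hK.finrank_eq]; exact Nat.prime_three)
    exact (IsSimpleOrder.eq_bot_or_eq_top T).resolve_left fun h => hk0 (h ▸ hk)
  -- adjoint
  choose ad0 had0 using hac
  let ad : K → K := fun k => ⟨ad0 k k.2, (had0 k k.2).1⟩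
  have had : ∀ (k : K) u v, herm q (Mx k *ᵥ u) v = herm q u (Mx (ad k) *ᵥ v) := fun k => (had0 k k.2).2
  have huniq : ∀ {a b : K}, (∀ u v, herm q u (Mx a *ᵥ v) = herm q u (Mx b *ᵥ v)) → a = b := fun h =>
    Subtype.ext (Matrix.toLin'.injective (LinearMap.ext fun v => by
      rw [Matrix.toLin'_apply, Matrix.toLin'_apply]; exact hsep _ _ fun u => h u v))
  have hMF : ∀ (t : F) (v : Fin 3 → F), Mx (algebraMap F K t) *ᵥ v = t • v := fun t v => by
    rw [show Mx (algebraMap F K t) = t • 1 from Algebra.algebraMap_eq_smul_one t, Matrix.smul_mulVec,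
      Matrix.one_mulVec]
  have had_mul : ∀ a b, ad (a * b) = ad a * ad b := fun a b => huniq fun u v => by
    rw [← had, mul_comm (ad a), hMmul, hMmul, ← Matrix.mulVec_mulVec, ← Matrix.mulVec_mulVec, had, had]
  have had_add : ∀ a b, ad (a + b) = ad a + ad b := fun a b => huniq fun u v => by
    rw [← had]
    change herm q ((Mx a + Mx b) *ᵥ u) v = herm q u ((Mx (ad a) + Mx (ad b)) *ᵥ v)
    rw [Matrix.add_mulVec, Matrix.add_mulVec, hF.herm_add_right, herm_add_left, had, had]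
  have had_F : ∀ t : F, ad (algebraMap F K t) = algebraMap F K (t ^ q) := fun t => huniq fun u v => by
    rw [← had, hMF, hMF, herm_smul_left, herm_smul_right, hF.pow_pow]
  have had_ad : ∀ a, ad (ad a) = a := fun a => huniq fun u v => by
    rw [← had, ← hF.herm_symm, ← had, hF.herm_symm]
  have had_one : ad 1 = 1 := by simpa using had_F 1
  have hadQ : ∀ a, ad a = a ^ q ^ 3 := by
    let χ : K →ₐ[F] K :=
      { toFun := fun a => ad a ^ q ^ 3
        map_one' := by rw [had_one, one_pow]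
        map_mul' := fun a b => by rw [had_mul, mul_pow]
        map_zero' := by
          have := had_F 0
          rw [map_zero, zero_pow hF.q_ne_zero, map_zero] at this
          rw [this, zero_pow D.sqK.q_ne_zero]
        map_add' := fun a b => by rw [had_add, D.sqK.add_pow]
        commutes' := fun t => by rw [had_F, D.algebraMap_pow, hF.pow_pow] }
    let χ' : Gal(K/F) := AlgEquiv.ofBijective χ
      (Finite.injective_iff_bijective.1 χ.toRingHom.injective)
    have hpow : ∀ a (j : ℕ), ad (a ^ j) = ad a ^ j := fun a j => by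
      induction j with
      | zero => rw [pow_zero, pow_zero, had_one]
      | succ j ih => rw [pow_succ, pow_succ, had_mul, ih]
    have h2 : χ' ^ 2 = 1 := AlgEquiv.ext fun a => by
      rw [pow_two, AlgEquiv.mul_apply]
      show ad (ad a ^ q ^ 3) ^ q ^ 3 = a
      rw [hpow, had_ad, D.sqK.pow_pow]
    have hcard : Nat.card (Gal(K/F)) = 3 := by rw [IsGalois.card_aut_eq_finrank, hK.finrank_eq]
    have h1 : χ' = 1 := by
      have e1 := orderOf_dvd_iff_pow_eq_one.2 h2
      have e2 : orderOf χ' ∣ 3 := (orderOf_dvd_natCard χ').trans hcard.dvd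
      rw [← orderOf_eq_one_iff]
      exact Nat.eq_one_of_dvd_coprimes (by norm_num) e1 e2
    intro a
    have e3 : ad a ^ q ^ 3 = a := congrArg (fun f : Gal(K/F) => f a) h1
    calc ad a = (ad a ^ q ^ 3) ^ q ^ 3 := (D.sqK.pow_pow _).symm
      _ = a ^ q ^ 3 := by rw [e3]
  have hunit : ∀ c : K, (∀ u v, herm q (Mx c *ᵥ u) (Mx c *ᵥ v) = herm q u v) ↔ c ^ (q ^ 3 + 1) = 1 := by
    intro c
    constructor
    · intro h
      refine huniq fun u v => ?_
      rw [pow_succ, ← hadQ, hMmul, ← Matrix.mulVec_mulVec, ← had, h]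
      change _ = herm q u ((1 : Matrix (Fin 3) (Fin 3) F) *ᵥ v)
      rw [Matrix.one_mulVec]
    · intro h u v
      rw [had, Matrix.mulVec_mulVec, ← hMmul, hadQ, ← pow_succ, h]
      change herm q u ((1 : Matrix (Fin 3) (Fin 3) F) *ᵥ v) = _
      rw [Matrix.one_mulVec]
  -- the determinant
  let e0 : Fin 3 → F := Pi.single 0 1
  have he0 : e0 ≠ 0 := fun h => by simpa [e0] using congrFun h 0
  let Ev : K →ₗ[F] (Fin 3 → F) :=
    { toFun := fun k => Mx k *ᵥ e0
      map_add' := fun a b => Matrix.add_mulVec _ _ _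
      map_smul' := fun a k => Matrix.smul_mulVec _ _ _ }
  have hKinj : ∀ (k : K) (v : Fin 3 → F), v ≠ 0 → Mx k *ᵥ v = 0 → k = 0 := by
    intro k v hv hk
    by_contra hk0
    have h1 : Mx (k⁻¹ * k) *ᵥ v = 0 := by rw [hMmul, ← Matrix.mulVec_mulVec, hk, Matrix.mulVec_zero]
    rw [inv_mul_cancel₀ hk0] at h1
    exact hv ((Matrix.one_mulVec v).symm.trans h1)
  let E : K ≃ₗ[F] (Fin 3 → F) := LinearMap.linearEquivOfInjective Ev
    ((injective_iff_map_eq_zero Ev).2 fun k => hKinj k e0 he0)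
    (by rw [hK.finrank_eq, Module.finrank_fin_fun])
  have hE : ∀ v, ∃ k : K, Mx k *ᵥ e0 = v := fun v => ⟨E.symm v, E.apply_symm_apply v⟩
  have hdet : ∀ k : K, algebraMap F K (Mx k).det = k ^ (q ^ 4 + q ^ 2 + 1) := by
    intro k
    have hlin : Matrix.toLin' (Mx k) =
        (E : K →ₗ[F] (Fin 3 → F)) ∘ₗ LinearMap.mulLeft F k ∘ₗ (E.symm : (Fin 3 → F) →ₗ[F] K) := by
      refine LinearMap.ext fun v => ?_
      obtain ⟨x, rfl⟩ := E.surjective v
      simp only [LinearMap.comp_apply, LinearEquiv.coe_coe, LinearEquiv.symm_apply_apply,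
        LinearMap.mulLeft_apply, Matrix.toLin'_apply]
      change Mx k *ᵥ (Mx x *ᵥ e0) = Mx (k * x) *ᵥ e0
      rw [Matrix.mulVec_mulVec, hMmul]
    have h1 := congrArg LinearMap.det hlin
    rw [LinearMap.det_toLin', LinearMap.det_conj] at h1
    have h2 := FiniteField.algebraMap_norm_eq_pow_sum F K k
    rw [hK.finrank_eq, hF.2] at h2
    rw [h1, show LinearMap.det (LinearMap.mulLeft F k) = Algebra.norm F k from (Algebra.norm_apply F k).symm, h2]
    congr 1
    simp [Finset.sum_range_succ]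
    ring
  -- the torus
  set c0 := q ^ 2 - q + 1 with hc0
  have hqq : q ≤ q ^ 2 := Nat.le_self_pow two_ne_zero q
  have hq31 : q ^ 3 + 1 = (q + 1) * c0 := by rw [hc0]; zify [hqq]; ring
  have hq42 : q ^ 4 + q ^ 2 + 1 = (q ^ 2 + q + 1) * c0 := by rw [hc0]; zify [hqq]; ring
  have hgcd : Nat.gcd (q ^ 3 + 1) (q ^ 4 + q ^ 2 + 1) = c0 := by
    rw [hq31, hq42, Nat.gcd_mul_right]
    have : Nat.Coprime (q + 1) (q ^ 2 + q + 1) := by
      rw [show q ^ 2 + q + 1 = 1 + q * (q + 1) by ring]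
      exact Nat.coprime_add_mul_right_right _ _ _ |>.2 (Nat.coprime_one_right _)
    rw [this.gcd_eq_one, one_mul]
  set ψ := psiHom F q with hψ
  let C : Subgroup (SG 1 F q) :=
    { carrier := {g | (ψ g : Matrix (Fin 3) (Fin 3) F) ∈ K}
      one_mem' := by
        change (ψ 1 : Matrix (Fin 3) (Fin 3) F) ∈ K
        rw [map_one]; exact one_mem K
      mul_mem' := fun {a b} ha hb => by
        change (ψ (a * b) : Matrix (Fin 3) (Fin 3) F) ∈ K
        rw [map_mul]; exact mul_mem ha hb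
      inv_mem' := fun {g} hg => by
        change (ψ g⁻¹ : Matrix (Fin 3) (Fin 3) F) ∈ K
        obtain ⟨n, hn⟩ := (isOfFinOrder_of_finite g).mem_powers_iff_mem_zpowers.2
          (Subgroup.inv_mem _ (Subgroup.mem_zpowers g))
        rw [← show g ^ n = g⁻¹ from hn, map_pow, Units.val_pow_eq_pow_val]
        exact pow_mem hg n }
  have hmemS : ∀ g, ψ g ∈ suGL 3 F q := fun g => range_psiHom.le ⟨g, rfl⟩
  let toK : C → K := fun g => ⟨_, g.2⟩
  have htoK : ∀ g : C, toK g ^ c0 = 1 := by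
    intro g
    rw [← hgcd, pow_gcd_eq_one]
    refine ⟨(hunit _).1 fun u v => (hmemS g.1).1 u v, ?_⟩
    rw [← hdet, show (Mx (toK g)).det = 1 from GeoClasses.mem_specialLinear_iff.1 (hmemS g.1).2, map_one]
  have hofK : ∀ k : K, k ^ c0 = 1 → ∃ g : C, toK g = k := by
    intro k hk
    have hk0 : k ≠ 0 := fun h => by rw [h, zero_pow (Nat.succ_ne_zero _)] at hk; exact zero_ne_one hk
    let x : GL (Fin 3) F := ⟨Mx k, Mx k⁻¹, by rw [← hMmul, mul_inv_cancel₀ hk0]; rfl,
      by rw [← hMmul, inv_mul_cancel₀ hk0]; rfl⟩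
    have hx : x ∈ suGL 3 F q := by
      refine ⟨(hunit k).2 (by rw [hq31, mul_comm, pow_mul, hk, one_pow]), ?_⟩
      show x ∈ specialLinear (Fin 3) F
      rw [GeoClasses.mem_specialLinear_iff]
      refine (algebraMap F K).injective ?_
      change algebraMap F K (Mx k).det = _
      rw [hdet, map_one, hq42, mul_comm, pow_mul, hk, one_pow]
    obtain ⟨g, hg⟩ := range_psiHom.ge hx
    refine ⟨⟨g, ?_⟩, Subtype.ext ?_⟩
    · change (ψ g : Matrix (Fin 3) (Fin 3) F) ∈ K
      rw [hg]; exact k.2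
    · change (ψ g : Matrix (Fin 3) (Fin 3) F) = _
      rw [hg]
  have htoK_inj : Function.Injective toK := fun a b h =>
    Subtype.ext (psiHom_injective (Units.ext (congrArg Subtype.val h)))
  have hc06 : c0 ∣ q ^ 6 - 1 := by
    refine ⟨(q + 1) * (q ^ 3 - 1), ?_⟩
    rw [← mul_assoc, mul_comm c0, ← hq31]
    have h6 : 1 ≤ q ^ 6 := Nat.one_le_pow _ _ (by omega)
    have h31 : 1 ≤ q ^ 3 := Nat.one_le_pow _ _ (by omega)
    zify [h6, h31]; ring
  have hroots : ∀ d, d ∣ q ^ 6 - 1 → Nat.card {k : K // k ^ d = 1} = d := by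
    intro d hd
    have h6 : 2 ≤ q ^ 6 := le_trans (by omega) (Nat.le_self_pow (by norm_num) q)
    have hdne : d ≠ 0 := fun h => by rw [h, zero_dvd_iff] at hd; omega
    let e : (powMonoidHom d : Kˣ →* Kˣ).ker → {k : K // k ^ d = 1} := fun u =>
      ⟨u.1.1, by
        have := congrArg Units.val (MonoidHom.mem_ker.1 u.2)
        simpa using this⟩
    have he : Function.Bijective e := by
      refine ⟨fun a b h => Subtype.ext (Units.ext (congrArg (fun z => z.1) h)), fun k => ?_⟩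
      have hk0 : (k.1 : K) ≠ 0 := fun h => by
        have := k.2
        rw [h, zero_pow hdne] at this
        exact zero_ne_one this
      exact ⟨⟨Units.mk0 k.1 hk0, MonoidHom.mem_ker.2 (Units.ext (by simpa using k.2))⟩, rfl⟩
    rw [← Nat.card_eq_of_bijective e he, IsCyclic.card_powMonoidHom_ker, Nat.card_units, hcardK,
      Nat.gcd_eq_right hd]
  have hCcard : Nat.card C = c0 := by
    rw [← hroots c0 hc06]
    exact Nat.card_eq_of_bijective (fun g => ⟨toK g, htoK g⟩)
      ⟨fun a b h => htoK_inj (congrArg Subtype.val h),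
        fun k => (hofK k.1 k.2).imp fun g hg => Subtype.ext hg⟩
  -- the scalars
  let Z : Subgroup (SG 1 F q) :=
    { carrier := {g | ∃ a : F, ∀ v, g.1.1 v = a • v}
      one_mem' := ⟨1, fun v => (one_smul F v).symm⟩
      mul_mem' := fun {g g'} ⟨a, ha⟩ ⟨b, hb⟩ => ⟨b * a, fun v => by
        rw [SG_mul_apply hF, hb, map_smul, ha, smul_smul]⟩
      inv_mem' := fun {g} ⟨a, ha⟩ => ⟨a⁻¹, fun v => g.1.1.injective (by
        have ha0 : a ≠ 0 := fun h => he0 (g.1.1.injective (by rw [ha, h, zero_smul, map_zero]))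
        rw [map_smul, ← SG_mul_apply hF, mul_inv_cancel, ha, smul_smul, inv_mul_cancel₀ ha0, one_smul]
        rfl)⟩ }
  have hZalg : ∀ g : C, g.1 ∈ Z ↔ toK g ∈ (⊥ : Subalgebra F K) := by
    intro g
    rw [Algebra.mem_bot]
    constructor
    · rintro ⟨a, ha⟩
      exact ⟨a, Subtype.ext ((Algebra.algebraMap_eq_smul_one a).trans
        (scalar_eq_of_apply a fun v => (psiHom_mulVec g.1 v).trans (ha v)).symm)⟩
    · rintro ⟨a, ha⟩
      refine ⟨a, fun v => ?_⟩
      rw [← psiHom_mulVec, ← hMF a v, ha]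
  have hZC : Z ≤ C := by
    rintro g ⟨a, ha⟩
    change (ψ g : Matrix (Fin 3) (Fin 3) F) ∈ K
    rw [scalar_eq_of_apply a fun v => (psiHom_mulVec g v).trans (ha v)]
    exact K.smul_mem (one_mem K) a
  have hZc : Z ≤ Subgroup.center (SG 1 F q) := by
    rintro g ⟨a, ha⟩
    rw [Subgroup.mem_center_iff]
    intro x
    refine Subtype.ext (Subtype.ext (LinearEquiv.ext fun v => ?_))
    rw [SG_mul_apply hF, SG_mul_apply hF, ha, ha, map_smul]
  have hd6 : Nat.gcd 3 (q + 1) ∣ c0 ∧ Nat.gcd c0 (q ^ 2 - 1) = Nat.gcd 3 (q + 1) := by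
    obtain ⟨r, hr⟩ : ∃ r, q = r + 1 := ⟨q - 1, by omega⟩
    have e1 : q ^ 2 - 1 = r * (r + 2) := by
      rw [hr, show (r + 1) ^ 2 = r * (r + 2) + 1 by ring, Nat.add_sub_cancel]
    have e2 : c0 = 1 + (r + 1) * r := by
      rw [hc0, hr, pow_two, ← Nat.mul_sub_one, Nat.add_sub_cancel, add_comm]
    have e3 : c0 + 2 * (r + 2) = 3 + r * (r + 2) + r + 2 := by rw [e2]; ring
    have hco : Nat.Coprime c0 r := by
      rw [e2]; exact (Nat.coprime_add_mul_right_left _ _ _).2 (Nat.coprime_one_left _)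
    have hg : Nat.gcd c0 (r + 2) = Nat.gcd 3 (r + 2) := by
      rw [← Nat.gcd_add_mul_right_left (r + 2) c0 2, e3,
        show 3 + r * (r + 2) + r + 2 = 3 + (r + 1) * (r + 2) by ring, Nat.gcd_add_mul_right_left]
    rw [e1, Nat.Coprime.gcd_mul_left_cancel_right (r + 2) hco.symm, hg]
    refine ⟨?_, by rw [hr]⟩
    rw [hr, ← hg]; exact Nat.gcd_dvd_left _ _
  have hFK : ∀ k : K, k ^ (q ^ 2 - 1) = 1 → k ∈ (⊥ : Subalgebra F K) := by
    intro k hk
    rw [Algebra.mem_bot]
    by_contra hne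
    have h21 : q ^ 2 - 1 ∣ q ^ 6 - 1 := Nat.pow_sub_one_dvd_pow_sub_one q (by norm_num)
    have hinj : Function.Injective (fun o : Option Fˣ =>
        (o.elim ⟨k, hk⟩ fun c => ⟨algebraMap F K c.1, by
          rw [← map_pow, ← hFc, FiniteField.pow_card_sub_one_eq_one _ c.ne_zero, map_one]⟩ :
          {x : K // x ^ (q ^ 2 - 1) = 1})) := by
      rintro (_ | a) (_ | b) h
      · rfl
      · exact absurd ⟨b.1, (congrArg Subtype.val h).symm⟩ hne
      · exact absurd ⟨a.1, congrArg Subtype.val h⟩ hne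
      · exact congrArg some (Units.ext ((algebraMap F K).injective (congrArg Subtype.val h)))
    have := Nat.card_le_card_of_injective _ hinj
    rw [hroots _ h21, Finite.card_option, Nat.card_units, hF.2] at this
    omega
  have hZcard : Nat.card Z = Nat.gcd 3 (q + 1) := by
    rw [← hroots _ (hd6.1.trans hc06)]
    refine Nat.card_eq_of_bijective (fun g : Z => ⟨toK ⟨g.1, hZC g.2⟩, ?_⟩) ⟨fun a b h =>
      Subtype.ext (congrArg (fun z : C => z.1) (htoK_inj (congrArg Subtype.val h))), fun k => ?_⟩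
    · refine Eq.trans (congrArg (toK ⟨g.1, hZC g.2⟩ ^ ·) hd6.2.symm) ?_
      rw [pow_gcd_eq_one]
      refine ⟨htoK _, ?_⟩
      obtain ⟨a, ha⟩ := Algebra.mem_bot.1 ((hZalg ⟨g.1, hZC g.2⟩).1 g.2)
      have ha0 : a ≠ 0 := by
        rintro rfl
        have := htoK ⟨g.1, hZC g.2⟩
        rw [← ha, map_zero, zero_pow (Nat.succ_ne_zero _)] at this
        exact zero_ne_one this
      rw [← ha, ← map_pow, ← hFc, FiniteField.pow_card_sub_one_eq_one _ ha0, map_one]
    · have hk : k.1 ^ Nat.gcd c0 (q ^ 2 - 1) = 1 := (congrArg (k.1 ^ ·) hd6.2).trans k.2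
      rw [pow_gcd_eq_one] at hk
      obtain ⟨g, hg⟩ := hofK k.1 hk.1
      exact ⟨⟨g.1, (hZalg g).2 (hg ▸ hFK k.1 hk.2)⟩, Subtype.ext hg⟩
  -- the normaliser
  let H : Subgroup (SG 1 F q) := (subalgebraNormalizer K).comap ψ
  have hval : ∀ (g : SG 1 F q), (ψ g : Matrix (Fin 3) (Fin 3) F) * (ψ g⁻¹ : Matrix (Fin 3) (Fin 3) F) = 1 ∧
      (ψ g⁻¹ : Matrix (Fin 3) (Fin 3) F) * (ψ g : Matrix (Fin 3) (Fin 3) F) = 1 := fun g => by
    rw [map_inv]; exact ⟨Units.mul_inv _, Units.inv_mul _⟩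
  have hmemH : ∀ g : SG 1 F q, g ∈ H ↔
      ∀ k : K, (ψ g : Matrix (Fin 3) (Fin 3) F) * Mx k * (ψ g⁻¹ : Matrix (Fin 3) (Fin 3) F) ∈ K := by
    intro g
    rw [Subgroup.mem_comap, MaxSub.mem_normalizer_iff_map_le, map_inv]
    exact ⟨fun h k => h _ k.2, fun h k hk => h ⟨k, hk⟩⟩
  have hCH : C ≤ H := by
    intro g hg
    rw [hmemH]
    exact fun k => mul_mem (mul_mem hg k.2) (C.inv_mem hg)
  -- TI
  have hTI : ∀ (g : SG 1 F q) (k : K), k ∉ (⊥ : Subalgebra F K) →
      (ψ g : Matrix (Fin 3) (Fin 3) F) * Mx k * (ψ g⁻¹ : Matrix (Fin 3) (Fin 3) F) ∈ K → g ∈ H := by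
    intro g k hk hgk
    let A := (ψ g : Matrix (Fin 3) (Fin 3) F)
    let B := (ψ g⁻¹ : Matrix (Fin 3) (Fin 3) F)
    let T : Subalgebra F K :=
      { carrier := {x | A * Mx x * B ∈ K}
        mul_mem' := fun {x y} hx hy => by
          change A * Mx (x * y) * B ∈ K
          rw [hMmul, show A * (Mx x * Mx y) * B = (A * Mx x * B) * (A * Mx y * B) by
            simp only [mul_assoc]; rw [← mul_assoc B A, (hval g).2, one_mul]]
          exact mul_mem hx hy
        add_mem' := fun {x y} hx hy => by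
          change A * (Mx x + Mx y) * B ∈ K
          rw [mul_add, add_mul]
          exact add_mem hx hy
        algebraMap_mem' := fun t => by
          change A * Mx (algebraMap F K t) * B ∈ K
          rw [show Mx (algebraMap F K t) = t • 1 from Algebra.algebraMap_eq_smul_one t, mul_smul_comm,
            mul_one, smul_mul_assoc, (hval g).1]
          exact K.smul_mem (one_mem K) t }
    have hT := hsimple T ⟨k, hgk, hk⟩
    rw [hmemH]
    intro x
    have : x ∈ T := hT ▸ Algebra.mem_top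
    exact this
  have hcentral : ∀ (g : SG 1 F q) (k : K), k ∉ (⊥ : Subalgebra F K) →
      (ψ g : Matrix (Fin 3) (Fin 3) F) * Mx k = Mx k * (ψ g : Matrix (Fin 3) (Fin 3) F) → g ∈ C := by
    intro g k hk hgk
    let A := (ψ g : Matrix (Fin 3) (Fin 3) F)
    let T : Subalgebra F K :=
      { carrier := {x | A * Mx x = Mx x * A}
        mul_mem' := fun {x y} hx hy => by
          change A * Mx (x * y) = Mx (x * y) * A
          rw [hMmul, ← mul_assoc, hx, mul_assoc, hy, mul_assoc]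
        add_mem' := fun {x y} hx hy => by
          change A * (Mx x + Mx y) = (Mx x + Mx y) * A
          rw [mul_add, add_mul]; exact congrArg₂ (· + ·) hx hy
        algebraMap_mem' := fun t => by
          change A * Mx (algebraMap F K t) = Mx (algebraMap F K t) * A
          rw [show Mx (algebraMap F K t) = t • 1 from Algebra.algebraMap_eq_smul_one t, mul_smul_comm,
            mul_one, smul_mul_assoc, one_mul] }
    have hT := hsimple T ⟨k, hgk, hk⟩
    obtain ⟨a, ha⟩ := hE (A *ᵥ e0)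
    change A ∈ K
    rw [show A = Mx a from Matrix.toLin'.injective (LinearMap.ext fun v => by
      obtain ⟨x, rfl⟩ := hE v
      have hx : A * Mx x = Mx x * A := (hT ▸ Algebra.mem_top : x ∈ T)
      rw [Matrix.toLin'_apply, Matrix.toLin'_apply, Matrix.mulVec_mulVec, hx, ← Matrix.mulVec_mulVec,
        ← ha, Matrix.mulVec_mulVec, Matrix.mulVec_mulVec, ← hMmul, ← hMmul, mul_comm])]
    exact a.2
  -- the Galois image
  have hval' : ∀ (h : H) (k : K), (ψ h.1 : Matrix (Fin 3) (Fin 3) F) * Mx k *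
      (ψ h.1⁻¹ : Matrix (Fin 3) (Fin 3) F) ∈ K := fun h => (hmemH _).1 h.2
  let χf : H → (K →ₐ[F] K) := fun h =>
    { toFun := fun k => ⟨_, hval' h k⟩
      map_one' := Subtype.ext (by
        change (ψ h.1 : Matrix (Fin 3) (Fin 3) F) * 1 * _ = 1
        rw [mul_one]; exact (hval h.1).1)
      map_mul' := fun x y => Subtype.ext (by
        change (ψ h.1 : Matrix (Fin 3) (Fin 3) F) * (Mx x * Mx y) * _ = _ * _
        change _ = ((ψ h.1 : Matrix (Fin 3) (Fin 3) F) * Mx x * _) * ((ψ h.1 : Matrix (Fin 3) (Fin 3) F) * Mx y * _)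
        simp only [mul_assoc]
        rw [← mul_assoc (ψ h.1⁻¹ : Matrix (Fin 3) (Fin 3) F), (hval h.1).2, one_mul])
      map_zero' := Subtype.ext (by
        change (ψ h.1 : Matrix (Fin 3) (Fin 3) F) * 0 * _ = 0
        rw [mul_zero, zero_mul])
      map_add' := fun x y => Subtype.ext (by
        change (ψ h.1 : Matrix (Fin 3) (Fin 3) F) * (Mx x + Mx y) * _ = _ + _
        rw [mul_add, add_mul])
      commutes' := fun t => Subtype.ext (by
        change (ψ h.1 : Matrix (Fin 3) (Fin 3) F) * Mx (algebraMap F K t) * _ = Mx (algebraMap F K t)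
        rw [show Mx (algebraMap F K t) = t • 1 from Algebra.algebraMap_eq_smul_one t, mul_smul_comm,
          mul_one, smul_mul_assoc, (hval h.1).1]) }
  let Φ : H →* Gal(K/F) :=
    { toFun := fun h => AlgEquiv.ofBijective (χf h)
        (Finite.injective_iff_bijective.1 (χf h).toRingHom.injective)
      map_one' := AlgEquiv.ext fun k => Subtype.ext (by
        change (ψ 1 : Matrix (Fin 3) (Fin 3) F) * Mx k * (ψ 1⁻¹ : Matrix (Fin 3) (Fin 3) F) = Mx k
        rw [inv_one, map_one, Units.val_one, one_mul, mul_one])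
      map_mul' := fun a b => AlgEquiv.ext fun k => Subtype.ext (by
        change (ψ (a.1 * b.1) : Matrix (Fin 3) (Fin 3) F) * Mx k * (ψ (a.1 * b.1)⁻¹ : Matrix (Fin 3) (Fin 3) F) =
          (ψ a.1 : Matrix (Fin 3) (Fin 3) F) * ((ψ b.1 : Matrix (Fin 3) (Fin 3) F) * Mx k *
            (ψ b.1⁻¹ : Matrix (Fin 3) (Fin 3) F)) * (ψ a.1⁻¹ : Matrix (Fin 3) (Fin 3) F)
        rw [_root_.mul_inv_rev, map_mul, map_mul, Units.val_mul, Units.val_mul]
        simp only [mul_assoc]) }
  have hΦ : ∀ (h : H) (k : K), Φ h k = k ↔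
      (ψ h.1 : Matrix (Fin 3) (Fin 3) F) * Mx k = Mx k * (ψ h.1 : Matrix (Fin 3) (Fin 3) F) := by
    intro h k
    constructor
    · intro e
      have e' : (ψ h.1 : Matrix (Fin 3) (Fin 3) F) * Mx k * (ψ h.1⁻¹ : Matrix (Fin 3) (Fin 3) F) = Mx k :=
        congrArg Subtype.val e
      calc _ = (ψ h.1 : Matrix (Fin 3) (Fin 3) F) * Mx k * ((ψ h.1⁻¹ : Matrix (Fin 3) (Fin 3) F) * (ψ h.1 : Matrix (Fin 3) (Fin 3) F)) := by
            rw [(hval h.1).2, mul_one]
        _ = _ := by rw [← mul_assoc, e']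
    · intro e
      refine Subtype.ext ?_
      change (ψ h.1 : Matrix (Fin 3) (Fin 3) F) * Mx k * _ = Mx k
      rw [e, mul_assoc, (hval h.1).1, mul_one]
  obtain ⟨k₁, hk₁c, hk₁⟩ : ∃ k : K, k ^ c0 = 1 ∧ k ∉ (⊥ : Subalgebra F K) := by
    by_contra hcon
    push Not at hcon
    have hle : C ≤ Z := fun g hg => (hZalg ⟨g, hg⟩).2 (hcon _ (htoK _))
    have h1 := Subgroup.card_le_of_le hle
    rw [hCcard, hZcard] at h1
    have h2 : Nat.gcd 3 (q + 1) ≤ 3 := Nat.le_of_dvd (by norm_num) (Nat.gcd_dvd_left _ _)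
    have h4 : q * 3 ≤ q ^ 2 := by rw [pow_two]; exact Nat.mul_le_mul_left q hq
    omega
  obtain ⟨g₁, hg₁⟩ := hofK k₁ hk₁c
  have hker : Φ.ker = C.subgroupOf H := by
    ext h
    rw [MonoidHom.mem_ker, Subgroup.mem_subgroupOf]
    constructor
    · intro e
      exact hcentral h.1 k₁ hk₁ ((hΦ h k₁).1 (by rw [e]; rfl))
    · intro hh
      refine AlgEquiv.ext fun k => (hΦ h k).2 ?_
      change Mx ⟨_, hh⟩ * Mx k = Mx k * Mx ⟨_, hh⟩
      rw [← hMmul, mul_comm, hMmul]
  have hGal : Nat.card (Gal(K/F)) = 3 := by rw [IsGalois.card_aut_eq_finrank, hK.finrank_eq]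
  have hrange : Nat.card Φ.range = 1 ∨ Nat.card Φ.range = 3 :=
    (Nat.dvd_prime Nat.prime_three).1 ((Subgroup.card_subgroup_dvd_card _).trans hGal.dvd)
  have hHmul : Nat.card H = Nat.card Φ.range * c0 := by
    rw [← hCcard, Subgroup.card_eq_card_quotient_mul_card_subgroup Φ.ker,
      Nat.card_congr (QuotientGroup.quotientKerEquivRange Φ).toEquiv, hker,
      Nat.card_congr (Subgroup.subgroupOfEquivOfLe hCH).toEquiv]
  have hperf : commutator (SG 1 F q) = ⊤ := by
    have h := suGL_commutator hF (n := 3) le_rfl (fun h2 => by omega)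
    rw [← range_psiHom, MonoidHom.range_eq_map, ← Subgroup.map_commutator] at h
    exact Subgroup.map_injective psiHom_injective h
  have hrange3 : Nat.card Φ.range = 3 := by
    refine hrange.resolve_left fun h1 => ?_
    have hHC : H ≤ C := by
      refine (Subgroup.eq_of_le_of_card_ge hCH ?_).ge
      rw [hHmul, h1, hCcard, one_mul]
    -- a prime
    obtain ⟨t, ht⟩ := hd6.1
    have ht3 : ¬ 3 ∣ t := by
      intro h3t
      by_cases hq3 : 3 ∣ q + 1
      · rw [Nat.gcd_eq_left hq3] at ht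
        obtain ⟨k, hk⟩ : ∃ k, q = 3 * k + 2 := ⟨(q + 1) / 3 - 1, by omega⟩
        have e9 : c0 = 9 * (k * k + k) + 3 := by
          rw [hc0, hk]
          zify [hk ▸ hqq]
          ring
        omega
      · have e1 : Nat.gcd 3 (q + 1) = 1 :=
          ((Nat.dvd_prime Nat.prime_three).1 (Nat.gcd_dvd_left 3 (q + 1))).resolve_right fun h =>
            hq3 (h ▸ Nat.gcd_dvd_right 3 (q + 1))
        rw [e1, one_mul] at ht
        have h3' : 3 ∣ q ^ 3 + 1 := hq31 ▸ Dvd.dvd.mul_left (ht ▸ h3t) (q + 1)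
        rcases (show q % 3 = 0 ∨ q % 3 = 1 from by omega) with h | h <;>
          (have := Nat.mod_eq_zero_of_dvd h3'; rw [Nat.add_mod, Nat.pow_mod, h] at this; norm_num at this)
    have ht2 : 2 ≤ t := by
      by_contra hlt
      have h2 : Nat.gcd 3 (q + 1) ≤ 3 := Nat.le_of_dvd (by norm_num) (Nat.gcd_dvd_left _ _)
      have h4 : q * 3 ≤ q ^ 2 := by rw [pow_two]; exact Nat.mul_le_mul_left q hq
      have : Nat.gcd 3 (q + 1) * t ≤ 3 * 1 := Nat.mul_le_mul h2 (by omega)
      omega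
    obtain ⟨r, hr, hrt⟩ := Nat.exists_prime_and_dvd (show t ≠ 1 by omega)
    haveI : Fact r.Prime := ⟨hr⟩
    have hrc : r ∣ c0 := hrt.trans (Dvd.intro_left _ ht.symm)
    have hr3 : r ≠ 3 := fun h => ht3 (h ▸ hrt)
    obtain ⟨s, hs⟩ : ∃ s, q = s + 1 := ⟨q - 1, by omega⟩
    have hec : c0 = 1 + (s + 1) * s := by
      rw [hc0, hs, pow_two, ← Nat.mul_sub_one, Nat.add_sub_cancel, add_comm]
    have hnq : ¬ r ∣ q := fun h => hr.ne_one (Nat.eq_one_of_dvd_coprimes
      (show Nat.Coprime c0 q by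
        rw [hec, hs]; exact (Nat.coprime_add_mul_left_left _ _ _).2 (Nat.coprime_one_left _)) hrc h)
    have hn21 : ¬ r ∣ q ^ 2 - 1 := fun h => by
      have := Nat.dvd_gcd hrc h
      rw [hd6.2] at this
      exact hr3 ((Nat.prime_dvd_prime_iff_eq hr Nat.prime_three).1 (this.trans (Nat.gcd_dvd_left _ _)))
    have hnq1 : ¬ r ∣ q + 1 := fun h => hn21 (h.trans ⟨s, by
      rw [hs, show (s + 1) ^ 2 = (s + 1 + 1) * s + 1 by ring, Nat.add_sub_cancel]⟩)
    haveI : Finite C := Subtype.finite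
    obtain ⟨Q⟩ : Nonempty (Sylow r C) := inferInstance
    have hQ : r ∣ Nat.card Q := Q.dvd_card_of_dvd_card (hCcard ▸ hrc)
    have hfac : (Nat.card (SG 1 F q)).factorization r = (Nat.card C).factorization r := by
      rw [card_SG_one hF, hCcard, hq31]
      have h0 : c0 ≠ 0 := Nat.succ_ne_zero _
      have h1 : q ^ 3 ≠ 0 := pow_ne_zero _ (by omega)
      have h2 : q ^ 2 - 1 ≠ 0 := fun h => hn21 (h ▸ dvd_zero r)
      rw [Nat.factorization_mul (mul_ne_zero h1 (mul_ne_zero (Nat.succ_ne_zero q) h0)) h2,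
        Nat.factorization_mul h1 (mul_ne_zero (Nat.succ_ne_zero q) h0),
        Nat.factorization_mul (Nat.succ_ne_zero q) h0]
      simp only [Finsupp.add_apply]
      rw [Nat.factorization_eq_zero_of_not_dvd hn21, Nat.factorization_eq_zero_of_not_dvd hnq1,
        Nat.factorization_eq_zero_of_not_dvd fun h => hnq (hr.dvd_of_dvd_pow h)]
      omega
    let P : Sylow r (SG 1 F q) := Sylow.ofCard ((Q : Subgroup C).map C.subtype) (by
      rw [Subgroup.card_map_of_injective C.subtype_injective, Q.card_eq_multiplicity, hfac])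
    refine transfer_absurd hF hperf P (fun hbot => ?_) ?_
    · have h1' : Nat.card P = 1 := Subgroup.card_eq_one.2 hbot
      rw [show Nat.card P = Nat.card Q from Subgroup.card_map_of_injective C.subtype_injective] at h1'
      exact hr.ne_one (Nat.dvd_one.1 (h1' ▸ hQ))
    · intro n hn
      have hnC : n ∈ C := by
        obtain ⟨x, hx⟩ := exists_prime_orderOf_dvd_card' (G := (Q : Subgroup C)) r hQ
        have hxP : (x.1.1 : SG 1 F q) ∈ (P : Subgroup (SG 1 F q)) := ⟨x.1, x.2, rfl⟩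
        obtain ⟨y, -, hy⟩ := (Subgroup.mem_normalizer_iff.1 hn _).1 hxP
        refine hHC (hTI n (toK x.1) ?_ ?_)
        · intro hb
          have hxZ : x.1.1 ∈ Z := (hZalg x.1).2 hb
          have h1 := Subgroup.orderOf_dvd_natCard Z hxZ
          rw [Subgroup.orderOf_coe, Subgroup.orderOf_coe, hx, hZcard] at h1
          exact hr3 ((Nat.prime_dvd_prime_iff_eq hr Nat.prime_three).1 (h1.trans (Nat.gcd_dvd_left _ _)))
        · change (ψ n : Matrix (Fin 3) (Fin 3) F) * (ψ x.1.1 : Matrix (Fin 3) (Fin 3) F) * _ ∈ K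
          rw [← Units.val_mul, ← Units.val_mul, ← map_mul, ← map_mul,
            show n * x.1.1 * n⁻¹ = y.1 from hy.symm]
          exact y.2
      rintro _ ⟨z, -, rfl⟩
      apply psiHom_injective
      rw [map_mul, map_mul]
      refine Units.ext ?_
      change Mx ⟨_, z.2⟩ * Mx ⟨_, hnC⟩ = Mx ⟨_, hnC⟩ * Mx ⟨_, z.2⟩
      rw [← hMmul, mul_comm, hMmul]
  have hHcard : Nat.card H = 3 * c0 := by rw [hHmul, hrange3]
  have hsemi : ∀ g : SG 1 F q, g ∉ H → ∀ c ∈ C, g⁻¹ * c * g ∈ H → c ∈ Z := by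
    intro g hg c hc hcH
    set c' := g⁻¹ * c * g with hc'
    by_cases hc'C : c' ∈ C
    · by_contra hcZ
      have hk : toK ⟨c', hc'C⟩ ∉ (⊥ : Subalgebra F K) := by
        intro hb
        have hz : c' ∈ Z := (hZalg ⟨c', hc'C⟩).2 hb
        have e : c = g * c' * g⁻¹ := by rw [hc']; group
        rw [Subgroup.mem_center_iff.1 (hZc hz) g, mul_assoc, mul_inv_cancel, mul_one] at e
        exact hcZ (e ▸ hz)
      refine hg (hTI g _ hk ?_)
      change (ψ g : Matrix (Fin 3) (Fin 3) F) * (ψ c' : Matrix (Fin 3) (Fin 3) F) * _ ∈ K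
      rw [← Units.val_mul, ← Units.val_mul, ← map_mul, ← map_mul, show g * c' * g⁻¹ = c by rw [hc']; group]
      exact hc
    · -- an outer element
      set σ := Φ ⟨c', hcH⟩ with hσ
      have hσ1 : σ ≠ 1 := fun h => hc'C (by
        have : (⟨c', hcH⟩ : H) ∈ C.subgroupOf H := hker ▸ MonoidHom.mem_ker.2 h
        exact this)
      have hσ3 : σ ^ 3 = 1 := orderOf_dvd_iff_pow_eq_one.1 ((orderOf_dvd_natCard σ).trans hGal.dvd)
      have hc3 : c' ^ 3 ∈ C := by
        have : (⟨c', hcH⟩ : H) ^ 3 ∈ C.subgroupOf H := hker ▸ MonoidHom.mem_ker.2 (by rw [map_pow]; exact hσ3)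
        exact this
      have hfix : σ (toK ⟨c' ^ 3, hc3⟩) = toK ⟨c' ^ 3, hc3⟩ := (hΦ ⟨c', hcH⟩ _).2 (by
        change (ψ c' : Matrix (Fin 3) (Fin 3) F) * (ψ (c' ^ 3) : Matrix (Fin 3) (Fin 3) F) = _ * _
        rw [← Units.val_mul, ← map_mul, ← pow_succ', pow_succ, map_mul, Units.val_mul])
      have hbot : toK ⟨c' ^ 3, hc3⟩ ∈ (⊥ : Subalgebra F K) := by
        rw [Algebra.mem_bot]
        refine (IsGalois.mem_range_algebraMap_iff_fixed (F := F) (E := K) _).2 fun τ => ?_
        haveI : Fact (Nat.Prime 3) := ⟨Nat.prime_three⟩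
        obtain ⟨i, rfl⟩ : τ ∈ Submonoid.powers σ :=
          mem_powers_of_prime_card hGal hσ1
        change (σ ^ i) _ = _
        induction i with
        | zero => rfl
        | succ i ih => rw [pow_succ, AlgEquiv.mul_apply, hfix, ih]
      have hz : c' ^ 3 ∈ Z := (hZalg ⟨_, hc3⟩).2 hbot
      have hcz : c ^ 3 ∈ Z := by
        have e : c ^ 3 = g * c' ^ 3 * g⁻¹ := by rw [← conj_pow, hc']; group
        rw [Subgroup.mem_center_iff.1 (hZc hz) g, mul_assoc, mul_inv_cancel, mul_one] at e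
        rw [e]; exact hz
      -- the order of `c` modulo `Z` is prime to three
      have hcc : (toK ⟨c, hc⟩) ^ (3 * (q ^ 2 - 1)) = 1 := by
        obtain ⟨a, ha⟩ := Algebra.mem_bot.1 ((hZalg ⟨c ^ 3, C.pow_mem hc 3⟩).1 hcz)
        have e : toK ⟨c ^ 3, C.pow_mem hc 3⟩ = toK ⟨c, hc⟩ ^ 3 := Subtype.ext (by
          change (ψ (c ^ 3) : Matrix (Fin 3) (Fin 3) F) = _
          rw [map_pow, Units.val_pow_eq_pow_val]
          rfl)
        have ha0 : a ≠ 0 := by
          rintro rfl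
          have := htoK ⟨c ^ 3, C.pow_mem hc 3⟩
          rw [← ha, map_zero, zero_pow (Nat.succ_ne_zero _)] at this
          exact zero_ne_one this
        rw [pow_mul, ← e, ← ha, ← map_pow, ← hFc, FiniteField.pow_card_sub_one_eq_one _ ha0, map_one]
      refine (hZalg ⟨c, hc⟩).2 (hFK _ ?_)
      have h9 : Nat.gcd c0 (3 * (q ^ 2 - 1)) ∣ q ^ 2 - 1 := by
        by_cases hq3 : 3 ∣ q + 1
        · have h3c : Nat.gcd c0 9 ∣ 3 := by
            obtain ⟨k, hk⟩ : ∃ k, q = 3 * k + 2 := ⟨(q + 1) / 3 - 1, by omega⟩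
            have e9 : c0 = 3 + 9 * (k * k + k) := by
              rw [hc0, hk]
              zify [hk ▸ hqq]
              ring
            rw [e9, Nat.gcd_add_mul_left_left]
            norm_num
          have hdiv : Nat.gcd c0 (3 * (q ^ 2 - 1)) ∣ Nat.gcd c0 9 := by
            refine Nat.dvd_gcd (Nat.gcd_dvd_left _ _) ((Nat.gcd_mul_right_dvd_mul_gcd _ _ _).trans ?_)
            rw [hd6.2, Nat.gcd_eq_left hq3, show (9 : ℕ) = 3 * 3 from rfl]
            exact Nat.mul_dvd_mul_right (Nat.gcd_dvd_right _ _) _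
          refine hdiv.trans (h3c.trans (hq3.trans ⟨q - 1, ?_⟩))
          simpa using Nat.sq_sub_sq q 1
        · have : Nat.Coprime c0 3 := by
            rw [Nat.coprime_comm, Nat.prime_three.coprime_iff_not_dvd]
            intro hd
            have h3' : 3 ∣ q ^ 3 + 1 := hq31 ▸ Dvd.dvd.mul_left hd (q + 1)
            rcases (show q % 3 = 0 ∨ q % 3 = 1 from by omega) with h | h <;>
              (have := Nat.mod_eq_zero_of_dvd h3'; rw [Nat.add_mod, Nat.pow_mod, h] at this; norm_num at this)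
          rw [Nat.Coprime.gcd_mul_left_cancel_right _ this.symm]
          exact Nat.gcd_dvd_right _ _
      exact orderOf_dvd_iff_pow_eq_one.1 ((orderOf_dvd_iff_pow_eq_one.2
        (pow_gcd_eq_one.2 ⟨htoK ⟨c, hc⟩, hcc⟩)).trans h9)
  have hno : ∃ c ∈ C, ∀ v, v ≠ 0 → ∀ a : F, c.1.1 v ≠ a • v := by
    refine ⟨g₁.1, g₁.2, fun v hv a h => hk₁ (Algebra.mem_bot.2 ⟨a, ?_⟩)⟩
    rw [← hg₁]
    refine (sub_eq_zero.1 (hKinj (toK g₁ - algebraMap F K a) v hv ?_)).symm
    change (Mx (toK g₁) - Mx (algebraMap F K a)) *ᵥ v = 0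
    rw [Matrix.sub_mulVec, hMF, sub_eq_zero, ← h]
    exact psiHom_mulVec g₁.1 v
  have hcC : Subgroup.center (SG 1 F q) ≤ C := fun z hz => hcentral z k₁ hk₁ (by
    rw [← hg₁]
    change (ψ z : Matrix (Fin 3) (Fin 3) F) * (ψ g₁.1 : Matrix (Fin 3) (Fin 3) F) = _ * _
    rw [← Units.val_mul, ← map_mul, ← Subgroup.mem_center_iff.1 hz g₁.1, map_mul, Units.val_mul])
  have hmap : subalgebraNormalizer K ⊓ suGL 3 F q = H.map ψ := by
    rw [← range_psiHom, Subgroup.map_comap_eq, inf_comm]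
  have hHtop : H ≠ ⊤ := by
    intro h
    refine suGL_not_le_subalgebraNormalizer hF le_rfl (by norm_num) hK ?_
    rw [← range_psiHom]
    rintro _ ⟨g, rfl⟩
    have hgH : g ∈ H := h ▸ Subgroup.mem_top g
    exact hgH
  refine ⟨lt_of_le_not_ge inf_le_right fun hle => ?_, fun M hM hMS => ?_⟩
  · exact suGL_not_le_subalgebraNormalizer hF le_rfl (by norm_num) hK (hle.trans inf_le_left)
  have hHM : H ≤ M.comap ψ := fun g hg => hM (hmap.ge ⟨g, hg, rfl⟩)
  by_cases htop : M.comap ψ = ⊤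
  · refine Or.inr (le_antisymm hMS ?_)
    change suGL 3 F q ≤ M
    rw [← range_psiHom]
    rintro _ ⟨g, rfl⟩
    have hgM : g ∈ M.comap ψ := htop ▸ Subgroup.mem_top g
    exact hgM
  · left
    have e := core_maximal hF hq h3 h5 C H hCH hCcard hHcard Z hZC hZc hcC hZcard
      (fun z hz => by obtain ⟨a, ha⟩ := hz; exact fun v => ⟨a, ha v⟩) hsemi hno _ hHM htop
    change M = subalgebraNormalizer K ⊓ suGL 3 F q
    rw [hmap, ← e, Subgroup.map_comap_eq_self (le_of_le_of_eq hMS (range_psiHom (F := F) (q := q)).symm)]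

end Cfsg.Agent.SUGeo
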