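import Cfsg.Agent.SUGeo.Root
import Cfsg.Agent.SUGeo.Reducible
import Cfsg.Agent.SUGeo.PairGen
import Cfsg.Agent.GeoClasses.UnitSubfield

/-!
Subfield groups of odd prime index in dimension three.
-/

set_option autoImplicit false
set_option linter.unusedSectionVars false
set_option linter.style.haveILetI false

namespace Cfsg.Agent.SUGeo

open Cfsg.Agent.Classical.U Cfsg.Agent.MinU Cfsg.Agent.MinU.Three Cfsg.Geo Cfsg.Agent.GeoClasses
open Cfsg.Agent.MaxSub.SubfieldMax (lo up)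
open Cfsg.Agent.PSLTwoSub (mk22)
open Cfsg.Agent.ClassicalMax (suGL suGL_commutator suGL_not_le_subfieldSubgroup)
open scoped MatrixGroups Matrix

universe u

variable {F : Type u} [Field F] {q : ℕ}

section
variable (hF : SqField F q)
include hF

/-- The part of the subfield fixed by `x ↦ x ^ q` has square-root order. -/
theorem card_comap_sq {F₀ : Subfield F} {σ : F} (hσ : σ ∈ F₀) (hne : σ ^ q ≠ σ) :
    Nat.card (F₀.comap (GeoClasses.fixField hF).subtype) ^ 2 = Nat.card F₀ := by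
  rw [sq, ← Nat.card_prod]
  let f : (F₀.comap (GeoClasses.fixField hF).subtype) × (F₀.comap (GeoClasses.fixField hF).subtype) →
      F₀ := fun ab => ⟨((ab.1.1 : F)) + (ab.2.1 : F) * σ, add_mem ab.1.2 (mul_mem ab.2.2 hσ)⟩
  refine Nat.card_congr (Equiv.ofBijective f ⟨?_, ?_⟩)
  · rintro ⟨⟨⟨a, ha⟩, ha0⟩, ⟨⟨b, hb⟩, hb0⟩⟩ ⟨⟨⟨a', ha'⟩, ha0'⟩, ⟨⟨b', hb'⟩, hb0'⟩⟩ h
    have h1 : a + b * σ = a' + b' * σ := congrArg Subtype.val h
    have h2 := congrArg (fun x : F => x ^ q) h1
    simp only [hF.add_pow, mul_pow, (GeoClasses.mem_fixField hF).1 ha,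
      (GeoClasses.mem_fixField hF).1 hb, (GeoClasses.mem_fixField hF).1 ha',
      (GeoClasses.mem_fixField hF).1 hb'] at h2
    have hbb : b = b' := by
      have : (b - b') * (σ - σ ^ q) = 0 := by linear_combination h1 - h2
      exact sub_eq_zero.1 ((mul_eq_zero.1 this).resolve_right (sub_ne_zero.2 (Ne.symm hne)))
    subst hbb
    obtain rfl : a = a' := add_right_cancel h1
    rfl
  · rintro ⟨z, hz⟩
    set b := (z - z ^ q) / (σ - σ ^ q) with hb
    have hbF : b ∈ F₀ := div_mem (sub_mem hz (pow_mem hz q)) (sub_mem hσ (pow_mem hσ q))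
    have hbq : b ^ q = b := by
      rw [hb, div_pow, hF.sub_pow, hF.sub_pow, hF.pow_pow, hF.pow_pow, ← neg_div_neg_eq]; simp
    have haq : (z - b * σ) ^ q = z - b * σ := by
      rw [hF.sub_pow, mul_pow, hbq]
      have h3 : b * (σ - σ ^ q) = z - z ^ q :=
        div_mul_cancel₀ _ (sub_ne_zero.2 (Ne.symm hne))
      linear_combination h3
    exact ⟨(⟨⟨_, haq⟩, sub_mem hz (mul_mem hbF hσ)⟩, ⟨⟨b, hbq⟩, hbF⟩),
      Subtype.ext (sub_add_cancel _ _)⟩

variable {F₀ : Subfield F} {R : Set (Fin (1 + 2) → F)} (hU : RatU q F₀ R)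
  {M : Subgroup (UG (1 + 2) F q)}
  (hK : ∀ (v y : Fin (1 + 2) → F) (a : F) (h : UniCond q v y a), v ∈ R → y ∈ R → a ∈ F₀ →
    uni hF h ∈ M)
include hU hK

/-- A centre with rational parameters off a rational one: rational norm, or all root elements. -/
theorem norm_mem_or_all [Fintype F]
    (hmid : ∀ L : Subfield (GeoClasses.fixField hF),
      F₀.comap (GeoClasses.fixField hF).subtype ≤ L →
      L = F₀.comap (GeoClasses.fixField hF).subtype ∨ L = ⊤)
    (hq₀ : Nat.card (F₀.comap (GeoClasses.fixField hF).subtype) ≠ 2)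
    (hfour : ∀ t : GeoClasses.fixField hF,
      t ^ Nat.card (F₀.comap (GeoClasses.fixField hF).subtype) ^ 4 = t →
      t ∈ F₀.comap (GeoClasses.fixField hF).subtype)
    {δ : F} (hδ : δ ∈ F₀) (hδ0 : δ ≠ 0) (hδq : δ ^ q = -δ)
    {v : Fin (1 + 2) → F} (hv : v ∈ R) (hvv : herm q v v = 0)
    {x : Fin (1 + 2) → F} (hxx : herm q x x = 0)
    (hxM : ∀ c ∈ F₀, c ^ q = -c → c ∈ trvParams hF M hxx) :
    herm q v x * herm q v x ^ q ∈ F₀ ∨ ∀ (c : F) (h : TrvCond q v c), trv hF h ∈ M := by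
  classical
  by_cases hσ : herm q v x * herm q v x ^ q ∈ F₀
  · exact Or.inl hσ
  refine Or.inr ?_
  haveI : Fintype (GeoClasses.fixField hF) := Fintype.ofFinite _
  set ρ := herm q v x with hρ
  have hρ0 : ρ ≠ 0 := fun h => hσ (by rw [h, zero_mul]; exact zero_mem _)
  set t := (ρ⁻¹) ^ q with ht
  set qq := t • x with hqq
  have hqqq : herm q qq qq = 0 := by rw [hqq, herm_smul_left, herm_smul_right, hxx]; simp
  have hpq : herm q v qq = 1 := by
    rw [hqq, herm_smul_right, ht, hF.pow_pow, inv_mul_cancel₀ hρ0]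
  have hqp := eq_one_of_fixed_pair hF hpq
  have hNfix : (ρ * ρ ^ q) ^ q = ρ * ρ ^ q := by rw [mul_pow, hF.pow_pow, mul_comm]
  have hδ2 : (δ * δ) ^ q = δ * δ := by rw [mul_pow, hδq, neg_mul_neg]
  have hqM : ∀ c ∈ F₀, c ^ q = -c → ρ * ρ ^ q * c ∈ trvParams hF M hqqq := by
    intro c hc hcq
    have e : t⁻¹ • qq = x := by
      rw [hqq, inv_smul_smul₀ (pow_ne_zero _ (inv_ne_zero hρ0))]
    have h1 := smul_mem_trvParams hF hqqq (a := t⁻¹) (by rw [e]; exact hxx)
      (trvParams_congr hF e.symm (hxM c hc hcq))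
    convert h1 using 1
    rw [ht, inv_pow, inv_inv, hF.pow_pow]
    ring
  let Φ : SL(2, GeoClasses.fixField hF) → (Fin (1 + 2) → F) → (Fin (1 + 2) → F) := fun g w => w +
    (herm q w qq * ((g.1 0 0 : F) - 1) + herm q w v / δ * (g.1 0 1 : F)) • v +
    ((herm q w qq * (g.1 1 0 : F) + herm q w v / δ * ((g.1 1 1 : F) - 1)) * δ) • qq
  let N : Submonoid SL(2, GeoClasses.fixField hF) :=
    { carrier := {g | ∃ h ∈ M, ∀ w, h.1 w = Φ g w}
      one_mem' := ⟨1, one_mem M, fun w => by simp [Φ]⟩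
      mul_mem' := by
        rintro a b ⟨h, hh, e⟩ ⟨k, hk, f⟩
        refine ⟨h * k, mul_mem hh hk, fun w => ?_⟩
        rw [Subgroup.coe_mul, LinearEquiv.mul_apply, f, e]
        simp only [Φ, herm_add_left, herm_smul_left, hvv, hqqq, hpq, hqp,
          Matrix.SpecialLinearGroup.coe_mul, Matrix.mul_apply, Fin.sum_univ_two, Subfield.coe_add,
          Subfield.coe_mul]
        match_scalars <;> field_simp <;> ring }
  let N' : Subgroup SL(2, GeoClasses.fixField hF) :=
    { N with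
      inv_mem' := fun {g} hg => by
        rw [inv_eq_iff_eq_inv.2 (show g = (g ^ (orderOf g - 1))⁻¹ from eq_inv_of_mul_eq_one_left (by
          rw [← pow_succ', Nat.sub_add_cancel (orderOf_pos g), pow_orderOf_eq_one]))]
        exact N.pow_mem hg _ }
  have hN : N' = ⊤ := by
    refine eq_top_of_pair _ hmid hq₀ hfour N'
      (l := (⟨ρ * ρ ^ q, hNfix⟩ : GeoClasses.fixField hF))
      (m := (⟨δ * δ, hδ2⟩ : GeoClasses.fixField hF))
      (fun h => mul_ne_zero hρ0 (pow_ne_zero _ hρ0) (congrArg Subtype.val h))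
      (fun h => mul_ne_zero hδ0 hδ0 (congrArg Subtype.val h)) ?_ ?_ ?_
    · intro h
      apply hσ
      change ρ * ρ ^ q * (δ * δ) ∈ F₀ at h
      have := div_mem h (mul_mem hδ hδ)
      rwa [mul_div_cancel_right₀ _ (mul_ne_zero hδ0 hδ0)] at this
    · rintro ⟨a, haf⟩ ha
      change a ∈ F₀ at ha
      obtain ⟨ht', htM⟩ := hqM (δ * a) (mul_mem hδ ha)
        (by rw [mul_pow, hδq, (GeoClasses.mem_fixField hF).1 haf]; ring)
      exact ⟨_, htM, fun w => by rw [trv_apply]; simp [Φ, lo]; module⟩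
    · rintro ⟨a, haf⟩ ha
      change a ∈ F₀ at ha
      obtain ⟨ht', htM⟩ := RatU.rat_param hF hU hK hv hvv (mul_mem hδ ha)
        (by rw [mul_pow, hδq, (GeoClasses.mem_fixField hF).1 haf]; ring)
      exact ⟨_, htM, fun w => by
        rw [trv_apply]; simp [Φ, up]; match_scalars <;> field_simp⟩
  intro c h
  have hcδ : (δ * c) ^ q = δ * c := by rw [mul_pow, hδq, h.2, neg_mul_neg]
  obtain ⟨k, hk, e⟩ : up (⟨δ * c, hcδ⟩ : GeoClasses.fixField hF) ∈ N' := by rw [hN]; trivial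
  convert hk using 1
  refine Subtype.ext (LinearEquiv.ext fun w => ?_)
  rw [trv_apply, e]
  simp [Φ, up]
  field_simp

omit hK in
/-- A rational vector and an isotropic companion. -/
theorem exists_iso_companion {v f z : Fin (1 + 2) → F} (hv : v ∈ R) (hf : f ∈ R) (hz : z ∈ R)
    (hvv : herm q v v = 0) (hff : herm q f f = 0) (hvf : herm q v f = 1) :
    ∃ a ∈ F₀, ∃ b ∈ F₀, ∃ w ∈ R, herm q w w = 0 ∧ herm q w v = 1 ∧ z = a • v + b • f + w := by
  have hfv := eq_one_of_fixed_pair hF hvf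
  set e := z - herm q z v • f - herm q z f • v with he
  have heR : e ∈ R := hU.set.sub (hU.set.sub hz (hU.set.smul (hU.form hz hv) hf))
    (hU.set.smul (hU.form hz hf) hv)
  have hev : herm q e v = 0 := by
    simp [he, herm_sub_left, herm_smul_left, hvv, hfv]
  have hef : herm q e f = 0 := by
    simp [he, herm_sub_left, herm_smul_left, hff, hvf]
  have hve : herm q v e = 0 := by rw [← hF.herm_symm, hev, zero_pow hF.q_ne_zero]
  have hfe : herm q f e = 0 := by rw [← hF.herm_symm, hef, zero_pow hF.q_ne_zero]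
  obtain ⟨τ, hτ, hτ'⟩ := RatU.exists_trace hF hU
  set s := -(τ * herm q e e) with hs
  have hsF : s ∈ F₀ := neg_mem (mul_mem hτ (hU.form heR heR))
  refine ⟨herm q z f - s, sub_mem (hU.form hz hf) hsF, herm q z v - 1,
    sub_mem (hU.form hz hv) (one_mem _), f + e + s • v,
    hU.set.add (hU.set.add hf heR) (hU.set.smul hsF hv), ?_, ?_, ?_⟩
  · simp only [herm_add_left, hF.herm_add_right, herm_smul_left, herm_smul_right, hff, hvv, hfe,
      hef, hfv, hvf, hev, hve]
    rw [hs, hF.neg_pow, mul_pow, hF.herm_symm]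
    linear_combination -(herm q e e) * hτ'
  · simp [herm_add_left, herm_smul_left, hfv, hev, hvv]
  · rw [he]; module

omit hK in
/-- Rational norms at all rational centres give a rational multiple. -/
theorem exists_rat_of_norms [Fintype F] (hsq : ∀ A : F, A ^ q = A → A ^ 2 ∈ F₀ → A ∈ F₀)
    (hquad : ∀ A : F, (∃ s ∈ F₀, ∃ p ∈ F₀, A * A - s * A + p = 0) → A ∈ F₀)
    {δ : F} (hδ : δ ∈ F₀) (hδ0 : δ ≠ 0) (hδq : δ ^ q = -δ)
    {x : Fin (1 + 2) → F} (hx : x ≠ 0)
    (hN : ∀ v ∈ R, herm q v v = 0 → herm q v x * herm q v x ^ q ∈ F₀) :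
    ∃ κ : F, κ ≠ 0 ∧ κ • x ∈ R := by
  obtain ⟨v, hv, hvv, hv0, hvx⟩ := RatU.exists_iso_not_orth hF hU (by norm_num) hx
  obtain ⟨f, hf, hff, hvf⟩ := RatU.exists_iso_partner hF hU hv hv0 hvv
  set ρ := herm q v x with hρ
  refine ⟨ρ⁻¹ ^ q, pow_ne_zero _ (inv_ne_zero hvx), RatU.desc hF hU fun z hz => ?_⟩
  rw [herm_smul_right, hF.pow_pow]
  have key : ∀ w ∈ R, herm q w w = 0 → herm q w v = 1 → ρ⁻¹ * herm q w x ∈ F₀ := by
    intro w hw hww hwv
    set A := ρ⁻¹ * herm q w x with hA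
    have hNA : A * A ^ q ∈ F₀ := by
      have h1 := div_mem (hN w hw hww) (hN v hv hvv)
      convert h1 using 1
      rw [← hρ, hA, mul_pow, inv_pow, div_eq_mul_inv, mul_inv]
      ring
    have hvw := eq_one_of_fixed_pair hF hwv
    have hs := hN (w + δ • v) (hU.set.add hw (hU.set.smul hδ hv)) (by
      simp [herm_add_left, hF.herm_add_right, herm_smul_left, herm_smul_right, hww, hvv, hwv, hvw,
        hδq])
    rw [herm_add_left, herm_smul_left] at hs
    have h2 := div_mem hs (hN v hv hvv)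
    have e : (herm q w x + δ * ρ) * (herm q w x + δ * ρ) ^ q / (ρ * ρ ^ q) =
        (A + δ) * (A + δ) ^ q := by
      rw [hA, hF.add_pow, hF.add_pow, mul_pow, mul_pow, inv_pow]
      have := pow_ne_zero q hvx
      field_simp
    rw [← hρ] at h2
    rw [e, hF.add_pow, hδq] at h2
    -- the difference is rational
    have hd : A ^ q - A ∈ F₀ := by
      have h3 := div_mem (add_mem (sub_mem h2 hNA) (mul_mem hδ hδ)) hδ
      convert h3 using 1
      field_simp
      ring
    refine hquad A ⟨-(A ^ q - A), neg_mem hd, -(A * A ^ q), neg_mem hNA, ?_⟩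
    ring
  obtain ⟨a, ha, b, hb, w, hw, hww, hwv, hz'⟩ := exists_iso_companion hF hU hv hf hz hvv hff hvf
  rw [hz', herm_add_left, herm_add_left, herm_smul_left, herm_smul_left, ← hρ]
  have e : ρ⁻¹ * (a * ρ + b * herm q f x + herm q w x) =
      a + b * (ρ⁻¹ * herm q f x) + ρ⁻¹ * herm q w x := by
    field_simp
  rw [e]
  exact add_mem (add_mem ha (mul_mem hb (key f hf hff (eq_one_of_fixed_pair hF hvf))))
    (key w hw hww hwv)

omit hK in
/-- An isometry with rational images of rational isotropic points has a uniform multiplier. -/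
theorem exists_uniform [Finite F] {δ : F} (hδ : δ ∈ F₀) (hδ0 : δ ≠ 0) (hδq : δ ^ q = -δ)
    {g : UG (1 + 2) F q}
    (h : ∀ v ∈ R, herm q v v = 0 → ∃ κ : F, κ • g.1 v ∈ R ∧ κ ≠ 0) :
    ∃ κ : F, κ ≠ 0 ∧ ∀ y ∈ R, κ • g.1 y ∈ R := by
  obtain ⟨v, hv, hv0, hvv, -⟩ :=
    RatU.exists_iso_perp hF hU (k := 0) (by norm_num) ![] (fun i => i.elim0)
  obtain ⟨f, hf, hff, hvf⟩ := RatU.exists_iso_partner hF hU hv hv0 hvv
  obtain ⟨κ, hκ, hκ0⟩ := h v hv hvv
  have key : ∀ w ∈ R, herm q w w = 0 → herm q w v = 1 → κ • g.1 w ∈ R := by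
    intro w hw hww hwv
    have hvw := eq_one_of_fixed_pair hF hwv
    obtain ⟨μ, hμ, hμ0⟩ := h w hw hww
    obtain ⟨ν, hν, hν0⟩ := h (w + δ • v) (hU.set.add hw (hU.set.smul hδ hv)) (by
      simp [herm_add_left, hF.herm_add_right, herm_smul_left, herm_smul_right, hww, hvv, hwv, hvw,
        hδq])
    have hh : ∀ {a b : F} {x y : Fin (1 + 2) → F}, a • g.1 x ∈ R → b • g.1 y ∈ R →
        a * b ^ q * herm q x y ∈ F₀ := fun {a b x y} h1 h2 => by
      have := hU.form h1 h2
      rwa [herm_smul_left, herm_smul_right, UG_app, ← mul_assoc] at this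
    have h1 := hh hκ hμ
    have h2 := hh hν hμ
    rw [hvw, mul_one] at h1
    rw [herm_add_left, herm_smul_left, hww, hvw, zero_add, mul_one] at h2
    have h3 : ν / κ ∈ F₀ := by
      have := div_mem h2 (mul_mem hδ h1)
      convert this using 1
      field_simp
    have h4 := hh hν hκ
    rw [herm_add_left, herm_smul_left, hwv, hvv, mul_zero, add_zero, mul_one] at h4
    have h5 := hh hμ hκ
    rw [hwv, mul_one] at h5
    have h6 : μ / κ ∈ F₀ := by
      have := mul_mem (div_mem h5 h4) h3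
      convert this using 1
      field_simp
    have := hU.set.smul (inv_mem h6) hμ
    rwa [smul_smul, inv_div, div_mul_cancel₀ _ hμ0] at this
  refine ⟨κ, hκ0, fun z hz => ?_⟩
  obtain ⟨a, ha, b, hb, w, hw, hww, hwv, rfl⟩ := exists_iso_companion hF hU hv hf hz hvv hff hvf
  rw [map_add, map_add, map_smul, map_smul, smul_add, smul_add, smul_comm κ a, smul_comm κ b]
  exact hU.set.add (hU.set.add (hU.set.smul ha hκ)
    (hU.set.smul hb (key f hf hff (eq_one_of_fixed_pair hF hvf)))) (key w hw hww hwv)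

/-- An irreducibility: no fixed isotropic point. -/
theorem rat_no_fixed_point [Finite F] {X : Subgroup (SG 1 F q)}
    (hXM : X.map (SUG (1 + 2) F q).subtype = M) {δ : F} (hδ : δ ∈ F₀) (hδ0 : δ ≠ 0)
    (hδq : δ ^ q = -δ) {v : Fin (1 + 2) → F} (hv : v ∈ R) (hv0 : v ≠ 0) (hvv : herm q v v = 0) :
    ¬ ∀ x ∈ X, x.1.1 v ∈ Submodule.span F {v} := by
  intro h
  obtain ⟨f, hf, hff, hvf⟩ := RatU.exists_iso_partner hF hU hv hv0 hvv
  obtain ⟨ht, htM⟩ := RatU.rat_param hF hU hK hf hff hδ hδq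
  rw [← hXM] at htM
  obtain ⟨x, hx, e⟩ := htM
  obtain ⟨a, ha⟩ := Submodule.mem_span_singleton.1 (h x hx)
  rw [show x.1 = trv hF ht from e, trv_apply, hvf, mul_one] at ha
  have h1 := congrArg (fun w => herm q w v) ha
  simp [herm_add_left, herm_smul_left, hvv, eq_one_of_fixed_pair hF hvf] at h1
  exact hδ0 h1.symm

/-- An irreducibility: no fixed non-isotropic point. -/
theorem rat_no_fixed_pole [Finite F] {X : Subgroup (SG 1 F q)}
    (hXM : X.map (SUG (1 + 2) F q).subtype = M) {δ : F} (hδ : δ ∈ F₀) (hδ0 : δ ≠ 0)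
    (hδq : δ ^ q = -δ) {c : Fin (1 + 2) → F} (hc : herm q c c ≠ 0) :
    ¬ ∀ x ∈ X, x.1.1 c ∈ Submodule.span F {c} := by
  intro h
  obtain ⟨v, hv, hvv, hv0, hvc⟩ :=
    RatU.exists_iso_not_orth hF hU (by norm_num) (x := c) (fun h0 => hc (by rw [h0, herm_zero_left]))
  obtain ⟨ht, htM⟩ := RatU.rat_param hF hU hK hv hvv hδ hδq
  rw [← hXM] at htM
  obtain ⟨x, hx, e⟩ := htM
  have hcv : herm q c v = 0 := by
    refine perp_of_fix hF ht hδ0 (fun hm => ?_) ?_
    · obtain ⟨b, rfl⟩ := Submodule.mem_span_singleton.1 hm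
      rw [herm_smul_left, herm_smul_right, mul_eq_zero, mul_eq_zero] at hvv
      rcases hvv with h1 | h1 | h1
      · exact hv0 (by rw [h1, zero_smul])
      · exact hv0 (by rw [pow_eq_zero_iff hF.q_ne_zero |>.1 h1, zero_smul])
      · exact hc h1
    · have := h x hx
      rwa [show x.1 = trv hF ht from e] at this
  exact hvc (by rw [← hF.herm_symm, hcv, zero_pow hF.q_ne_zero])

end

/-- The fifth clause, for subfields with more than four elements. -/
theorem subfield_maximal_of_ne_four [Fintype F] (hF : SqField F q) (hq : 3 ≤ q) {F₀ : Subfield F}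
    (h4 : Nat.card F₀ ≠ 4) {r : ℕ} (hr : r.Prime) (hodd : Odd r)
    (hcard : Fintype.card F = Nat.card F₀ ^ r) {P : GL (Fin 3) F}
    (hP : IsFormRationalStructure (Cfsg.hermForm 3 F q) F₀ 1 P) :
    IsMaximalIn (suGL 3 F q) (subfieldSubgroup F₀ P ⊓ suGL 3 F q) := by
  classical
  have hU : RatU q F₀ (rationalVecs F₀ P) := ratU_rationalVecs hF hodd hcard hP
  set R : Set (Fin (1 + 2) → F) := rationalVecs F₀ P with hR
  have hperf := suGL_commutator hF (n := 3) le_rfl (by omega)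
  refine maximal_of_overgroups (suGL_not_le_subfieldSubgroup hF le_rfl hperf
    (MaxSub.subfield_ne_top hr hcard) P) fun X hX => ?_
  set M : Subgroup (UG (1 + 2) F q) := X.map (SUG (1 + 2) F q).subtype with hM
  have hbasis : ∀ j, (P : Matrix (Fin 3) (Fin 3) F) *ᵥ Pi.single j 1 ∈ R := fun j i => by
    show (((P⁻¹ : GL (Fin 3) F) : Matrix (Fin 3) (Fin 3) F) *ᵥ _) i ∈ F₀
    rw [gl_inv_mulVec]
    by_cases h : i = j <;> simp [h]
  have hentry : ∀ (g : SG 1 F q) i j,
      ((P⁻¹ * toGL g * P : GL (Fin 3) F) : Matrix (Fin 3) (Fin 3) F) i j =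
        (((P⁻¹ : GL (Fin 3) F) : Matrix (Fin 3) (Fin 3) F) *ᵥ
          g.1.1 ((P : Matrix (Fin 3) (Fin 3) F) *ᵥ Pi.single j 1)) i := fun g i j => by
    rw [← toGL_mulVec, ← mulVec_conj_col]; simp
  have hK : ∀ (v y : Fin (1 + 2) → F) (a : F) (h : UniCond q v y a), v ∈ R → y ∈ R → a ∈ F₀ →
      uni hF h ∈ M := fun v y a h hv hy ha =>
    ⟨⟨uni hF h, det_uni hF h⟩, hX (mem_subfieldSubgroup_of_ratio one_ne_zero fun i j => by
      rw [inv_one, one_mul, hentry]
      show (((P⁻¹ : GL (Fin 3) F) : Matrix (Fin 3) (Fin 3) F) *ᵥ (uni hF h).1 _) i ∈ F₀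
      rw [uni_apply]
      exact (hU.set.add (hU.set.add (hbasis j) (hU.set.smul (hU.form (hbasis j) hv) hy))
        (hU.set.smul (sub_mem (mul_mem ha (hU.form (hbasis j) hv))
          (hU.form (hbasis j) hy)) hv)) i), rfl⟩
  obtain ⟨δ, hδ, hδ0, hδq⟩ := RatU.exists_skew hF hU
  obtain ⟨σ, hσ, hne⟩ := hU.moved
  have hmid := mid_fixField hF hσ hne (MaxSub.SubfieldMax.mid_of_prime hr hcard)
  have hc2 := card_comap_sq hF hσ hne
  set q₀ := Nat.card (F₀.comap (GeoClasses.fixField hF).subtype) with hq₀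
  have hq₀2 : q₀ ≠ 2 := fun h => h4 (by rw [← hc2, h]; rfl)
  obtain ⟨τ, hτ, hτp⟩ := exists_frobenius_fixedSubfield F₀
  have hiter : ∀ (a : F) k, (fun x => τ x)^[k] a = a ^ Nat.card F₀ ^ k := fun a k => by
    induction k with
    | zero => simp
    | succ k ih => rw [Function.iterate_succ_apply', ih, hτp, ← pow_mul, ← pow_succ]
  have htwo : ∀ a : F, a ^ Nat.card F₀ ^ 2 = a → a ∈ F₀ := by
    intro a ha
    rw [← hτ]
    obtain ⟨k, hk⟩ := hodd
    have h1 : (fun x => τ x)^[2 * k] a = a := by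
      rw [Function.iterate_mul]
      exact Function.iterate_fixed (show (fun x => τ x)^[2] a = a by rw [hiter]; exact ha) k
    have h2 : (fun x => τ x)^[r] a = a := by rw [hiter, ← hcard, FiniteField.pow_card]
    rw [hk] at h2
    rwa [show 2 * k + 1 = (2 * k).succ from rfl, Function.iterate_succ_apply', h1] at h2
  have hfour : ∀ t : GeoClasses.fixField hF, t ^ q₀ ^ 4 = t →
      t ∈ F₀.comap (GeoClasses.fixField hF).subtype := fun t ht => htwo _ (by
    rw [← hc2, ← pow_mul]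
    have := congrArg (fun x : GeoClasses.fixField hF => (x : F)) ht
    simpa using this)
  have hquad : ∀ A : F, (∃ s ∈ F₀, ∃ p ∈ F₀, A * A - s * A + p = 0) → A ∈ F₀ := by
    rintro A ⟨s, hs, p, hp, h⟩
    have hfix : ∀ y, y * y - s * y + p = 0 → y = A ∨ y = s - A := fun y hy => by
      have : (y - A) * (y - (s - A)) = 0 := by linear_combination hy - h
      rcases mul_eq_zero.1 this with h1 | h1
      · exact Or.inl (sub_eq_zero.1 h1)
      · exact Or.inr (sub_eq_zero.1 h1)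
    have hsτ := (hτ s).2 hs
    have hA1 : τ A * τ A - s * τ A + p = 0 := by
      have := congrArg τ h
      rwa [map_add, map_sub, map_mul, map_mul, hsτ, (hτ p).2 hp, map_zero] at this
    refine htwo A ?_
    rw [← hiter]
    rcases hfix _ hA1 with h1 | h1
    · simp [h1]
    · simp [h1, map_sub, hsτ]
  by_cases hsc : ∀ g ∈ M, ∀ v ∈ R, herm q v v = 0 → ∃ κ : F, κ • g.1 v ∈ R ∧ κ ≠ 0
  · left
    intro g hg
    obtain ⟨κ, hκ0, hall⟩ :=
      exists_uniform hF hU hδ hδ0 hδq (g := g.1) (hsc g.1 ⟨g, hg, rfl⟩)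
    refine mem_subfieldSubgroup_of_ratio (a := κ⁻¹) (inv_ne_zero hκ0) fun i j => ?_
    rw [hentry, inv_inv]
    have := hall _ (hbasis j) i
    simpa [Matrix.mulVec_smul] using this
  · right
    push Not at hsc
    obtain ⟨g, hg, v, hv, hvv, hno⟩ := hsc
    have hv0 : v ≠ 0 := fun h => one_ne_zero (hno 1 (by rw [h, map_zero, smul_zero]; exact hU.set.zero))
    set x := g.1 v with hx
    have hxx : herm q x x = 0 := by rw [hx, UG_app]; exact hvv
    have hx0 : x ≠ 0 := fun h => hv0 ((LinearEquiv.map_eq_zero_iff _).1 h)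
    have hxM : ∀ c ∈ F₀, c ^ q = -c → c ∈ trvParams hF M hxx := fun c hc hcq =>
      map_mem_trvParams hF hvv hg (RatU.rat_param hF hU hK hv hvv hc hcq) rfl _
    obtain ⟨w, hw, hww, hwN⟩ : ∃ w ∈ R, herm q w w = 0 ∧
        herm q w x * herm q w x ^ q ∉ F₀ := by
      by_contra hc
      push Not at hc
      obtain ⟨κ, hκ0, hκ⟩ := exists_rat_of_norms hF hU
        (fun A _ h => mem_of_sq_of_odd hodd hcard h) hquad hδ hδ0 hδq hx0 hc
      exact hκ0 (hno κ hκ)
    have hw0 : w ≠ 0 := fun h => hwN (by rw [h, herm_zero_left, zero_mul]; exact zero_mem _)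
    have hfull : Full hF X w := fun a ha => by
      obtain ⟨y, hy, e⟩ :=
        ((norm_mem_or_all hF hU hK hmid hq₀2 hfour hδ hδ0 hδq hw hww hxx hxM).resolve_left hwN) a ha
      exact (Subtype.ext e : y = tS hF ha) ▸ hy
    rcases root hF hq hw0 hww hfull with h | ⟨c, hc, h⟩ | h
    · exact absurd h (rat_no_fixed_point hF hU hK rfl hδ hδ0 hδq hw hw0 hww)
    · exact absurd h (rat_no_fixed_pole hF hU hK rfl hδ hδ0 hδq hc)
    · exact h

end Cfsg.Agent.SUGeo
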