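import Cfsg.Agent.SUGeo.Subfield
import Cfsg.Agent.Invol.RankOneQuot

/-!
The subfield group over four elements, `r` odd: transvections are isolated involutions, so the odd
core is abelian modulo scalars and the rational frames are preserved.
-/

set_option autoImplicit false
set_option linter.unusedSectionVars false
set_option linter.style.haveILetI false

namespace Cfsg.Agent.SUGeo.Four

open Cfsg.Agent.Classical.U Cfsg.Agent.MinU Cfsg.Agent.MinU.Three Cfsg.Geo Cfsg.Agent.GeoClasses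
open Cfsg.Agent.MaxSub.SubfieldMax (lo up eq_top_of_unipotents)
open Cfsg.Agent.Invol (IsIsolatedInv zStar_theorem)
open Cfsg.Agent.ClassicalMax (suGL suGL_commutator suGL_not_le_subfieldSubgroup)
open scoped MatrixGroups Matrix commutatorElement

universe u

variable {F : Type u} [Field F] {q : ℕ}

instance finite_SG [Finite F] : Finite (SG 1 F q) := Finite.of_injective toGL toGL_injective

/-- The action of an element of a subgroup on a vector. -/
abbrev ap {X : Subgroup (SG 1 F q)} (n : X) (w : Fin (1 + 2) → F) : Fin (1 + 2) → F := n.1.1.1 w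

/-- The setting: a proper overgroup of the unitary group over four elements. -/
structure Setting (hF : SqField F q) (F₀ : Subfield F) (R : Set (Fin (1 + 2) → F))
    (X : Subgroup (SG 1 F q)) (ω : F) : Prop where
  hq : 3 ≤ q
  two : (2 : F) = 0
  mem : ω ∈ F₀
  rel : ω ^ 2 + ω + 1 = 0
  frob : ω ^ q = ω + 1
  elts : ∀ z ∈ F₀, z = 0 ∨ z = 1 ∨ z = ω ∨ z = ω + 1
  hU : RatU q F₀ R
  hK : ∀ (v y : Fin (1 + 2) → F) (a : F) (h : UniCond q v y a), v ∈ R → y ∈ R → a ∈ F₀ →
    uni hF h ∈ X.map (SUG (1 + 2) F q).subtype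
  mid : ∀ L : Subfield (GeoClasses.fixField hF),
    F₀.comap (GeoClasses.fixField hF).subtype ≤ L →
    L = F₀.comap (GeoClasses.fixField hF).subtype ∨ L = ⊤
  ne_top : X ≠ ⊤

/-- An orthonormal rational triple. -/
structure ON (q : ℕ) (R : Set (Fin (1 + 2) → F)) (e₁ e₂ e₃ : Fin (1 + 2) → F) : Prop where
  m₁ : e₁ ∈ R
  m₂ : e₂ ∈ R
  m₃ : e₃ ∈ R
  n₁ : herm q e₁ e₁ = 1
  n₂ : herm q e₂ e₂ = 1
  n₃ : herm q e₃ e₃ = 1
  o₁₂ : herm q e₁ e₂ = 0
  o₂₁ : herm q e₂ e₁ = 0
  o₁₃ : herm q e₁ e₃ = 0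
  o₃₁ : herm q e₃ e₁ = 0
  o₂₃ : herm q e₂ e₃ = 0
  o₃₂ : herm q e₃ e₂ = 0

variable {hF : SqField F q} {F₀ : Subfield F} {R : Set (Fin (1 + 2) → F)}
  {X : Subgroup (SG 1 F q)} {ω : F}

theorem Setting.neg (S : Setting hF F₀ R X ω) (x : F) : -x = x := by
  linear_combination (-x) * S.two

theorem Setting.four (S : Setting hF F₀ R X ω) : (4 : F) = 0 := by linear_combination 2 * S.two

theorem Setting.three (S : Setting hF F₀ R X ω) : (3 : F) = 1 := by linear_combination S.two

theorem Setting.one_ne (S : Setting hF F₀ R X ω) : ω ≠ 1 := fun h => by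
  have := S.rel
  rw [h] at this
  exact one_ne_zero (α := F) (by linear_combination this - S.two)

theorem Setting.ne0 (S : Setting hF F₀ R X ω) : ω ≠ 0 := fun h => by
  have := S.rel
  rw [h] at this
  simp at this

theorem Setting.fixed (S : Setting hF F₀ R X ω) {z : F} (hz : z ∈ F₀) (h : z ^ q = z) :
    z = 0 ∨ z = 1 := by
  rcases S.elts z hz with h1 | h1 | h1 | h1
  · exact Or.inl h1
  · exact Or.inr h1
  · rw [h1, S.frob] at h
    exact absurd (show (1 : F) = 0 by linear_combination h) one_ne_zero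
  · rw [h1, hF.add_pow, S.frob, one_pow] at h
    exact absurd (show (1 : F) = 0 by linear_combination h) one_ne_zero

theorem Setting.roots (S : Setting hF F₀ R X ω) {k : F} (h : k ^ 3 = 1) :
    k = 1 ∨ k = ω ∨ k = ω + 1 := by
  have : (k - 1) * ((k - ω) * (k - (ω + 1))) = 0 := by
    linear_combination (norm := (ring_nf <;> simp [S.two])) h + (k - 1) * S.rel - (k - 1) * k * (ω + 1) * S.two
  rcases mul_eq_zero.1 this with h1 | h1
  · exact Or.inl (sub_eq_zero.1 h1)
  rcases mul_eq_zero.1 h1 with h2 | h2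
  · exact Or.inr (Or.inl (sub_eq_zero.1 h2))
  · exact Or.inr (Or.inr (sub_eq_zero.1 h2))

theorem ON.rot {e₁ e₂ e₃ : Fin (1 + 2) → F} (b : ON q R e₁ e₂ e₃) : ON q R e₂ e₃ e₁ :=
  ⟨b.m₂, b.m₃, b.m₁, b.n₂, b.n₃, b.n₁, b.o₂₃, b.o₃₂, b.o₂₁, b.o₁₂, b.o₃₁, b.o₁₃⟩

theorem ON.swap {e₁ e₂ e₃ : Fin (1 + 2) → F} (b : ON q R e₁ e₂ e₃) : ON q R e₁ e₃ e₂ :=
  ⟨b.m₁, b.m₃, b.m₂, b.n₁, b.n₃, b.n₂, b.o₁₃, b.o₃₁, b.o₁₂, b.o₂₁, b.o₃₂, b.o₂₃⟩

theorem ON.expand {e₁ e₂ e₃ : Fin (1 + 2) → F} (b : ON q R e₁ e₂ e₃) (w : Fin (1 + 2) → F) :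
    w = herm q w e₁ • e₁ + herm q w e₂ • e₂ + herm q w e₃ • e₃ := by
  have hli : LinearIndependent F ![e₁, e₂, e₃] := by
    rw [Fintype.linearIndependent_iff]
    intro c hc i
    rw [Fin.sum_univ_three] at hc
    simp only [Matrix.cons_val_zero, Matrix.cons_val_one, Matrix.cons_val] at hc
    have h1 := congrArg (fun x => herm q x e₁) hc
    have h2 := congrArg (fun x => herm q x e₂) hc
    have h3 := congrArg (fun x => herm q x e₃) hc
    simp [herm_add_left, herm_smul_left, b.n₁, b.o₂₁, b.o₃₁] at h1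
    simp [herm_add_left, herm_smul_left, b.n₂, b.o₁₂, b.o₃₂] at h2
    simp [herm_add_left, herm_smul_left, b.n₃, b.o₁₃, b.o₂₃] at h3
    fin_cases i <;> assumption
  obtain ⟨c, hc⟩ := (Submodule.mem_span_range_iff_exists_fun F).1
    (show w ∈ Submodule.span F (Set.range ![e₁, e₂, e₃]) by
      rw [hli.span_eq_top_of_card_eq_finrank' (by rw [Module.finrank_fintype_fun_eq_card])]
      trivial)
  rw [Fin.sum_univ_three] at hc
  simp only [Matrix.cons_val_zero, Matrix.cons_val_one, Matrix.cons_val] at hc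
  subst hc
  simp [herm_add_left, herm_smul_left, b.n₁, b.n₂, b.n₃, b.o₁₂, b.o₂₁, b.o₁₃, b.o₃₁, b.o₂₃, b.o₃₂]

variable (S : Setting hF F₀ R X ω)
include S

theorem exists_ON [Finite F] : ∃ e₁ e₂ e₃ : Fin (1 + 2) → F, ON q R e₁ e₂ e₃ := by
  have h2 := S.two
  have hq := hF.q_ne_zero
  obtain ⟨v, hv, hv0, hvv, -⟩ :=
    RatU.exists_iso_perp hF S.hU (k := 0) (by norm_num) ![] (fun i => i.elim0)
  obtain ⟨f, hf, hff, hvf⟩ := RatU.exists_iso_partner hF S.hU hv hv0 hvv
  have hfv := eq_one_of_fixed_pair hF hvf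
  set e₂ := v + ω • f with he₂
  set e₃ := v + (ω + 1) • f with he₃
  have m₂ : e₂ ∈ R := S.hU.set.add hv (S.hU.set.smul S.mem hf)
  have m₃ : e₃ ∈ R := S.hU.set.add hv (S.hU.set.smul (add_mem S.mem (one_mem _)) hf)
  obtain ⟨e₁, m₁, he0, hperp⟩ := RatU.exists_perp hF S.hU (k := 2) (by norm_num) ![e₂, e₃]
    (by simp [Fin.forall_fin_two, m₂, m₃])
  have o₁₂ : herm q e₁ e₂ = 0 := hperp 0
  have o₁₃ : herm q e₁ e₃ = 0 := hperp 1
  have o₂₁ : herm q e₂ e₁ = 0 := by rw [← hF.herm_symm, o₁₂, zero_pow hq]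
  have o₃₁ : herm q e₃ e₁ = 0 := by rw [← hF.herm_symm, o₁₃, zero_pow hq]
  have n₁ : herm q e₁ e₁ = 1 := by
    refine (S.fixed (S.hU.form m₁ m₁) (hF.herm_symm e₁ e₁)).resolve_left fun h0 => he0 ?_
    have e : f = e₂ + e₃ := by
      rw [he₂, he₃]
      match_scalars
      · linear_combination (norm := (ring_nf <;> simp [S.two])) (0 : F) * S.two
      · linear_combination (norm := (ring_nf <;> simp [S.two])) (0 : F) * S.two
    have hef : herm q e₁ f = 0 := by rw [e, hF.herm_add_right, o₁₂, o₁₃, add_zero]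
    have hev : herm q e₁ v = 0 := by
      have := o₁₂
      rwa [he₂, hF.herm_add_right, herm_smul_right, hef, mul_zero, add_zero] at this
    refine RatU.exists_iso_partner hF S.hU m₁ |> fun h => ?_
    by_contra hne
    obtain ⟨g, hg, hgg, heg⟩ := h hne h0
    -- a second pair orthogonal to the first cannot exist in dimension three
    have hfe : herm q f e₁ = 0 := by rw [← hF.herm_symm, hef, zero_pow hq]
    have hve : herm q v e₁ = 0 := by rw [← hF.herm_symm, hev, zero_pow hq]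
    have hmem := mem_span_of_perp hF hv0 hvv h0 hev
    obtain ⟨c, hc⟩ := Submodule.mem_span_singleton.1 hmem
    rw [← hc, herm_smul_left, hvf, mul_one] at hef
    rw [hef, zero_smul] at hc
    exact hne hc.symm
  refine ⟨e₁, e₂, e₃, m₁, m₂, m₃, n₁, ?_, ?_, o₁₂, o₂₁, o₁₃, o₃₁, ?_, ?_⟩
  all_goals
    simp [he₂, he₃, herm_add_left, hF.herm_add_right, herm_smul_left, herm_smul_right, hvv, hff,
      hvf, hfv, hF.add_pow, S.frob]
  all_goals linear_combination (norm := (ring_nf <;> simp [h2])) ω * h2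

theorem ON.fourier {e₁ e₂ e₃ : Fin (1 + 2) → F} (b : ON q R e₁ e₂ e₃) :
    ON q R (e₁ + e₂ + e₃) (e₁ + ω • e₂ + (ω + 1) • e₃) (e₁ + (ω + 1) • e₂ + ω • e₃) := by
  have hm : ω + 1 ∈ F₀ := add_mem S.mem (one_mem _)
  refine ⟨S.hU.set.add (S.hU.set.add b.m₁ b.m₂) b.m₃,
    S.hU.set.add (S.hU.set.add b.m₁ (S.hU.set.smul S.mem b.m₂)) (S.hU.set.smul hm b.m₃),
    S.hU.set.add (S.hU.set.add b.m₁ (S.hU.set.smul hm b.m₂)) (S.hU.set.smul S.mem b.m₃),
    ?_, ?_, ?_, ?_, ?_, ?_, ?_, ?_, ?_⟩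
  all_goals
    simp [herm_add_left, hF.herm_add_right, herm_smul_left, herm_smul_right, b.n₁, b.n₂, b.n₃,
      b.o₁₂, b.o₂₁, b.o₁₃, b.o₃₁, b.o₂₃, b.o₃₂, hF.add_pow, S.frob]
  all_goals first
    | linear_combination (norm := ring1) S.two
    | linear_combination (norm := ring1) 2 * S.rel
    | linear_combination (norm := ring1) S.rel
    | linear_combination (norm := ring1) S.rel + S.two
    | linear_combination (norm := ring1) S.rel + ω * S.two
    | linear_combination (norm := ring1) S.rel + (ω + 1) * S.two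
    | linear_combination (norm := ring1) (ω + 1) * S.two
    | linear_combination (norm := ring1) 2 * S.rel + S.two
    | linear_combination (norm := (ring_nf <;> simp [S.two, S.three, S.four])) (0 : F) * S.rel
    | linear_combination (norm := (ring_nf <;> simp [S.two, S.three, S.four])) S.rel

theorem one_cond {a : Fin (1 + 2) → F} (ha : herm q a a = 0) : TrvCond q a 1 :=
  ⟨ha, by rw [one_pow, S.neg]⟩

theorem one_mem_X {a : Fin (1 + 2) → F} (haR : a ∈ R) (ha : herm q a a = 0) :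
    tS hF (one_cond S ha) ∈ X := by
  obtain ⟨h, hM⟩ := RatU.rat_param hF S.hU S.hK haR ha (one_mem F₀) (one_cond S ha).2
  obtain ⟨x, hx, e⟩ := hM
  exact (Subtype.ext e : x = tS hF h) ▸ hx

theorem no_full [Finite F] {v : Fin (1 + 2) → F} (hv : v ∈ R) (hv0 : v ≠ 0)
    (hvv : herm q v v = 0) : ¬ Full hF X v := by
  intro hfull
  rcases root hF S.hq hv0 hvv hfull with h | ⟨c, hc, h⟩ | h
  · exact rat_no_fixed_point hF S.hU S.hK rfl (one_mem F₀) one_ne_zero (by rw [one_pow, S.neg])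
      hv hv0 hvv h
  · exact rat_no_fixed_pole hF S.hU S.hK rfl (one_mem F₀) one_ne_zero (by rw [one_pow, S.neg]) hc h
  · exact S.ne_top h

/-- The only transvection parameter of the overgroup at a rational centre is one. -/
theorem param_cases [Finite F] {v : Fin (1 + 2) → F} (hv : v ∈ R) (hv0 : v ≠ 0)
    (hvv : herm q v v = 0) {c : F} (hc : TrvCond q v c) (hcX : tS hF hc ∈ X) : c = 0 ∨ c = 1 := by
  by_cases hcF : c ∈ F₀
  · exact S.fixed hcF (by rw [hc.2, S.neg])
  exfalso
  refine no_full S hv hv0 hvv ?_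
  haveI : Fintype (GeoClasses.fixField hF) := Fintype.ofFinite _
  obtain ⟨qq, hqq, hqqq, hpq⟩ := RatU.exists_iso_partner hF S.hU hv hv0 hvv
  have hqp := eq_one_of_fixed_pair hF hpq
  set M := X.map (SUG (1 + 2) F q).subtype with hM
  have hcM : c ∈ trvParams hF M hvv := ⟨hc, _, hcX, rfl⟩
  let Φ : SL(2, GeoClasses.fixField hF) → (Fin (1 + 2) → F) → (Fin (1 + 2) → F) := fun g w => w +
    (herm q w qq * ((g.1 0 0 : F) - 1) + herm q w v * (g.1 0 1 : F)) • v +
    (herm q w qq * (g.1 1 0 : F) + herm q w v * ((g.1 1 1 : F) - 1)) • qq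
  let N : Submonoid SL(2, GeoClasses.fixField hF) :=
    { carrier := {g | ∃ h ∈ M, ∀ w, h.1 w = Φ g w}
      one_mem' := ⟨1, one_mem M, fun w => by simp [Φ]⟩
      mul_mem' := by
        rintro a b ⟨h, hh, e⟩ ⟨k, hk, f⟩
        refine ⟨h * k, mul_mem hh hk, fun w => ?_⟩
        rw [Subgroup.coe_mul, LinearEquiv.mul_apply, f, e]
        simp only [Φ, herm_add_left, herm_smul_left, hvv, hqqq, hpq, hqp,
          Matrix.SpecialLinearGroup.coe_mul, Matrix.mul_apply, Fin.sum_univ_two, Subfield.coe_add,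
          Subfield.coe_mul]
        match_scalars <;> ring }
  let N' : Subgroup SL(2, GeoClasses.fixField hF) :=
    { N with
      inv_mem' := fun {g} hg => by
        rw [inv_eq_iff_eq_inv.2 (show g = (g ^ (orderOf g - 1))⁻¹ from eq_inv_of_mul_eq_one_left (by
          rw [← pow_succ', Nat.sub_add_cancel (orderOf_pos g), pow_orderOf_eq_one]))]
        exact N.pow_mem hg _ }
  have hcq : c ^ q = c := by rw [hc.2, S.neg]
  have hN : N' = ⊤ := by
    refine eq_top_of_unipotents _ S.mid N' (l := (1 : GeoClasses.fixField hF))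
      (m₁ := (1 : GeoClasses.fixField hF)) (m₂ := (⟨c, hcq⟩ : GeoClasses.fixField hF))
      one_ne_zero one_ne_zero ?_ ?_ ?_ ?_
    · intro h
      change c / 1 ∈ F₀ at h
      exact hcF (by rwa [div_one] at h)
    · rintro ⟨a, haf⟩ ha
      obtain ⟨ht, htM⟩ := RatU.rat_param hF S.hU S.hK hqq hqqq (show a ∈ F₀ from ha)
        (by rw [(GeoClasses.mem_fixField hF).1 haf, S.neg])
      exact ⟨_, htM, fun w => by rw [trv_apply]; simp [Φ, lo]; module⟩
    · rintro ⟨a, haf⟩ ha
      obtain ⟨ht, htM⟩ := RatU.rat_param hF S.hU S.hK hv hvv (show a ∈ F₀ from ha)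
        (by rw [(GeoClasses.mem_fixField hF).1 haf, S.neg])
      exact ⟨_, htM, fun w => by rw [trv_apply]; simp [Φ, up]; module⟩
    · rintro ⟨a, haf⟩ ha
      obtain ⟨ht, htM⟩ : a * c ∈ trvParams hF M hvv := by
        rcases S.fixed (show a ∈ F₀ from ha) ((GeoClasses.mem_fixField hF).1 haf) with rfl | rfl
        · rw [zero_mul]; exact zero_mem _
        · rwa [one_mul]
      exact ⟨_, htM, fun w => by rw [trv_apply]; simp [Φ, up]; module⟩
  intro d hd
  have hdq : d ^ q = d := by rw [hd.2, S.neg]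
  obtain ⟨k, hk, e⟩ : up (⟨d, hdq⟩ : GeoClasses.fixField hF) ∈ N' := by rw [hN]; trivial
  obtain ⟨x, hx, ex⟩ := hk
  have : x = tS hF hd := by
    refine Subtype.ext (ex.trans (Subtype.ext (LinearEquiv.ext fun w => ?_)))
    show k.1 w = (trv hF hd).1 w
    rw [trv_apply, e]
    simp [Φ, up]
    module
  exact this ▸ hx

/-- The transvection with parameter one at a rational centre. -/
noncomputable def tr {a : Fin (1 + 2) → F} (haR : a ∈ R) (ha : herm q a a = 0) : X :=
  ⟨tS hF (one_cond S ha), one_mem_X S haR ha⟩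

theorem tr_apply {a : Fin (1 + 2) → F} (haR : a ∈ R) (ha : herm q a a = 0)
    (w : Fin (1 + 2) → F) : ap (tr S haR ha) w = w + herm q w a • a := by
  show (trv hF (one_cond S ha)).1 w = _
  rw [trv_apply, one_mul]

theorem tr_mul_self {a : Fin (1 + 2) → F} (haR : a ∈ R) (ha : herm q a a = 0) :
    tr S haR ha * tr S haR ha = 1 := by
  refine Subtype.ext (Subtype.ext (Subtype.ext (LinearEquiv.ext fun w => ?_)))
  show ap (tr S haR ha) (ap (tr S haR ha) w) = w
  rw [tr_apply, tr_apply, herm_add_left, herm_smul_left, ha]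
  match_scalars
  · ring
  · linear_combination (herm q w a) * S.two

theorem isolated [Finite F] {a : Fin (1 + 2) → F} (haR : a ∈ R) (ha0 : a ≠ 0)
    (ha : herm q a a = 0) : IsIsolatedInv (tr S haR ha) := by
  set t := tr S haR ha with ht
  have hne : t ≠ 1 := fun h => by
    obtain ⟨f, -, -, haf⟩ := RatU.exists_iso_partner hF S.hU haR ha0 ha
    have := congrArg (fun n : X => ap n f) h
    simp only [ht, tr_apply] at this
    rw [eq_one_of_fixed_pair hF haf, one_smul] at this
    change f + a = f at this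
    exact ha0 (by simpa using this)
  refine ⟨orderOf_eq_prime (by rw [sq]; exact tr_mul_self S haR ha) hne, fun g hg => ?_⟩
  set y := ap g a with hy
  have hy0 : herm q y y = 0 := by rw [hy, ap, UG_app]; exact ha
  obtain ⟨h', e⟩ := tS_conj hF g.1 (one_cond S ha)
  have econj : (g * t * g⁻¹ : X).1 = tS hF h' := e
  have eap : ∀ w, ap (g * t * g⁻¹) w = w + herm q w y • y := fun w => by
    show ((g * t * g⁻¹ : X).1).1.1 w = _
    rw [econj]
    show (trv hF h').1 w = _
    rw [trv_apply, one_mul]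
  have h1 : ap (g * t * g⁻¹ * t) a = ap (t * (g * t * g⁻¹)) a := by rw [hg.eq]
  have h2 : ap (g * t * g⁻¹) (ap t a) = ap t (ap (g * t * g⁻¹) a) := h1
  rw [ht, tr_apply, ha, zero_smul, add_zero, ← ht, eap, ht, tr_apply, herm_add_left,
    herm_smul_left, ha, zero_add] at h2
  have h3 : (herm q a y * herm q y a) • a = 0 := by
    have := sub_eq_zero.2 h2.symm
    rw [← this]
    module
  have h4 : herm q y a = 0 := by
    rcases mul_eq_zero.1 ((smul_eq_zero.1 h3).resolve_right ha0) with h5 | h5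
    · rw [← hF.herm_symm, h5, zero_pow hF.q_ne_zero]
    · exact h5
  obtain ⟨k, hk⟩ := Submodule.mem_span_singleton.1 (mem_span_of_perp hF ha0 ha hy0 h4)
  have h5 : TrvCond q a (k * k ^ q) := ⟨ha, by rw [mul_pow, hF.pow_pow, S.neg, mul_comm]⟩
  have e5 : (g * t * g⁻¹ : X).1 = tS hF h5 := by
    refine Subtype.ext (Subtype.ext (LinearEquiv.ext fun w => ?_))
    show ap (g * t * g⁻¹) w = (trv hF h5).1 w
    rw [eap, trv_apply, ← hk, herm_smul_right]
    module
  rcases param_cases S haR ha0 ha h5 (e5 ▸ (g * t * g⁻¹ : X).2) with h0 | h0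
  · exfalso
    have hk0 : k ≠ 0 := fun hk0 => ha0 (by
      rw [hk0, zero_smul] at hk
      exact (LinearEquiv.map_eq_zero_iff _).1 hk.symm)
    exact mul_ne_zero hk0 (pow_ne_zero _ hk0) h0
  · refine Subtype.ext (Subtype.ext (Subtype.ext (LinearEquiv.ext fun w => ?_)))
    show ap (g * t * g⁻¹) w = ap t w
    rw [eap, ht, tr_apply, ← hk, herm_smul_right, smul_smul]
    congr 2
    linear_combination (herm q w a) * h0

omit S in
/-- Products of two root elements at one centre have order dividing four. -/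
theorem uni_pow_four (hF : SqField F q) (h2 : (2 : F) = 0) {e x : Fin (1 + 2) → F} {a : F}
    (h : UniCond q e x a) : uni hF h ^ 4 = 1 := by
  have hxx : x + x = 0 := by
    rw [← two_smul F, h2, zero_smul]
  have h0 : uni hF h * uni hF h = uni hF (show UniCond q e 0 (a + a - herm q x x) from
      ⟨h.1, herm_zero_left e, by
        have := (uniCond_mul hF h h).2.2
        rwa [hxx] at this⟩) := by
    rw [uni_mul]
    exact uni_congr hF _ _ rfl hxx rfl
  rw [show (4 : ℕ) = 2 * 2 from rfl, pow_mul, sq, sq, h0, uni_mul]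
  refine Subtype.ext (LinearEquiv.ext fun w => ?_)
  rw [uni_apply]
  simp only [add_zero, hF.herm_zero_right, smul_zero, sub_zero, Subgroup.coe_one,
    LinearEquiv.coe_one, id]
  match_scalars
  · ring
  · linear_combination (herm q w e * (a + a - herm q x x)) * h2

/-- The odd core. -/
noncomputable def core (_ : Setting hF F₀ R X ω) [Finite F] : Subgroup X := pPrimeCore 2 X

theorem pow_four_core [Finite F] {n : X} (hn : n ∈ core S) (h : n ^ 4 = 1) : n = 1 := by
  have : Fact (Nat.Prime 2) := ⟨Nat.prime_two⟩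
  have h1 : orderOf n ∣ 4 := orderOf_dvd_of_pow_eq_one h
  have h2 : orderOf n ∣ Nat.card (core S) := Subgroup.orderOf_dvd_natCard _ hn
  exact orderOf_eq_one_iff.1 (Nat.eq_one_of_dvd_coprimes
    (Nat.Coprime.pow_left 2 ((Nat.Prime.coprime_iff_not_dvd Nat.prime_two).2
      (Cores.not_dvd_card_pPrimeCore : ¬ 2 ∣ Nat.card (core S)))) (by simpa using h1) h2)

/-- The diagonal element of a triple lies in the core. -/
theorem diag_mem [Finite F] {e₁ e₂ e₃ : Fin (1 + 2) → F} (b : ON q R e₁ e₂ e₃) :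
    ∃ n ∈ core S, ap n e₁ = e₁ ∧ ap n e₂ = ω • e₂ ∧ ap n e₃ = (ω + 1) • e₃ := by
  set a := e₂ + e₃ with ha
  set c := e₂ + ω • e₃ with hc
  have haR : a ∈ R := S.hU.set.add b.m₂ b.m₃
  have hcR : c ∈ R := S.hU.set.add b.m₂ (S.hU.set.smul S.mem b.m₃)
  have haa : herm q a a = 0 := by
    simp [ha, herm_add_left, hF.herm_add_right, b.n₂, b.n₃, b.o₂₃, b.o₃₂]
    linear_combination S.two
  have hcc : herm q c c = 0 := by
    simp [hc, herm_add_left, hF.herm_add_right, herm_smul_left, herm_smul_right, b.n₂, b.n₃,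
      b.o₂₃, b.o₃₂, S.frob]
    linear_combination S.rel
  have ha0 : a ≠ 0 := fun h => by
    have := congrArg (fun x => herm q x e₂) h
    simp [ha, herm_add_left, b.n₂, b.o₃₂] at this
  set t := tr S haR haa with ht
  set u := tr S hcR hcc with hu
  set n := t * u with hn
  have hap : ∀ w, ap n w = ap t (ap u w) := fun _ => rfl
  have h₁ : ap n e₁ = e₁ := by
    rw [hap, ht, hu, tr_apply, tr_apply]
    simp [ha, hc, hF.herm_add_right, herm_add_left, herm_smul_left, herm_smul_right, b.o₁₂, b.o₁₃]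
  have h₂ : ap n e₂ = ω • e₂ := by
    rw [hap, ht, hu, tr_apply, tr_apply]
    simp [ha, hc, hF.herm_add_right, herm_add_left, herm_smul_left, herm_smul_right, b.n₂, b.n₃,
      b.o₂₃, b.o₃₂]
    match_scalars
    · linear_combination (norm := (ring_nf <;> simp [S.two, S.three, S.four])) (0 : F) * S.two
    · linear_combination (ω + 1) * S.two
  have h₃ : ap n e₃ = (ω + 1) • e₃ := by
    rw [hap, ht, hu, tr_apply, tr_apply]
    simp [ha, hc, hF.herm_add_right, herm_add_left, herm_smul_left, herm_smul_right, b.n₂, b.n₃,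
      b.o₂₃, b.o₃₂, S.frob]
    match_scalars
    · linear_combination (norm := (ring_nf <;> simp [S.two, S.three, S.four])) (0 : F) * S.rel
    · linear_combination (norm := (ring_nf <;> simp [S.two, S.three, S.four])) S.rel
  refine ⟨n, ?_, h₁, h₂, h₃⟩
  have hcomm : n * n ∈ core S := by
    have := zStar_theorem X t (isolated S haR ha0 haa) u
    rw [commutatorElement_def, inv_eq_of_mul_eq_one_right (tr_mul_self S haR haa),
      inv_eq_of_mul_eq_one_right (tr_mul_self S hcR hcc)] at this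
    rw [hn, ← mul_assoc]
    exact this
  have hn3 : n * n * (n * n) = n := by
    refine Subtype.ext (Subtype.ext (Subtype.ext (LinearEquiv.ext fun w => ?_)))
    show ap n (ap n (ap n (ap n w))) = ap n w
    rw [b.expand w]
    simp only [ap, map_add, map_smul] at h₁ h₂ h₃ ⊢
    simp only [h₁, h₂, h₃, map_smul, smul_smul]
    match_scalars
    · ring
    · linear_combination (herm q w e₂ * ω * (ω - 1)) * S.rel
    · linear_combination (norm := (ring_nf <;> simp [S.two, S.three, S.four])) (herm q w e₃ * ω * (ω + 1)) * S.rel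
  exact hn3 ▸ mul_mem hcomm hcomm

/-- Elements of the core commuting with a transvection are scalar. -/
theorem scalar_of_commute [Finite F] {e₁ e₂ e₃ : Fin (1 + 2) → F} (b : ON q R e₁ e₂ e₃)
    (haR : e₂ + e₃ ∈ R) (haa : herm q (e₂ + e₃) (e₂ + e₃) = 0) {x : X} (hx : x ∈ core S)
    (hxt : Commute x (tr S haR haa)) : ∃ l : F, ∀ w, ap x w = l • w := by
  have h2 := S.two
  set a := e₂ + e₃ with ha
  set f := ω • e₂ + (ω + 1) • e₃ with hf
  have hfR : f ∈ R :=
    S.hU.set.add (S.hU.set.smul S.mem b.m₂) (S.hU.set.smul (add_mem S.mem (one_mem _)) b.m₃)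
  have hfa : herm q f a = 1 := by
    simp [ha, hf, herm_add_left, hF.herm_add_right, herm_smul_left, b.n₂, b.n₃, b.o₂₃, b.o₃₂]
    linear_combination ω * S.two
  have hea : herm q e₁ a = 0 := by simp [ha, hF.herm_add_right, b.o₁₂, b.o₁₃]
  have hfe : herm q f e₁ = 0 := by
    simp [hf, herm_add_left, herm_smul_left, b.o₂₁, b.o₃₁]
  -- the centre is fixed
  have hxa : ∃ l : F, l ^ q * l = 1 ∧ ap x a = l • a := by
    have h := congrArg (fun n : X => ap n f) hxt.eq
    change ap x (ap (tr S haR haa) f) = ap (tr S haR haa) (ap x f) at h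
    rw [tr_apply, tr_apply, hfa, one_smul] at h
    change x.1.1.1 (f + a) = _ at h
    rw [map_add, add_right_inj] at h
    refine ⟨herm q (ap x f) a, ?_, h⟩
    have h3 := UG_app x.1.1 f a
    rw [hfa, show x.1.1.1 a = _ from h, herm_smul_right] at h3
    exact h3
  obtain ⟨l, hl, hxa⟩ := hxa
  have hl0 : l ≠ 0 := fun h => by simp [h] at hl
  -- the radical is centralised
  have hcond : UniCond q a e₁ ω := ⟨haa, hea, by
    rw [S.frob, b.n₁]; linear_combination (ω + 1) * h2⟩
  obtain ⟨z, hz, ez⟩ := S.hK a e₁ ω hcond haR b.m₁ S.mem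
  let u : X := ⟨z, hz⟩
  have eu : u.1.1 = uni hF hcond := ez
  have hc1 : UniCond q (ap x a) (ap x e₁) ω := ⟨by rw [ap, UG_app]; exact hcond.1,
    by rw [ap, ap, UG_app]; exact hcond.2.1, by rw [ap, UG_app]; exact hcond.2.2⟩
  have hc1' : UniCond q (l • a) (ap x e₁) ω := hxa ▸ hc1
  have hc2 : UniCond q a (l ^ q • ap x e₁) (l * l ^ q * ω) := ⟨haa, by
      have := hc1'.2.1
      rw [herm_smul_right] at this
      rw [herm_smul_left]; exact this,
    by
      rw [herm_smul_left, herm_smul_right, hF.pow_pow, show l * l ^ q = 1 by rw [mul_comm]; exact hl,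
        one_mul, ← mul_assoc, hl, one_mul]
      exact hc1'.2.2⟩
  have econj : (x * u * x⁻¹).1.1 = uni hF hc2 := by
    show x.1.1 * u.1.1 * x.1.1⁻¹ = _
    rw [eu, uni_conj]
    exact (uni_congr hF _ hc1' hxa rfl rfl).trans (uni_smul hF hc1' hc2)
  have hcomm : x * u * x⁻¹ * u⁻¹ ∈ core S := by
    have hN : (core S).Normal := by unfold core; infer_instance
    rw [show x * u * x⁻¹ * u⁻¹ = x * (u * x⁻¹ * u⁻¹) by group]
    exact mul_mem hx (hN.conj_mem _ (inv_mem hx) u)
  have hu4 : u ^ 4 = 1 := Subtype.ext (Subtype.ext (by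
    show u.1.1 ^ 4 = 1
    rw [eu]; exact uni_pow_four hF h2 hcond))
  have hone : x * u * x⁻¹ * u⁻¹ = 1 := by
    refine pow_four_core S hcomm ?_
    have hu' : u⁻¹ = u ^ 3 := inv_eq_of_mul_eq_one_right (by rw [← pow_succ']; exact hu4)
    refine Subtype.ext (Subtype.ext ?_)
    show ((x * u * x⁻¹ * u⁻¹).1.1) ^ 4 = 1
    rw [hu']
    show ((x * u * x⁻¹).1.1 * u.1.1 ^ 3) ^ 4 = 1
    rw [econj, eu, show (uni hF hcond) ^ 3 = uni hF hcond * uni hF hcond * uni hF hcond by
      rw [pow_succ, pow_succ, pow_one], uni_mul, uni_mul, uni_mul]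
    exact uni_pow_four hF h2 _
  have hxe : ∃ β : F, ap x e₁ = l • e₁ + β • a := by
    have h := congrArg (fun g : UG (1 + 2) F q => g.1 f)
      (econj.symm.trans ((congrArg (fun n : X => n.1.1) (mul_inv_eq_one.1 hone)).trans eu))
    simp only [uni_apply, hfa, one_smul, mul_one] at h
    have h' : l ^ q • ap x e₁ =
        e₁ + (herm q f (l ^ q • ap x e₁) - l * l ^ q * ω - herm q f e₁ + ω) • a := by
      linear_combination (norm := module) h
    have := congrArg (fun w => l • w) h'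
    simp only [smul_smul, smul_add, show l * l ^ q = 1 by rw [mul_comm]; exact hl, one_smul] at this
    exact ⟨_, this⟩
  obtain ⟨β, hxe⟩ := hxe
  have hxf : ∃ γ η : F, ap x f = l • f + γ • e₁ + η • a := by
    set d := ap x f - l • f with hd
    have hda : herm q d a = 0 := by
      have h3 := UG_app x.1.1 f a
      rw [hfa, show x.1.1.1 a = l • a from hxa, herm_smul_right] at h3
      have h4 : herm q (ap x f) a = l := by
        have := congrArg (fun s => l * s) h3
        simp only [← mul_assoc, mul_one] at this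
        rwa [mul_comm l (l ^ q), hl, one_mul] at this
      rw [hd, herm_sub_left, herm_smul_left, hfa, mul_one, h4, sub_self]
    refine ⟨herm q d e₁, herm q d e₂, ?_⟩
    rw [ha, hF.herm_add_right] at hda
    have h23 : herm q d e₃ = herm q d e₂ := by linear_combination hda - (herm q d e₂) * h2
    have := b.expand d
    rw [h23] at this
    rw [ha]
    have e : ap x f = l • f + d := by rw [hd]; abel
    conv_lhs => rw [e, this]
    module
  obtain ⟨γ, η, hxf⟩ := hxf
  simp only [ap] at hxa hxe hxf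
  clear_value f a
  -- the fourth power is scalar
  have h4 : ∀ w, ap (x ^ 4) w = l ^ 4 • w := by
    intro w
    show x.1.1.1 (x.1.1.1 (x.1.1.1 (x.1.1.1 w))) = _
    have k1 : x.1.1.1 (x.1.1.1 (x.1.1.1 (x.1.1.1 a))) = l ^ 4 • a := by
      simp only [hxa, map_smul, smul_smul]
      match_scalars; ring
    have k2 : x.1.1.1 (x.1.1.1 (x.1.1.1 (x.1.1.1 e₁))) = l ^ 4 • e₁ := by
      simp only [hxe, hxa, map_add, map_smul, smul_add, smul_smul]
      match_scalars
      · ring
      · linear_combination (2 * l ^ 3 * β) * h2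
    have k3 : x.1.1.1 (x.1.1.1 (x.1.1.1 (x.1.1.1 f))) = l ^ 4 • f := by
      simp only [hxf, hxe, hxa, map_add, map_smul, smul_add, smul_smul]
      match_scalars
      · ring
      · linear_combination (2 * l ^ 3 * γ) * h2
      · linear_combination (2 * l ^ 3 * η + 3 * l ^ 2 * γ * β) * h2
    have d3 : e₃ = f + ω • a := by
      rw [hf, ha]
      match_scalars
      · linear_combination (-ω) * S.two
      · linear_combination (-ω) * S.two
    have d2 : e₂ = a + (f + ω • a) := by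
      rw [← d3, ha, add_assoc, ← two_smul F e₃, S.two, zero_smul, add_zero]
    rw [b.expand w, d2, d3]
    simp only [map_add, map_smul, k1, k2, k3]
    module
  -- odd order
  have : Fact (Nat.Prime 2) := ⟨Nat.prime_two⟩
  obtain ⟨j, hj⟩ : Odd (orderOf x) := by
    rw [← Nat.not_even_iff_odd, even_iff_two_dvd]
    exact fun h => (Cores.not_dvd_card_pPrimeCore : ¬ 2 ∣ Nat.card (core S))
      (h.trans (Subgroup.orderOf_dvd_natCard _ hx))
  have hxpow : x ^ (4 * (j * j + j) + 1) = 1 := orderOf_dvd_iff_pow_eq_one.1 ⟨2 * j + 1, by rw [hj]; ring⟩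
  refine ⟨((l ^ 4) ^ (j * j + j))⁻¹, fun w => ?_⟩
  have hpow : ∀ (k : ℕ) (w : Fin (1 + 2) → F), ap ((x ^ 4) ^ k) w = (l ^ 4) ^ k • w := by
    intro k
    induction k with
    | zero => intro w; simp [ap]
    | succ k ih =>
      intro w
      rw [pow_succ (x ^ 4) k]
      show ap ((x ^ 4) ^ k) (ap (x ^ 4) w) = _
      rw [h4, ih, smul_smul, ← pow_succ]
  have h5 := congrArg (fun n : X => ap n w) hxpow
  rw [pow_succ, pow_mul] at h5
  change ap ((x ^ 4) ^ (j * j + j)) (ap x w) = w at h5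
  rw [hpow] at h5
  conv_rhs => rw [← h5]
  rw [inv_smul_smul₀ (pow_ne_zero _ (pow_ne_zero _ hl0))]

/-- The scalar elements of the core. -/
noncomputable def scal [Finite F] : Subgroup (core S) where
  carrier := {n | ∃ l : F, ∀ w, ap n.1 w = l • w}
  one_mem' := ⟨1, fun w => by simp [ap]⟩
  mul_mem' := by
    rintro a b ⟨l, hl⟩ ⟨k, hk⟩
    refine ⟨l * k, fun w => ?_⟩
    show ap a.1 (ap b.1 w) = _
    rw [hk, hl, smul_smul]
  inv_mem' := by
    rintro a ⟨l, hl⟩
    refine ⟨l⁻¹, fun w => ?_⟩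
    show a.1.1.1.1.symm w = _
    rw [LinearEquiv.symm_apply_eq]
    have := hl (l⁻¹ • w)
    rcases eq_or_ne w 0 with rfl | hw
    · simp
    have hl0 : l ≠ 0 := fun h => hw (by
      have := hl w
      rw [h, zero_smul] at this
      exact (LinearEquiv.map_eq_zero_iff _).1 this)
    rw [smul_inv_smul₀ hl0] at this
    exact this.symm

theorem scal_normal [Finite F] : (scal S).Normal := ⟨fun n hn g => by
  obtain ⟨l, hl⟩ := hn
  refine ⟨l, fun w => ?_⟩
  show ap g.1 (ap n.1 (g.1.1.1.1.symm w)) = _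
  rw [hl]
  show g.1.1.1.1 (l • _) = _
  rw [map_smul, LinearEquiv.apply_symm_apply]⟩

set_option maxHeartbeats 1000000 in
/-- The core is abelian modulo scalars. -/
theorem comm_scalar [Finite F] {n m : X} (hn : n ∈ core S) (hm : m ∈ core S) :
    ∃ z : F, ∀ w, ap n (ap m w) = z • ap m (ap n w) := by
  obtain ⟨e₁, e₂, e₃, b⟩ := exists_ON S
  have haa : herm q (e₂ + e₃) (e₂ + e₃) = 0 := by
    simp [herm_add_left, hF.herm_add_right, b.n₂, b.n₃, b.o₂₃, b.o₃₂]
    linear_combination S.two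
  have haR := S.hU.set.add b.m₂ b.m₃
  set t := tr S haR haa with ht
  have ht2 := tr_mul_self S haR haa
  have hN : (core S).Normal := by unfold core; infer_instance
  haveI := scal_normal S
  let τ : core S ≃* core S := MulAut.conjNormal t
  have hτS : scal S ≤ (scal S).comap τ.toMonoidHom := by
    rintro k ⟨l, hl⟩
    refine ⟨l, fun w => ?_⟩
    show ap t (ap k.1 (t.1.1.1.symm w)) = _
    rw [hl]
    show t.1.1.1 (l • _) = _
    rw [map_smul, LinearEquiv.apply_symm_apply]
  let φ : core S ⧸ scal S →* core S ⧸ scal S :=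
    QuotientGroup.map (scal S) (scal S) τ.toMonoidHom hτS
  have hττ : ∀ k : core S, τ (τ k) = k := fun k => Subtype.ext (by
    show t * (t * k.1 * t⁻¹) * t⁻¹ = k.1
    rw [show t * (t * k.1 * t⁻¹) * t⁻¹ = t * t * k.1 * (t * t)⁻¹ by group, ht2]
    simp)
  have hinv : Function.Involutive φ := by
    intro k
    obtain ⟨k, rfl⟩ := QuotientGroup.mk_surjective k
    show ((τ (τ k) : core S) : core S ⧸ scal S) = _
    rw [hττ]
  have hfix : MonoidHom.FixedPointFree φ := by
    intro k hk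
    obtain ⟨k, rfl⟩ := QuotientGroup.mk_surjective k
    have hk' : k⁻¹ * τ k ∈ scal S := QuotientGroup.eq.1 (Eq.symm hk)
    rw [QuotientGroup.eq_one_iff]
    obtain ⟨l, hl⟩ := hk'
    set z : core S := k⁻¹ * τ k with hz
    have hτk : τ k = k * z := by rw [hz, mul_inv_cancel_left]
    have hzt : τ z = z := by
      refine Subtype.ext (Subtype.ext (Subtype.ext (Subtype.ext (LinearEquiv.ext fun w => ?_))))
      show ap t (ap z.1 (t.1.1.1.symm w)) = ap z.1 w
      rw [hl, hl]
      show t.1.1.1 (l • _) = _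
      rw [map_smul, LinearEquiv.apply_symm_apply]
    have hz2 : z * z = 1 := by
      have := hττ k
      rw [hτk, map_mul, hτk, hzt, mul_assoc] at this
      exact mul_eq_left.1 this
    have hz1 : z = 1 := Subtype.ext (pow_four_core S z.2 (by
      have : z.1 * z.1 = 1 := congrArg Subtype.val hz2
      rw [show (4 : ℕ) = 2 * 2 from rfl, pow_mul, sq (z.1), this, one_pow]))
    rw [hz1, mul_one] at hτk
    refine scalar_of_commute S b haR haa k.2 ?_
    have : t * k.1 * t⁻¹ = k.1 := congrArg Subtype.val hτk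
    exact (mul_inv_eq_iff_eq_mul.1 this).symm
  have := (hfix.commute_all_of_involutive hinv ((⟨n, hn⟩ : core S) : core S ⧸ scal S)
    ((⟨m, hm⟩ : core S) : core S ⧸ scal S)).eq
  obtain ⟨l, hl⟩ : ((⟨m, hm⟩ : core S) * ⟨n, hn⟩)⁻¹ * (⟨n, hn⟩ * ⟨m, hm⟩) ∈ scal S :=
    QuotientGroup.eq.1 (show (((⟨m, hm⟩ : core S) * ⟨n, hn⟩ : core S) : core S ⧸ scal S) = ((⟨n, hn⟩ * ⟨m, hm⟩ : core S) : core S ⧸ scal S) from this.symm)
  refine ⟨l, fun w => ?_⟩
  have h := congrArg (fun v => ap m (ap n v)) (hl w)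
  have e : ap m (ap n (ap ((((⟨m, hm⟩ : core S) * ⟨n, hn⟩)⁻¹ * (⟨n, hn⟩ * ⟨m, hm⟩) : core S) : X) w))
      = ap n (ap m w) := by
    show ap (m * n * ((m * n)⁻¹ * (n * m))) w = ap (n * m) w
    rw [mul_inv_cancel_left]
  rw [e] at h
  rw [h]
  simp only [ap, map_smul]

theorem rat_of_diag {e₁ e₂ e₃ : Fin (1 + 2) → F} (b : ON q R e₁ e₂ e₃) {n : X}
    (h₁ : ap n e₁ = e₁) (h₂ : ap n e₂ = ω • e₂) (h₃ : ap n e₃ = (ω + 1) • e₃)
    {y : Fin (1 + 2) → F} (hy : y ≠ 0) {k : F} (hk : ap n y = k • y) :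
    ∃ κ : F, κ ≠ 0 ∧ κ • y ∈ R := by
  have hy' := b.expand y
  have hn : ap n y = herm q y e₁ • e₁ + (herm q y e₂ * ω) • e₂ +
      (herm q y e₃ * (ω + 1)) • e₃ := by
    conv_lhs => rw [ap, hy', map_add, map_add, map_smul, map_smul, map_smul]
    simp only [ap] at h₁ h₂ h₃
    rw [h₁, h₂, h₃, smul_smul, smul_smul]
  rw [hn] at hk
  have c1 := congrArg (fun x => herm q x e₁) hk
  have c2 := congrArg (fun x => herm q x e₂) hk
  have c3 := congrArg (fun x => herm q x e₃) hk
  simp [herm_add_left, herm_smul_left, b.n₁, b.o₂₁, b.o₃₁] at c1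
  simp [herm_add_left, herm_smul_left, b.n₂, b.o₁₂, b.o₃₂] at c2
  simp [herm_add_left, herm_smul_left, b.n₃, b.o₁₃, b.o₂₃] at c3
  rw [mul_comm (herm q y e₂)] at c2
  rw [mul_comm (herm q y e₃)] at c3
  have hne := S.one_ne
  by_cases z1 : herm q y e₁ = 0
  · by_cases z2 : herm q y e₂ = 0
    · rw [z1, z2, zero_smul, zero_smul, zero_add, zero_add] at hy'
      refine ⟨(herm q y e₃)⁻¹, inv_ne_zero fun h => hy (by rw [hy', h, zero_smul]), ?_⟩
      conv => enter [2, 2]; rw [hy']
      rw [inv_smul_smul₀ fun h => hy (by rw [hy', h, zero_smul])]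
      exact b.m₃
    · have z3 : herm q y e₃ = 0 := by
        by_contra z3
        have := (mul_right_cancel₀ z2 c2).trans (mul_right_cancel₀ z3 c3).symm
        exact one_ne_zero (α := F) (by linear_combination -this)
      rw [z1, z3, zero_smul, zero_smul, zero_add, add_zero] at hy'
      refine ⟨(herm q y e₂)⁻¹, inv_ne_zero z2, ?_⟩
      conv => enter [2, 2]; rw [hy']
      rw [inv_smul_smul₀ z2]
      exact b.m₂
  · have hk1 : (1 : F) = k := mul_right_cancel₀ z1 (by rw [one_mul]; exact c1)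
    have z2 : herm q y e₂ = 0 := by
      by_contra z2
      exact hne ((mul_right_cancel₀ z2 c2).trans hk1.symm)
    have z3 : herm q y e₃ = 0 := by
      by_contra z3
      have := (mul_right_cancel₀ z3 c3).trans hk1.symm
      exact S.ne0 (by linear_combination this)
    rw [z2, z3, zero_smul, zero_smul, add_zero, add_zero] at hy'
    refine ⟨(herm q y e₁)⁻¹, inv_ne_zero z1, ?_⟩
    conv => enter [2, 2]; rw [hy']
    rw [inv_smul_smul₀ z1]
    exact b.m₁

theorem rat_of_cycle {e₁ e₂ e₃ : Fin (1 + 2) → F} (b : ON q R e₁ e₂ e₃) {n : X} {α β γ : F}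
    (hα : α ∈ F₀) (hβ : β ∈ F₀) (hp : α * β * γ = 1)
    (h₁ : ap n e₁ = α • e₂) (h₂ : ap n e₂ = β • e₃) (h₃ : ap n e₃ = γ • e₁)
    {y : Fin (1 + 2) → F} (hy : y ≠ 0) {k : F} (hk : ap n y = k • y) :
    ∃ κ : F, κ ≠ 0 ∧ κ • y ∈ R := by
  have hy' := b.expand y
  have hn : ap n y = (herm q y e₁ * α) • e₂ + (herm q y e₂ * β) • e₃ +
      (herm q y e₃ * γ) • e₁ := by
    conv_lhs => rw [ap, hy', map_add, map_add, map_smul, map_smul, map_smul]
    simp only [ap] at h₁ h₂ h₃
    rw [h₁, h₂, h₃, smul_smul, smul_smul, smul_smul]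
  rw [hn] at hk
  have c1 := congrArg (fun x => herm q x e₁) hk
  have c2 := congrArg (fun x => herm q x e₂) hk
  have c3 := congrArg (fun x => herm q x e₃) hk
  simp [herm_add_left, herm_smul_left, b.n₁, b.o₂₁, b.o₃₁] at c1
  simp [herm_add_left, herm_smul_left, b.n₂, b.o₁₂, b.o₃₂] at c2
  simp [herm_add_left, herm_smul_left, b.n₃, b.o₁₃, b.o₂₃] at c3
  have hk0 : k ≠ 0 := fun h => hy (by
    rw [h, zero_smul] at hk
    rw [h, zero_mul] at c1 c2 c3
    have hα0 : α ≠ 0 := fun h0 => by simp [h0] at hp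
    have hβ0 : β ≠ 0 := fun h0 => by simp [h0] at hp
    have hγ0 : γ ≠ 0 := fun h0 => by simp [h0] at hp
    rw [hy', (mul_eq_zero.1 c2).resolve_right hα0, (mul_eq_zero.1 c3).resolve_right hβ0,
      (mul_eq_zero.1 c1).resolve_right hγ0]
    simp)
  set y₁ := herm q y e₁ with hy₁
  set y₂ := herm q y e₂ with hy₂
  set y₃ := herm q y e₃ with hy₃
  have e2 : y₂ = y₁ * α / k := by rw [eq_div_iff hk0]; linear_combination -c2
  have e3 : y₃ = y₁ * α * β / (k * k) := by
    rw [eq_div_iff (mul_ne_zero hk0 hk0)]; linear_combination -(β * c2) - k * c3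
  have hy1 : y₁ ≠ 0 := fun h => hy (by rw [hy', e2, e3, h]; simp)
  have hk3 : k ^ 3 = 1 := by
    apply mul_left_cancel₀ hy1
    rw [e3] at c1
    field_simp at c1
    linear_combination y₁ * hp - y₁ * c1
  have hkF : k ∈ F₀ := by
    rcases S.roots hk3 with rfl | rfl | rfl
    · exact one_mem _
    · exact S.mem
    · exact add_mem S.mem (one_mem _)
  refine ⟨y₁⁻¹, inv_ne_zero hy1, ?_⟩
  rw [hy', smul_add, smul_add, smul_smul, smul_smul, smul_smul, inv_mul_cancel₀ hy1, one_smul]
  refine S.hU.set.add (S.hU.set.add b.m₁ (S.hU.set.smul ?_ b.m₂)) (S.hU.set.smul ?_ b.m₃)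
  · rw [e2, show y₁⁻¹ * (y₁ * α / k) = α / k by field_simp]
    exact div_mem hα hkF
  · rw [e3, show y₁⁻¹ * (y₁ * α * β / (k * k)) = α * β / (k * k) by field_simp]
    exact div_mem (mul_mem hα hβ) (mul_mem hkF hkF)

/-- Every element sends rational non-isotropic frame lines to rational lines. -/
theorem line_rat [Finite F] {e₁ e₂ e₃ : Fin (1 + 2) → F} (b : ON q R e₁ e₂ e₃) (g : X) :
    ∃ κ : F, κ ≠ 0 ∧ κ • ap g e₁ ∈ R := by
  have hN : (core S).Normal := by unfold core; infer_instance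
  obtain ⟨D, hD, d₁, d₂, d₃⟩ := diag_mem S b
  obtain ⟨P, hP, p₁, p₂, p₃⟩ := diag_mem S (ON.fourier S b)
  set u := g * D * g⁻¹ with hu
  have hu' : u ∈ core S := hN.conj_mem _ hD g
  have hug : ∀ w, ap u (ap g w) = ap g (ap D w) := fun w => by
    show ap (g * D * g⁻¹ * g) w = ap (g * D) w
    rw [inv_mul_cancel_right]
  set y := ap g e₁ with hy
  have hy0 : y ≠ 0 := fun h => by
    have : e₁ = 0 := (LinearEquiv.map_eq_zero_iff _).1 h
    have h1 := b.n₁
    rw [this, herm_zero_left] at h1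
    exact zero_ne_one h1
  have huy : ap u y = y := by rw [hy, hug, d₁]
  -- eigenvectors of the conjugate
  have eig : ∀ (w : Fin (1 + 2) → F) (k : F), w ≠ 0 → ap u w = k • w →
      (k = 1 ∨ k = ω ∨ k = ω + 1) ∧ (k = 1 → ∃ c : F, w = c • y) := by
    intro w k hw hwk
    obtain ⟨v, rfl⟩ : ∃ v, ap g v = w := ⟨g.1.1.1.symm w, g.1.1.1.apply_symm_apply w⟩
    rw [hug, show k • ap g v = ap g (k • v) from (map_smul _ _ _).symm] at hwk
    have hv : ap D v = k • v := g.1.1.1.injective hwk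
    have hv' := b.expand v
    have hn : ap D v = herm q v e₁ • e₁ + (herm q v e₂ * ω) • e₂ +
        (herm q v e₃ * (ω + 1)) • e₃ := by
      conv_lhs => rw [ap, hv', map_add, map_add, map_smul, map_smul, map_smul]
      simp only [ap] at d₁ d₂ d₃
      rw [d₁, d₂, d₃, smul_smul, smul_smul]
    rw [hn] at hv
    have c1 := congrArg (fun x => herm q x e₁) hv
    have c2 := congrArg (fun x => herm q x e₂) hv
    have c3 := congrArg (fun x => herm q x e₃) hv
    simp [herm_add_left, herm_smul_left, b.n₁, b.o₂₁, b.o₃₁] at c1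
    simp [herm_add_left, herm_smul_left, b.n₂, b.o₁₂, b.o₃₂] at c2
    simp [herm_add_left, herm_smul_left, b.n₃, b.o₁₃, b.o₂₃] at c3
    rw [mul_comm (herm q v e₂)] at c2
    rw [mul_comm (herm q v e₃)] at c3
    refine ⟨?_, fun hk1 => ⟨herm q v e₁, ?_⟩⟩
    · by_contra hcon
      push Not at hcon
      refine hw ?_
      have z1 : herm q v e₁ = 0 := by
        by_contra z
        exact hcon.1 (mul_right_cancel₀ z (by rw [one_mul]; exact c1.symm))
      have z2 : herm q v e₂ = 0 := by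
        by_contra z
        exact hcon.2.1 (mul_right_cancel₀ z c2).symm
      have z3 : herm q v e₃ = 0 := by
        by_contra z
        exact hcon.2.2 (mul_right_cancel₀ z c3).symm
      rw [hv', z1, z2, z3]; simp [ap]
    · subst hk1
      have z2 : herm q v e₂ = 0 := by
        by_contra z
        exact S.one_ne (mul_right_cancel₀ z (by rw [one_mul] at c2; rw [one_mul]; exact c2))
      have z3 : herm q v e₃ = 0 := by
        by_contra z
        have : ω + 1 = 1 := mul_right_cancel₀ z (by rw [one_mul] at c3; rw [one_mul]; exact c3)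
        exact S.ne0 (by linear_combination this)
      conv_lhs => rw [hv', z2, z3]
      simp [ap, hy]
  have twist : ∀ n ∈ core S, ∃ z : F, (z = 1 ∨ z = ω ∨ z = ω + 1) ∧
      ∀ w, ap u (ap n w) = z • ap n (ap u w) := by
    intro n hn
    obtain ⟨z, hz⟩ := comm_scalar S hu' hn
    refine ⟨z, ?_, hz⟩
    have h1 := hz y
    rw [huy] at h1
    exact (eig _ z (fun h => hy0 ((LinearEquiv.map_eq_zero_iff _).1 h)) h1).1
  have fix : ∀ n : X, (∀ w, ap u (ap n w) = ap n (ap u w)) → ∃ k : F, ap n y = k • y := by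
    intro n hn
    refine (eig _ 1 (fun h => hy0 ((LinearEquiv.map_eq_zero_iff _).1 h)) ?_).2 rfl
    rw [hn, huy, one_smul]
  obtain ⟨zD, hzD, htD⟩ := twist D hD
  obtain ⟨zP, hzP, htP⟩ := twist P hP
  by_cases hD1 : zD = 1
  · obtain ⟨k, hk⟩ := fix D fun w => by rw [htD, hD1, one_smul]
    exact rat_of_diag S b d₁ d₂ d₃ hy0 hk
  by_cases hP1 : zP = 1
  · obtain ⟨k, hk⟩ := fix P fun w => by rw [htP, hP1, one_smul]
    exact rat_of_diag S (ON.fourier S b) p₁ p₂ p₃ hy0 hk
  -- the action of the second element on the first triple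
  have P₁ : ap P e₁ = e₃ := by
    have e : e₁ = (e₁ + e₂ + e₃) + (e₁ + ω • e₂ + (ω + 1) • e₃) +
        (e₁ + (ω + 1) • e₂ + ω • e₃) := by
      match_scalars
      · linear_combination (norm := (ring_nf <;> simp [S.two])) -S.two
      · linear_combination (norm := (ring_nf <;> simp [S.two])) (-(ω + 1)) * S.two
      · linear_combination (norm := (ring_nf <;> simp [S.two])) (-(ω + 1)) * S.two
    simp only [ap] at p₁ p₂ p₃ ⊢
    conv_lhs => rw [e, map_add, map_add, p₁, p₂, p₃]
    match_scalars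
    · linear_combination (norm := (ring_nf <;> simp [S.two])) (ω + 1) * S.two
    · linear_combination (norm := (ring_nf <;> simp [S.two])) 2 * S.rel + S.two - S.two
    · linear_combination (norm := (ring_nf <;> simp [S.two])) 2 * S.rel + (ω + 1) * S.two - ω * S.two - S.two
  have P₂ : ap P e₂ = e₁ := by
    have e : e₂ = (e₁ + e₂ + e₃) + (ω + 1) • (e₁ + ω • e₂ + (ω + 1) • e₃) +
        ω • (e₁ + (ω + 1) • e₂ + ω • e₃) := by
      match_scalars
      · linear_combination (norm := (ring_nf <;> simp [S.two])) (-(ω + 1)) * S.two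
      · linear_combination (norm := (ring_nf <;> simp [S.two])) -(2 : F) * S.rel + S.two - S.two
      · linear_combination (norm := (ring_nf <;> simp [S.two])) -(2 : F) * S.rel + S.two - S.two
    simp only [ap] at p₁ p₂ p₃ ⊢
    conv_lhs => rw [e, map_add, map_add, map_smul, map_smul, p₁, p₂, p₃]
    match_scalars
    · linear_combination (norm := (ring_nf <;> simp [S.two])) 2 * S.rel - S.two + S.two
    · linear_combination (norm := (ring_nf <;> simp [S.two])) (2 * ω + 1) * S.rel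
    · linear_combination (norm := (ring_nf <;> simp [S.two])) (2 * ω + 1) * S.rel
  have P₃ : ap P e₃ = e₂ := by
    have e : e₃ = (e₁ + e₂ + e₃) + ω • (e₁ + ω • e₂ + (ω + 1) • e₃) +
        (ω + 1) • (e₁ + (ω + 1) • e₂ + ω • e₃) := by
      match_scalars
      · linear_combination (norm := (ring_nf <;> simp [S.two])) (-(ω + 1)) * S.two
      · linear_combination (norm := (ring_nf <;> simp [S.two])) -(2 : F) * S.rel + S.two - S.two
      · linear_combination (norm := (ring_nf <;> simp [S.two])) -(2 : F) * S.rel + S.two - S.two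
    simp only [ap] at p₁ p₂ p₃ ⊢
    conv_lhs => rw [e, map_add, map_add, map_smul, map_smul, p₁, p₂, p₃]
    match_scalars
    · linear_combination (norm := (ring_nf <;> simp [S.two])) 2 * S.rel
    · linear_combination (norm := (ring_nf <;> simp [S.two])) (2 * ω + 1) * S.rel
    · linear_combination (norm := (ring_nf <;> simp [S.two])) (2 * ω + 1) * S.rel
  have hprod : ω * (ω + 1) = 1 := by linear_combination S.rel - S.two
  have hDP : ∀ w, ap u (ap (D * P) w) = (zD * zP) • ap (D * P) (ap u w) := fun w => by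
    show ap u (ap D (ap P w)) = (zD * zP) • ap D (ap P (ap u w))
    rw [htD, htP, show ap D (zP • ap P (ap u w)) = zP • ap D (ap P (ap u w)) from map_smul _ _ _,
      smul_smul]
  have hDPP : ∀ w, ap u (ap (D * P * P) w) = (zD * zP * zP) • ap (D * P * P) (ap u w) := fun w => by
    show ap u (ap (D * P) (ap P w)) = (zD * zP * zP) • ap (D * P) (ap P (ap u w))
    rw [hDP, htP, show ap (D * P) (zP • ap P (ap u w)) = zP • ap (D * P) (ap P (ap u w)) from
      map_smul _ _ _, smul_smul]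
  have case1 : zD * zP = 1 → ∃ κ : F, κ ≠ 0 ∧ κ • y ∈ R := fun hz => by
    obtain ⟨k, hk⟩ := fix (D * P) fun w => by rw [hDP, hz, one_smul]
    refine rat_of_cycle S b.swap (α := ω + 1) (β := ω) (γ := 1) (add_mem S.mem (one_mem _)) S.mem
      (by linear_combination hprod) ?_ ?_ ?_ hy0 hk
    · show ap D (ap P e₁) = _
      rw [P₁, d₃]
    · show ap D (ap P e₃) = _
      rw [P₃, d₂]
    · show ap D (ap P e₂) = _
      rw [P₂, d₁, one_smul]
  have case2 : zD * zP * zP = 1 → ∃ κ : F, κ ≠ 0 ∧ κ • y ∈ R := fun hz => by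
    obtain ⟨k, hk⟩ := fix (D * P * P) fun w => by rw [hDPP, hz, one_smul]
    refine rat_of_cycle S b (α := ω) (β := ω + 1) (γ := 1) S.mem (add_mem S.mem (one_mem _))
      (by linear_combination hprod) ?_ ?_ ?_ hy0 hk
    · show ap D (ap P (ap P e₁)) = _
      rw [P₁, P₃, d₂]
    · show ap D (ap P (ap P e₂)) = _
      rw [P₂, P₁, d₃]
    · show ap D (ap P (ap P e₃)) = _
      rw [P₃, P₂, d₁, one_smul]
  rcases hzD with h | h | h <;> rcases hzP with h' | h' | h' <;>
    first | exact absurd h hD1 | exact absurd h' hP1 | skip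
  · exact case2 (by rw [h, h']; linear_combination (ω - 1) * S.rel)
  · exact case1 (by rw [h, h']; exact hprod)
  · exact case1 (by rw [h, h']; linear_combination S.rel - S.two)
  · exact case2 (by rw [h, h']; linear_combination (ω + 2) * S.rel - S.two)

/-- A uniform multiplier. -/
theorem exists_mult [Finite F] (g : X) : ∃ κ : F, κ ≠ 0 ∧ ∀ w ∈ R, κ • ap g w ∈ R := by
  obtain ⟨e₁, e₂, e₃, b⟩ := exists_ON S
  obtain ⟨κ₁, k₁, r₁⟩ := line_rat S b g
  obtain ⟨κ₂, k₂, r₂⟩ := line_rat S b.rot g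
  obtain ⟨κ₃, k₃, r₃⟩ := line_rat S b.rot.rot g
  obtain ⟨ν, hν, rν⟩ := line_rat S (ON.fourier S b) g
  have key : ∀ {κ : F} {e : Fin (1 + 2) → F}, κ • ap g e ∈ R → κ ≠ 0 → herm q e e = 1 →
      herm q (e₁ + e₂ + e₃) e = 1 → ν / κ ∈ F₀ := by
    intro κ e hr hκ he hfe
    have hn := S.hU.form hr hr
    rw [herm_smul_left, herm_smul_right, ap, UG_app, he, mul_one] at hn
    have h1 := (S.fixed hn (by rw [mul_pow, hF.pow_pow, mul_comm])).resolve_left
      (mul_ne_zero hκ (pow_ne_zero _ hκ))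
    have h2 := S.hU.form rν hr
    rw [herm_smul_left, herm_smul_right, ap, ap, UG_app, hfe, mul_one] at h2
    rwa [show κ ^ q = κ⁻¹ from eq_inv_of_mul_eq_one_right h1, ← div_eq_mul_inv] at h2
  have q₁ := key r₁ k₁ b.n₁ (by simp [herm_add_left, b.n₁, b.o₂₁, b.o₃₁])
  have q₂ := key r₂ k₂ b.n₂ (by simp [herm_add_left, b.n₂, b.o₁₂, b.o₃₂])
  have q₃ := key r₃ k₃ b.n₃ (by simp [herm_add_left, b.n₃, b.o₁₃, b.o₂₃])
  refine ⟨ν, hν, fun w hw => ?_⟩
  have e := b.expand w
  have : ν • ap g w = (herm q w e₁ * (ν / κ₁)) • (κ₁ • ap g e₁) +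
      (herm q w e₂ * (ν / κ₂)) • (κ₂ • ap g e₂) + (herm q w e₃ * (ν / κ₃)) • (κ₃ • ap g e₃) := by
    conv_lhs => rw [e]
    simp only [ap, map_add, map_smul]
    match_scalars <;> field_simp
  rw [this]
  exact S.hU.set.add (S.hU.set.add (S.hU.set.smul (mul_mem (S.hU.form hw b.m₁) q₁) r₁)
    (S.hU.set.smul (mul_mem (S.hU.form hw b.m₂) q₂) r₂))
    (S.hU.set.smul (mul_mem (S.hU.form hw b.m₃) q₃) r₃)

end Cfsg.Agent.SUGeo.Four

namespace Cfsg.Agent.SUGeo

open Cfsg.Agent.Classical.U Cfsg.Agent.MinU Cfsg.Agent.MinU.Three Cfsg.Geo Cfsg.Agent.GeoClasses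
open Cfsg.Agent.ClassicalMax (suGL suGL_commutator suGL_not_le_subfieldSubgroup)
open scoped MatrixGroups Matrix

/-- The fifth clause for four rational scalars. -/
theorem subfield_maximal_four {F : Type*} [Field F] {q : ℕ} [Fintype F] (hF : SqField F q)
    (hq : 3 ≤ q) {F₀ : Subfield F} (h4 : Nat.card F₀ = 4) {r : ℕ} (hr : r.Prime) (hodd : Odd r)
    (hcard : Fintype.card F = Nat.card F₀ ^ r) {P : GL (Fin 3) F}
    (hP : IsFormRationalStructure (Cfsg.hermForm 3 F q) F₀ 1 P) :
    IsMaximalIn (suGL 3 F q) (subfieldSubgroup F₀ P ⊓ suGL 3 F q) := by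
  classical
  have hU : RatU q F₀ (rationalVecs F₀ P) := ratU_rationalVecs hF hodd hcard hP
  set R : Set (Fin (1 + 2) → F) := rationalVecs F₀ P with hR
  have hperf := suGL_commutator hF (n := 3) le_rfl (by omega)
  refine maximal_of_overgroups (suGL_not_le_subfieldSubgroup hF le_rfl hperf
    (MaxSub.subfield_ne_top hr hcard) P) fun X hX => ?_
  by_cases htop : X = ⊤
  · exact Or.inr htop
  left
  have hbasis : ∀ j, (P : Matrix (Fin 3) (Fin 3) F) *ᵥ Pi.single j 1 ∈ R := fun j i => by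
    show (((P⁻¹ : GL (Fin 3) F) : Matrix (Fin 3) (Fin 3) F) *ᵥ _) i ∈ F₀
    rw [gl_inv_mulVec]
    by_cases h : i = j <;> simp [h]
  have hentry : ∀ (g : SG 1 F q) i j,
      ((P⁻¹ * toGL g * P : GL (Fin 3) F) : Matrix (Fin 3) (Fin 3) F) i j =
        (((P⁻¹ : GL (Fin 3) F) : Matrix (Fin 3) (Fin 3) F) *ᵥ
          g.1.1 ((P : Matrix (Fin 3) (Fin 3) F) *ᵥ Pi.single j 1)) i := fun g i j => by
    rw [← toGL_mulVec, ← mulVec_conj_col]; simp
  haveI : Fintype F₀ := Fintype.ofFinite F₀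
  have h2 : (2 : F) = 0 := by
    have h := congrArg F₀.subtype (Nat.cast_card_eq_zero F₀)
    rw [map_natCast, map_zero, ← Nat.card_eq_fintype_card, h4] at h
    push_cast at h
    exact mul_self_eq_zero.1 ((show (2 : F) * 2 = 4 by norm_num).trans h)
  have hpow4 : ∀ z ∈ F₀, z ^ 4 = z := fun z hz => by
    have := FiniteField.pow_card (⟨z, hz⟩ : F₀)
    rw [← Nat.card_eq_fintype_card, h4] at this
    exact congrArg Subtype.val this
  obtain ⟨a, ha, hne⟩ := hU.moved
  have hrel : a ^ 2 + a + 1 = 0 := by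
    have h0 : a ≠ 0 := fun h => hne (by rw [h, zero_pow hF.q_ne_zero])
    have h1 : a ≠ 1 := fun h => hne (by rw [h, one_pow])
    have : a * (a - 1) * (a ^ 2 + a + 1) = 0 := by linear_combination hpow4 a ha
    rcases mul_eq_zero.1 this with h | h
    · exact absurd h (mul_ne_zero h0 (sub_ne_zero.2 h1))
    · exact h
  have helts : ∀ z ∈ F₀, z = 0 ∨ z = 1 ∨ z = a ∨ z = a + 1 := by
    intro z hz
    have : z * (z - 1) * ((z - a) * (z - (a + 1))) = 0 := by
      linear_combination (norm := (ring_nf <;> simp [h2])) hpow4 z hz + (z ^ 2 - z) * hrel - (z ^ 2 - z) * z * (a + 1) * h2 -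
        (z ^ 2 - z) * h2 + (z ^ 2 - z) * h2
    rcases mul_eq_zero.1 this with h | h
    · rcases mul_eq_zero.1 h with h | h
      · exact Or.inl h
      · exact Or.inr (Or.inl (sub_eq_zero.1 h))
    · rcases mul_eq_zero.1 h with h | h
      · exact Or.inr (Or.inr (Or.inl (sub_eq_zero.1 h)))
      · exact Or.inr (Or.inr (Or.inr (sub_eq_zero.1 h)))
  have hfrob : a ^ q = a + 1 := by
    have hq1 : (a ^ q) ^ 2 + a ^ q + 1 = 0 := by
      have := congrArg (fun x : F => x ^ q) hrel
      simpa [hF.add_pow, ← pow_mul, mul_comm, hF.q_ne_zero] using this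
    rcases helts _ (pow_mem ha q) with h | h | h | h
    · rw [h] at hq1; simp at hq1
    · rw [h] at hq1; exact absurd (show (1 : F) = 0 by linear_combination hq1 - h2) one_ne_zero
    · exact absurd h hne
    · exact h
  have S : Four.Setting hF F₀ R X a :=
    { hq := hq
      two := h2
      mem := ha
      rel := hrel
      frob := hfrob
      elts := helts
      hU := hU
      hK := fun v y c h hv hy hc =>
        ⟨⟨uni hF h, det_uni hF h⟩, hX (mem_subfieldSubgroup_of_ratio one_ne_zero fun i j => by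
          rw [inv_one, one_mul, hentry]
          show (((P⁻¹ : GL (Fin 3) F) : Matrix (Fin 3) (Fin 3) F) *ᵥ (uni hF h).1 _) i ∈ F₀
          rw [uni_apply]
          exact (hU.set.add (hU.set.add (hbasis j) (hU.set.smul (hU.form (hbasis j) hv) hy))
            (hU.set.smul (sub_mem (mul_mem hc (hU.form (hbasis j) hv))
              (hU.form (hbasis j) hy)) hv)) i), rfl⟩
      mid := mid_fixField hF ha hne (MaxSub.SubfieldMax.mid_of_prime hr hcard)
      ne_top := htop }
  intro g hg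
  obtain ⟨κ, hκ0, hall⟩ := Four.exists_mult S ⟨g, hg⟩
  refine mem_subfieldSubgroup_of_ratio (a := κ⁻¹) (inv_ne_zero hκ0) fun i j => ?_
  rw [hentry, inv_inv]
  have := hall _ (hbasis j) i
  simpa [Matrix.mulVec_smul, Four.ap] using this

/-- The fifth clause. -/
theorem subfield_maximal {F : Type*} [Field F] [Fintype F] {q : ℕ}
    (hF : Cfsg.Agent.Classical.U.SqField F q) (hq : 3 ≤ q) (F₀ : Subfield F) (r : ℕ)
    (P : GL (Fin 3) F) (hr : r.Prime) (hodd : Odd r) (hcard : Fintype.card F = Nat.card F₀ ^ r)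
    (hP : IsFormRationalStructure (Cfsg.hermForm 3 F q) F₀ 1 P) :
    IsMaximalIn (suGL 3 F q) (subfieldSubgroup F₀ P ⊓ suGL 3 F q) := by
  by_cases h4 : Nat.card F₀ = 4
  · exact subfield_maximal_four hF hq h4 hr hodd hcard hP
  · exact subfield_maximal_of_ne_four hF hq h4 hr hodd hcard hP

end Cfsg.Agent.SUGeo
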